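import Mathlib

/-!
# Groups with the order and the element orders of `PSL(2, q)`, `q` odd: hypotheses

`q = a + b`, where `a` is the even one and `b` the odd one of `(q - 1) / 2`, `(q + 1) / 2`.
-/

set_option autoImplicit false

namespace Cfsg.Agent.Lib.Helper14.OS

/-- Non-identity elements whose order divides `n`. -/
def X (G : Type*) [Group G] (n : ℕ) : Set G := {g | g ≠ 1 ∧ orderOf g ∣ n}

/-- The order and element-order hypotheses of the odd case. -/
structure Hyp (G : Type*) [Group G] (q a b : ℕ) : Prop where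
  hab : a + b = q
  hdiff : a = b + 1 ∨ b = a + 1
  ha : Even a
  hb : 3 ≤ b
  hcard : Nat.card G = 2 * q * a * b
  hord : ∀ g : G, orderOf g ∣ q ∨ orderOf g ∣ a ∨ orderOf g ∣ b
  hexa : ∃ g : G, orderOf g = a
  hexb : ∃ g : G, orderOf g = b

end Cfsg.Agent.Lib.Helper14.OS
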