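import Mathlib
import Cfsg.Prelude.Def_ClassicalGeometry
import Cfsg.Agent.Lib.Helper47.SpConj

set_option autoImplicit false

namespace Cfsg.Agent.Lib.Helper98.SM

open Matrix Polynomial

theorem mem_spGL_iff_symplectic {F : Type*} [Field F] (g : GL (Fin 2 ⊕ Fin 2) F) :
    g ∈ Cfsg.spGL 2 F ↔
      (g : Matrix (Fin 2 ⊕ Fin 2) (Fin 2 ⊕ Fin 2) F) ∈ Matrix.symplecticGroup (Fin 2) F := by
  constructor
  · intro hg
    exact Cfsg.Agent.Lib.Helper47.mem_sp_of_isometry (fun x y => hg x y)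
  · intro hg u v
    have h := Cfsg.Agent.Lib.Helper47.spForm_isometry hg u v
    simp only [Matrix.toLin'_apply] at h
    exact h

theorem sp_scalar_sq {F : Type*} [Field F] (g : GL (Fin 2 ⊕ Fin 2) F) (hg : g ∈ Cfsg.spGL 2 F)
    (z : F) (hz : (g : Matrix (Fin 2 ⊕ Fin 2) (Fin 2 ⊕ Fin 2) F)
      = z • (1 : Matrix (Fin 2 ⊕ Fin 2) (Fin 2 ⊕ Fin 2) F)) : z * z = 1 := by
  have h1 := (mem_spGL_iff_symplectic g).mp hg
  rw [hz, SymplecticGroup.mem_iff] at h1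
  have h2 := congrFun (congrFun h1 (Sum.inl 0)) (Sum.inr 0)
  simp [Matrix.J, Matrix.transpose_smul] at h2
  linear_combination h2

theorem sp_conj_of_charpoly {F : Type*} [Field F] [Finite F] (p : ℕ) [Fact p.Prime] [CharP F p]
    (x u : GL (Fin 2 ⊕ Fin 2) F) (hx : x ∈ Cfsg.spGL 2 F) (hu : u ∈ Cfsg.spGL 2 F)
    (k : ℕ) (hk : k.Coprime p) (hxk : x ^ k = 1) (huk : u ^ k = 1)
    (hc : (x : Matrix (Fin 2 ⊕ Fin 2) (Fin 2 ⊕ Fin 2) F).charpoly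
      = (u : Matrix (Fin 2 ⊕ Fin 2) (Fin 2 ⊕ Fin 2) F).charpoly) :
    ∃ g ∈ Cfsg.spGL 2 F, g⁻¹ * x * g = u := by
  have hx' := (mem_spGL_iff_symplectic x).mp hx
  have hu' := (mem_spGL_iff_symplectic u).mp hu
  have hxk' : (⟨(x : Matrix (Fin 2 ⊕ Fin 2) (Fin 2 ⊕ Fin 2) F), hx'⟩ :
      Matrix.symplecticGroup (Fin 2) F) ^ k = 1 := by
    apply Subtype.ext
    rw [SubmonoidClass.coe_pow]
    have := congrArg (fun y : GL (Fin 2 ⊕ Fin 2) F =>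
      (y : Matrix (Fin 2 ⊕ Fin 2) (Fin 2 ⊕ Fin 2) F)) hxk
    simpa using this
  have huk' : (⟨(u : Matrix (Fin 2 ⊕ Fin 2) (Fin 2 ⊕ Fin 2) F), hu'⟩ :
      Matrix.symplecticGroup (Fin 2) F) ^ k = 1 := by
    apply Subtype.ext
    rw [SubmonoidClass.coe_pow]
    have := congrArg (fun y : GL (Fin 2 ⊕ Fin 2) F =>
      (y : Matrix (Fin 2 ⊕ Fin 2) (Fin 2 ⊕ Fin 2) F)) huk
    simpa using this
  have hconj := Cfsg.Agent.Lib.Helper47.sp_isConj_of_charpoly_eq p 2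
    ⟨(x : Matrix (Fin 2 ⊕ Fin 2) (Fin 2 ⊕ Fin 2) F), hx'⟩
    ⟨(u : Matrix (Fin 2 ⊕ Fin 2) (Fin 2 ⊕ Fin 2) F), hu'⟩ k k hk hk hxk' huk' hc
  rw [isConj_iff] at hconj
  obtain ⟨c, hcx⟩ := hconj
  -- `c * x * c⁻¹ = u` in the symplectic group
  have hcx' : c * ⟨(x : Matrix (Fin 2 ⊕ Fin 2) (Fin 2 ⊕ Fin 2) F), hx'⟩
      = ⟨(u : Matrix (Fin 2 ⊕ Fin 2) (Fin 2 ⊕ Fin 2) F), hu'⟩ * c := by
    rw [← hcx]; group
  have hmat : (c : Matrix (Fin 2 ⊕ Fin 2) (Fin 2 ⊕ Fin 2) F)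
      * (x : Matrix (Fin 2 ⊕ Fin 2) (Fin 2 ⊕ Fin 2) F)
      = (u : Matrix (Fin 2 ⊕ Fin 2) (Fin 2 ⊕ Fin 2) F)
        * (c : Matrix (Fin 2 ⊕ Fin 2) (Fin 2 ⊕ Fin 2) F) := by
    have := congrArg (fun y : Matrix.symplecticGroup (Fin 2) F =>
      (y : Matrix (Fin 2 ⊕ Fin 2) (Fin 2 ⊕ Fin 2) F)) hcx'
    simpa using this
  -- the GL element attached to `c`
  obtain ⟨d, hd⟩ : ∃ d : GL (Fin 2 ⊕ Fin 2) F,
      (d : Matrix (Fin 2 ⊕ Fin 2) (Fin 2 ⊕ Fin 2) F)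
        = (c : Matrix (Fin 2 ⊕ Fin 2) (Fin 2 ⊕ Fin 2) F) :=
    ⟨Units.map (Matrix.symplecticGroup (Fin 2) F).subtype (toUnits c), rfl⟩
  have hdmem : d ∈ Cfsg.spGL 2 F := by
    rw [mem_spGL_iff_symplectic, hd]
    exact c.2
  have hdx : d * x = u * d := by
    apply Units.ext
    rw [Units.val_mul, Units.val_mul, hd]
    exact hmat
  refine ⟨d⁻¹, inv_mem hdmem, ?_⟩
  rw [inv_inv, hdx]
  group

end Cfsg.Agent.Lib.Helper98.SM
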