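import Mathlib
import Cfsg.Agent.Lib.Helper14.FF1
import Cfsg.Agent.Lib.Helper14.QuadSylow

set_option autoImplicit false

namespace Cfsg.Agent.Lib.Helper14

open Cfsg

section dihedral

variable {U : Type*} [CommGroup U] [Finite U]

attribute [local instance] Fintype.ofFinite

/-- the norm map of the finite cyclic group `⟨η⟩` of automorphisms of the abelian group `U`. -/
noncomputable def normHom (η : MulAut U) : U →* U where
  toFun := fun u => ∏ g : ↥(Subgroup.zpowers η), (g : MulAut U) u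
  map_one' := by simp
  map_mul' := fun u v => by simp [Finset.prod_mul_distrib]

theorem normHom_apply (η : MulAut U) (u : U) :
    normHom η u = ∏ g : ↥(Subgroup.zpowers η), (g : MulAut U) u := rfl

theorem normHom_smul (η : MulAut U) (g : MulAut U) (hg : g ∈ Subgroup.zpowers η) (u : U) :
    normHom η (g u) = normHom η u := by
  rw [normHom_apply, normHom_apply]
  exact Fintype.prod_equiv (Equiv.mulRight (⟨g, hg⟩ : ↥(Subgroup.zpowers η)))
    (fun h : ↥(Subgroup.zpowers η) => (h : MulAut U) (g u))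
    (fun h : ↥(Subgroup.zpowers η) => (h : MulAut U) u) (fun h => rfl)

omit [Finite U] in
theorem fix_of_mem_zpowers (η : MulAut U) (u : U) (hu : η u = u) (g : MulAut U)
    (hg : g ∈ Subgroup.zpowers η) : g u = u := by
  have h1 : Subgroup.zpowers η ≤ MulAction.stabilizer (MulAut U) u := by
    rw [Subgroup.zpowers_le]
    exact hu
  exact h1 hg

theorem normHom_fix (η : MulAut U) (hU : ∀ u : U, u ^ 2 = 1) (hodd : Odd (orderOf η)) (u : U)
    (hu : η u = u) : normHom η u = u := by
  rw [normHom_apply]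
  have h1 : ∀ g : ↥(Subgroup.zpowers η), (g : MulAut U) u = u := fun g =>
    fix_of_mem_zpowers η u hu g g.2
  simp only [h1, Finset.prod_const, Finset.card_univ]
  rw [← Nat.card_eq_fintype_card, Nat.card_zpowers]
  obtain ⟨k, hk⟩ := hodd
  rw [hk, pow_succ, pow_mul, hU, one_pow, one_mul]

theorem normHom_conj (α η : MulAut U) (hinv : α * η * α⁻¹ = η⁻¹) (u : U) :
    normHom η (α u) = α (normHom η u) := by
  have h1 : ∀ g ∈ Subgroup.zpowers η, α * g = g⁻¹ * α := by
    intro g hg
    obtain ⟨k, rfl⟩ := Subgroup.mem_zpowers_iff.mp hg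
    have h2 : α * η ^ k * α⁻¹ = (η ^ k)⁻¹ := by
      rw [← conj_zpow, hinv, inv_zpow]
    calc α * η ^ k = α * η ^ k * α⁻¹ * α := by group
      _ = (η ^ k)⁻¹ * α := by rw [h2]
  rw [normHom_apply, normHom_apply, map_prod]
  refine Fintype.prod_equiv (Equiv.inv ↥(Subgroup.zpowers η))
    (fun h : ↥(Subgroup.zpowers η) => (h : MulAut U) (α u))
    (fun h : ↥(Subgroup.zpowers η) => α ((h : MulAut U) u)) (fun h => ?_)
  show (h : MulAut U) (α u) = α (((h⁻¹ : ↥(Subgroup.zpowers η)) : MulAut U) u)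
  have h3 := h1 (h⁻¹ : ↥(Subgroup.zpowers η)) (h⁻¹ : ↥(Subgroup.zpowers η)).2
  have h4 := congrArg (fun f : MulAut U => f u) h3
  simp only [MulAut.mul_apply, Subgroup.coe_inv, inv_inv] at h4
  exact h4.symm

theorem dihedral_index (hU : ∀ u : U, u ^ 2 = 1)
    (α η : MulAut U) (hinv : α * η * α⁻¹ = η⁻¹)
    {r : ℕ} (hr : r.Prime) (hord : orderOf η = r) (hr2 : r ≠ 2) (hr3 : r ≠ 3)
    (F : Subgroup U) (hF : ∀ u, u ∈ F ↔ α u = u) : 4 ≤ F.index := by
  have : Fact r.Prime := ⟨hr⟩
  have hr5 : 5 ≤ r := by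
    have := hr.two_le
    rcases Nat.lt_or_ge r 5 with h | h
    · interval_cases r
      · exact absurd rfl hr2
      · exact absurd rfl hr3
      · exact absurd hr (by decide)
    · exact h
  have hodd : Odd (orderOf η) := by rw [hord]; exact hr.odd_of_ne_two hr2
  have hη1 : η ≠ 1 := by intro h; rw [h, orderOf_one] at hord; omega
  have hηr : η ^ r = 1 := by rw [← hord]; exact pow_orderOf_eq_one η
  set X₁ : Subgroup U := (normHom η).ker with hX₁
  have hfix : ∀ u ∈ X₁, η u = u → u = 1 := by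
    intro u hu h
    have h1 := normHom_fix η hU hodd u h
    rw [hX₁, MonoidHom.mem_ker] at hu
    rw [← h1, hu]
  have hgen : ∀ g ∈ Subgroup.zpowers η, g ≠ 1 → ∀ u, g u = u → η u = u := by
    intro g hg hg1 u hgu
    have h1 : η ∈ Subgroup.zpowers g := mem_zpowers_of_prime (p := r) hηr hg hg1
    exact fix_of_mem_zpowers g u hgu η h1
  have hXη : ∀ g ∈ Subgroup.zpowers η, ∀ u, g u ∈ X₁ ↔ u ∈ X₁ := by
    intro g hg u
    rw [hX₁, MonoidHom.mem_ker, MonoidHom.mem_ker, normHom_smul η g hg]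
  -- a nonidentity element of `X₁`
  obtain ⟨w, hwX, hw1⟩ : ∃ w ∈ X₁, w ≠ 1 := by
    have : ∃ u, η u ≠ u := by
      by_contra hcon
      apply hη1
      ext u
      by_contra h
      exact hcon ⟨u, h⟩
    obtain ⟨u, hu⟩ := this
    refine ⟨u⁻¹ * η u, ?_, ?_⟩
    · rw [hX₁, MonoidHom.mem_ker, map_mul, map_inv,
        normHom_smul η η (Subgroup.mem_zpowers η), inv_mul_cancel]
    · intro h
      apply hu
      rw [inv_mul_eq_one] at h
      exact h.symm
  -- the orbit of `w`
  have hcardX : r + 1 ≤ Nat.card X₁ := by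
    let f : Option ↥(Subgroup.zpowers η) → ↥X₁ := fun o =>
      o.elim 1 (fun g => ⟨(g : MulAut U) w, (hXη g g.2 w).mpr hwX⟩)
    have hf : Function.Injective f := by
      intro o₁ o₂ h
      rcases o₁ with _ | g <;> rcases o₂ with _ | h'
      · rfl
      · exfalso
        have h1 : (h' : MulAut U) w = 1 := (congrArg Subtype.val h).symm
        apply hw1
        have := congrArg (fun z => (h' : MulAut U)⁻¹ z) h1
        simpa using this
      · exfalso
        have h1 : (g : MulAut U) w = 1 := congrArg Subtype.val h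
        apply hw1
        have := congrArg (fun z => (g : MulAut U)⁻¹ z) h1
        simpa using this
      · have h1 : (g : MulAut U) w = (h' : MulAut U) w := congrArg Subtype.val h
        have h2 : ((h' : MulAut U)⁻¹ * (g : MulAut U)) w = w := by
          rw [MulAut.mul_apply, h1]
          simp
        by_contra hne
        have h3 : (h' : MulAut U)⁻¹ * (g : MulAut U) ≠ 1 := by
          intro h4
          apply hne
          have h5 : (g : MulAut U) = (h' : MulAut U) := by
            rw [inv_mul_eq_one] at h4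
            exact h4.symm
          rw [Subtype.ext h5]
        have h4 := hgen _ (Subgroup.mul_mem _ (Subgroup.inv_mem _ h'.2) g.2) h3 w h2
        exact hw1 (hfix w hwX h4)
    have h1 := Nat.card_le_card_of_injective f hf
    rw [Finite.card_option, Nat.card_zpowers, hord] at h1
    exact h1
  -- the two fixed point groups
  set F₁ : Subgroup U := F ⊓ X₁ with hF₁
  set F₂ : Subgroup U := (F.comap η.toMonoidHom) ⊓ X₁ with hF₂
  have hF₂mem : ∀ u, u ∈ F₂ ↔ η u ∈ F₁ := by
    intro u
    rw [hF₂, hF₁, Subgroup.mem_inf, Subgroup.mem_inf, Subgroup.mem_comap,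
      hXη η (Subgroup.mem_zpowers η) u]
    rfl
  have hcard12 : Nat.card F₂ = Nat.card F₁ :=
    Nat.card_congr (Equiv.subtypeEquiv η.toEquiv hF₂mem)
  have hdisj : ∀ u, u ∈ F₁ → u ∈ F₂ → u = 1 := by
    intro u hu1 hu2
    have hαu : α u = u := (hF u).mp (Subgroup.mem_inf.mp hu1).1
    have hαηu : α (η u) = η u := (hF (η u)).mp (Subgroup.mem_inf.mp ((hF₂mem u).mp hu2)).1
    have h1 : α * η = η⁻¹ * α := by
      calc α * η = α * η * α⁻¹ * α := by group
        _ = η⁻¹ * α := by rw [hinv]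
    have h2 : η⁻¹ u = η u := by
      have := congrArg (fun f : MulAut U => f u) h1
      simp only [MulAut.mul_apply] at this
      rw [hαηu, hαu] at this
      exact this.symm
    have h3 : (η ^ 2) u = u := by
      rw [pow_two, MulAut.mul_apply, ← h2]
      simp
    have h4 : η ^ 2 ≠ 1 := by
      intro h
      have := orderOf_dvd_of_pow_eq_one h
      rw [hord] at this
      have := Nat.le_of_dvd (by norm_num) this
      omega
    exact hfix u (Subgroup.mem_inf.mp hu1).2
      (hgen _ (Subgroup.pow_mem _ (Subgroup.mem_zpowers η) 2) h4 u h3)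
  have hsq : Nat.card F₁ * Nat.card F₁ ≤ Nat.card X₁ := by
    let f : ↥F₁ × ↥F₂ → ↥X₁ := fun ab =>
      ⟨(ab.1 : U) * (ab.2 : U), X₁.mul_mem (Subgroup.mem_inf.mp ab.1.2).2
        (Subgroup.mem_inf.mp ab.2.2).2⟩
    have hf : Function.Injective f := by
      rintro ⟨a, b⟩ ⟨a', b'⟩ h
      have h1 : (a : U) * (b : U) = (a' : U) * (b' : U) := congrArg Subtype.val h
      have h2 : (a' : U)⁻¹ * (a : U) = (b' : U) * (b : U)⁻¹ := by
        rw [inv_mul_eq_iff_eq_mul, ← mul_assoc, ← h1, mul_assoc, mul_inv_cancel, mul_one]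
      have h3 : (a' : U)⁻¹ * (a : U) = 1 := by
        apply hdisj
        · exact F₁.mul_mem (F₁.inv_mem a'.2) a.2
        · rw [h2]; exact F₂.mul_mem b'.2 (F₂.inv_mem b.2)
      have h4 : (b' : U) * (b : U)⁻¹ = 1 := by rw [← h2, h3]
      have h5 : (a : U) = a' := by
        rw [inv_mul_eq_one] at h3; exact h3.symm
      have h6 : (b : U) = b' := by
        rw [mul_inv_eq_one] at h4; exact h4.symm
      exact Prod.ext (Subtype.ext h5) (Subtype.ext h6)
    have h1 := Nat.card_le_card_of_injective f hf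
    rw [Nat.card_prod, hcard12] at h1
    exact h1
  -- arithmetic
  have hrel : Nat.card F₁ * F.relIndex X₁ = Nat.card X₁ := by
    have := card_mul_relIndex (inf_le_right : F ⊓ X₁ ≤ X₁)
    rwa [Subgroup.inf_relIndex_right] at this
  have hle : F.relIndex X₁ ≤ F.index := by
    have h1 := Subgroup.relIndex_le_of_le_right (H := F) (le_top : X₁ ≤ ⊤)
      (by rw [Subgroup.relIndex_top_right]; exact Subgroup.index_ne_zero_of_finite)
    rwa [Subgroup.relIndex_top_right] at h1
  have hX2 : IsPGroup 2 ↥X₁ := by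
    intro x
    exact ⟨1, Subtype.ext (by simpa using hU x)⟩
  obtain ⟨d, hd⟩ := (IsPGroup.iff_card (p := 2)).mp hX2
  have hdvd : F.relIndex X₁ ∣ 2 ^ d := by
    rw [← hd, ← hrel]; exact dvd_mul_left _ _
  obtain ⟨k, hk, hk2⟩ := (Nat.dvd_prime_pow Nat.prime_two).mp hdvd
  have hk2' : 2 ≤ k := by
    by_contra hlt
    have hk1 : k ≤ 1 := by omega
    have hi : F.relIndex X₁ ≤ 2 := by
      rw [hk2]
      calc 2 ^ k ≤ 2 ^ 1 := Nat.pow_le_pow_right (by norm_num) hk1
        _ = 2 := by norm_num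
    have hc : Nat.card F₁ ≤ F.relIndex X₁ := by
      by_contra hgt'
      have hgt := not_le.mp hgt'
      have hpos : 0 < Nat.card F₁ := Nat.card_pos
      nlinarith
    nlinarith
  calc 4 = 2 ^ 2 := by norm_num
    _ ≤ 2 ^ k := Nat.pow_le_pow_right (by norm_num) hk2'
    _ = F.relIndex X₁ := hk2.symm
    _ ≤ F.index := hle

end dihedral

section symthree

/-- a group generated by an involution `a` and an element `y` of order `3` inverted by `a` maps
onto `S₃`. -/
theorem exists_surj_perm3_of_top {D : Type*} [Group D] [Finite D] (a y : D) (ha1 : a ≠ 1)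
    (ha2 : a ^ 2 = 1) (hy : orderOf y = 3) (hinv : a * y * a⁻¹ = y⁻¹)
    (hgen : Subgroup.zpowers a ⊔ Subgroup.zpowers y = ⊤) :
    ∃ f : D →* Equiv.Perm (Fin 3), Function.Surjective f := by
  have hoa : orderOf a = 2 := orderOf_eq_prime ha2 ha1
  have hnorm : Subgroup.zpowers a ≤ Subgroup.normalizer (Subgroup.zpowers y : Set D) := by
    rw [Subgroup.zpowers_le]
    apply mem_normalizer_of_conj_mem
    intro r hr
    obtain ⟨k, rfl⟩ := Subgroup.mem_zpowers_iff.mp hr
    rw [← conj_zpow, hinv, inv_zpow]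
    exact Subgroup.inv_mem _ (Subgroup.zpow_mem_zpowers y k)
  have hinf : Subgroup.zpowers a ⊓ Subgroup.zpowers y = ⊥ := by
    apply disjoint_iff.mp
    apply Subgroup.disjoint_of_coprime_natCard
    rw [Nat.card_zpowers, Nat.card_zpowers, hoa, hy]
    decide
  have hcard : Nat.card D = 6 := by
    have h1 := card_sup_mul_card_inf hnorm
    rw [hinf, hgen, Subgroup.card_bot, Subgroup.card_top, Nat.card_zpowers, Nat.card_zpowers,
      hoa, hy] at h1
    omega
  have hidx : (Subgroup.zpowers a).index = 3 := by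
    have h1 := (Subgroup.zpowers a).index_mul_card
    rw [hcard, Nat.card_zpowers, hoa] at h1
    omega
  set H : Subgroup D := Subgroup.zpowers a with hH
  have hcore : H.normalCore = ⊥ := by
    rw [eq_bot_iff]
    intro x hx
    rw [Subgroup.mem_bot]
    by_contra hx1
    have hxH : x ∈ H := Subgroup.normalCore_le H hx
    have : Fact (Nat.Prime 2) := ⟨Nat.prime_two⟩
    have haz : a ∈ Subgroup.zpowers x := mem_zpowers_of_prime (p := 2) ha2 hxH hx1
    have haN : a ∈ H.normalCore := (Subgroup.zpowers_le.mpr hx) haz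
    have h1 : y * a * y⁻¹ ∈ H := Subgroup.normalCore_le H
      ((inferInstance : H.normalCore.Normal).conj_mem a haN y)
    have h2 : y * a * y⁻¹ ≠ 1 := by
      intro h
      apply ha1
      have : a = y⁻¹ * (y * a * y⁻¹) * y := by group
      rw [this, h]; group
    have h4 : y * a * y⁻¹ = a := by
      have h6 : y * a * y⁻¹ ∈ Subgroup.zpowers a := h1
      obtain ⟨j, hj⟩ := Subgroup.mem_zpowers_iff.mp h6
      rcases Int.emod_two_eq_zero_or_one j with hj2 | hj2
      · exfalso
        apply h2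
        rw [← hj, ← Int.emod_add_mul_ediv j 2, hj2, zero_add, zpow_mul, zpow_ofNat, ha2, one_zpow]
      · rw [← hj, ← Int.emod_add_mul_ediv j 2, hj2, zpow_add, zpow_one, zpow_mul, zpow_ofNat, ha2,
          one_zpow, mul_one]
    have h5 : a * y * a⁻¹ = y := by
      calc a * y * a⁻¹ = (y * a * y⁻¹)⁻¹⁻¹ * y * a⁻¹ := by rw [h4, inv_inv]
        _ = y := by group
    have h6 : y ^ 2 = 1 := by
      have : y = y⁻¹ := h5.symm.trans hinv
      calc y ^ 2 = y * y := pow_two y
        _ = y * y⁻¹ := by rw [← this]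
        _ = 1 := mul_inv_cancel y
    have := orderOf_dvd_of_pow_eq_one h6
    rw [hy] at this
    omega
  have hφ : Function.Injective (MulAction.toPermHom D (D ⧸ H)) := by
    rw [← MonoidHom.ker_eq_bot_iff, ← Subgroup.normalCore_eq_ker, hcore]
  have hc3 : Nat.card (D ⧸ H) = 3 := by rw [← Subgroup.index_eq_card]; exact hidx
  let e : D ⧸ H ≃ Fin 3 := Finite.equivFinOfCardEq hc3
  refine ⟨(e.permCongrHom).toMonoidHom.comp (MulAction.toPermHom D (D ⧸ H)), ?_⟩
  have hinj : Function.Injective ((e.permCongrHom).toMonoidHom.comp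
      (MulAction.toPermHom D (D ⧸ H))) := e.permCongrHom.injective.comp hφ
  refine (hinj.bijective_of_nat_card_le ?_).2
  rw [hcard, Nat.card_eq_fintype_card, Fintype.card_perm, Fintype.card_fin]
  decide

theorem exists_surj_perm3 {G : Type*} [Group G] [Finite G] (a y : G) (ha1 : a ≠ 1)
    (ha2 : a ^ 2 = 1) (hy : orderOf y = 3) (hinv : a * y * a⁻¹ = y⁻¹) :
    ∃ f : ↥(Subgroup.zpowers a ⊔ Subgroup.zpowers y) →* Equiv.Perm (Fin 3),
      Function.Surjective f := by
  set D := Subgroup.zpowers a ⊔ Subgroup.zpowers y with hD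
  have haD : a ∈ D := Subgroup.mem_sup_left (Subgroup.mem_zpowers a)
  have hyD : y ∈ D := Subgroup.mem_sup_right (Subgroup.mem_zpowers y)
  apply exists_surj_perm3_of_top (⟨a, haD⟩ : ↥D) ⟨y, hyD⟩
  · intro h; exact ha1 (congrArg Subtype.val h)
  · exact Subtype.ext ha2
  · rw [Subgroup.orderOf_mk]; exact hy
  · exact Subtype.ext hinv
  · apply Subgroup.map_injective D.subtype_injective
    rw [Subgroup.map_sup, ← MonoidHom.range_eq_map, Subgroup.range_subtype,
      MonoidHom.map_zpowers, MonoidHom.map_zpowers]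
    rfl

end symthree

section bender

variable {G : Type*} [Group G] [Finite G] {p : ℕ} [Fact p.Prime] {V H M : Subgroup G}

/-- for every nonidentity element `x` of an elementary abelian `p`-subgroup `A` of `H` there is a
complement `B` to `⟨x⟩` in `A` such that `x` does not centralize `C_M(B)`. -/
theorem FFSetup.ea_exists_hyperplane {A : Subgroup G} (S : FFSetup p V H M) (hAH : A ≤ H)
    (hAc : ∀ a ∈ A, ∀ b ∈ A, a * b = b * a) (hAp : ∀ a ∈ A, a ^ p = 1)
    (x : G) (hxA : x ∈ A) (hx1 : x ≠ 1) :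
    ∃ B : Subgroup G, B ≤ A ∧ A = B ⊔ Subgroup.zpowers x ∧ x ∉ B ∧
      ¬ ∀ m ∈ M ⊓ Subgroup.centralizer (B : Set G), x * m = m * x := by
  have hp : p.Prime := Fact.out
  have hxp := hAp x hxA
  let Pr : Subgroup G → Prop := fun B => B ≤ A ∧ x ∉ B ∧
    ¬ ∀ m ∈ M ⊓ Subgroup.centralizer (B : Set G), x * m = m * x
  have hbot : Pr ⊥ := by
    refine ⟨bot_le, fun h => hx1 (Subgroup.mem_bot.mp h), ?_⟩
    intro hc
    apply S.not_cent (hAH hxA) hxp hx1
    intro m hm
    apply hc m
    refine Subgroup.mem_inf.mpr ⟨hm, ?_⟩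
    rw [Subgroup.mem_centralizer_iff]
    intro y hy
    rw [SetLike.mem_coe, Subgroup.mem_bot] at hy
    rw [hy, one_mul, mul_one]
  obtain ⟨B, -, hBmax⟩ := Finite.exists_le_maximal (p := Pr) hbot
  obtain ⟨⟨hBA, hxB, hBnc⟩, hBm⟩ := hBmax
  refine ⟨B, hBA, ?_, hxB, hBnc⟩
  by_contra hne
  have hlt : B ⊔ Subgroup.zpowers x ≤ A := sup_le hBA (Subgroup.zpowers_le.mpr hxA)
  obtain ⟨b, hbA, hbn⟩ : ∃ b ∈ A, b ∉ B ⊔ Subgroup.zpowers x := by
    by_contra hcon
    apply hne
    apply le_antisymm _ hlt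
    intro y hy
    by_contra hy'
    exact hcon ⟨y, hy, hy'⟩
  have hbp := hAp b hbA
  set P := Subgroup.zpowers x ⊔ Subgroup.zpowers b with hP
  have hPA : P ≤ A := sup_le (Subgroup.zpowers_le.mpr hxA) (Subgroup.zpowers_le.mpr hbA)
  have hxP : x ∈ P := Subgroup.mem_sup_left (Subgroup.mem_zpowers x)
  have hbP : b ∈ P := Subgroup.mem_sup_right (Subgroup.mem_zpowers b)
  have hPelt : ∀ y ∈ P, ∃ i j : ℤ, y = x ^ i * b ^ j := by
    intro y hy
    obtain ⟨w, hw, c, hc, rfl⟩ := exists_mul_of_mem_sup_abelian hAc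
      (Subgroup.zpowers_le.mpr hxA) (Subgroup.zpowers_le.mpr hbA) hy
    obtain ⟨i, rfl⟩ := Subgroup.mem_zpowers_iff.mp hw
    obtain ⟨j, rfl⟩ := Subgroup.mem_zpowers_iff.mp hc
    exact ⟨i, j, rfl⟩
  have hPB : ∀ y ∈ P, y ∈ B → y = 1 := by
    intro y hyP hyB
    obtain ⟨i, j, rfl⟩ := hPelt y hyP
    have hbj : b ^ j = 1 := by
      by_contra hbj
      have h1 : b ∈ Subgroup.zpowers (b ^ j) :=
        mem_zpowers_of_prime hbp (Subgroup.zpow_mem_zpowers b j) hbj
      apply hbn
      have h2 : b ^ j ∈ B ⊔ Subgroup.zpowers x := by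
        have : b ^ j = (x ^ i)⁻¹ * (x ^ i * b ^ j) := by group
        rw [this]
        exact Subgroup.mul_mem _ (Subgroup.inv_mem _ (Subgroup.mem_sup_right
          (Subgroup.zpow_mem_zpowers x i))) (Subgroup.mem_sup_left hyB)
      exact (Subgroup.zpowers_le.mpr h2) h1
    rw [hbj, mul_one] at hyB ⊢
    by_contra hxi
    exact hxB ((Subgroup.zpowers_le.mpr hyB)
      (mem_zpowers_of_prime hxp (Subgroup.zpow_mem_zpowers x i) hxi))
  haveI hPcomm : IsMulCommutative ↥P :=
    ⟨⟨fun y z => Subtype.ext (hAc y (hPA y.2) z (hPA z.2))⟩⟩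
  have hPnc : ¬ IsCyclic ↥P := by
    intro hcyc
    obtain ⟨g, hg⟩ := hcyc.exists_generator
    have hgp : (g : G) ^ p = 1 := hAp g (hPA g.2)
    have hmem : ∀ y (hy : y ∈ P), y ∈ Subgroup.zpowers (g : G) := by
      intro y hy
      obtain ⟨i, hi⟩ := Subgroup.mem_zpowers_iff.mp (hg ⟨y, hy⟩)
      refine Subgroup.mem_zpowers_iff.mpr ⟨i, ?_⟩
      have := congrArg Subtype.val hi
      simpa using this
    have hgx : (g : G) ∈ Subgroup.zpowers x := mem_zpowers_of_prime hgp (hmem x hxP) hx1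
    apply hbn
    exact Subgroup.mem_sup_right ((Subgroup.zpowers_le.mpr hgx) (hmem b hbP))
  set L := M ⊓ Subgroup.centralizer (B : Set G) with hL
  have hPL : P ≤ Subgroup.normalizer (L : Set G) := by
    intro y hy
    apply mem_normalizer_of_conj_mem
    intro m hm
    obtain ⟨hmM, hmB⟩ := Subgroup.mem_inf.mp hm
    refine Subgroup.mem_inf.mpr ⟨conj_mem_of_normalizer hmM (S.hMn (hAH (hPA hy))), ?_⟩
    rw [Subgroup.mem_centralizer_iff]
    intro β hβ
    have h1 := Subgroup.mem_centralizer_iff.mp hmB β hβ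
    have h2 := hAc y (hPA hy) β (hBA hβ)
    calc β * (y * m * y⁻¹) = (β * y) * m * y⁻¹ := by group
      _ = (y * β) * m * y⁻¹ := by rw [h2]
      _ = y * (β * m) * y⁻¹ := by group
      _ = y * (m * β) * y⁻¹ := by rw [h1]
      _ = y * m * (y⁻¹ * (y * β)) * y⁻¹ := by group
      _ = y * m * (y⁻¹ * (β * y)) * y⁻¹ := by rw [h2]
      _ = y * m * y⁻¹ * β := by group
  have hcop : (Nat.card P).Coprime (Nat.card L) := by
    have hPp : IsPGroup p P := isPGroup_of_pow (fun y hy => hAp y (hPA hy))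
    obtain ⟨n, hn⟩ := IsPGroup.iff_card.mp hPp
    rw [hn]
    apply Nat.Coprime.pow_left
    exact (Nat.Coprime.coprime_dvd_left (Subgroup.card_dvd_of_le inf_le_left) S.hMc).symm
  have hgenL := Cfsg.Agent.S0058.result P L hPnc hPL hcop
  apply hBnc
  have hle : L ≤ Subgroup.centralizer ({x} : Set G) := by
    refine hgenL.ge.trans (iSup₂_le fun y hy => ?_)
    obtain ⟨hyP, hy1⟩ := hy
    by_cases hyx : y ∈ Subgroup.zpowers x
    · have hxy : x ∈ Subgroup.zpowers y := mem_zpowers_of_prime hxp hyx hy1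
      intro m hm
      have hmy : m ∈ Subgroup.centralizer ({y} : Set G) := (Subgroup.mem_inf.mp hm).2
      rw [Subgroup.mem_centralizer_iff]
      intro z hz
      rw [Set.mem_singleton_iff] at hz
      subst hz
      obtain ⟨i, rfl⟩ := Subgroup.mem_zpowers_iff.mp hxy
      have hc : Commute y m := Subgroup.mem_centralizer_iff.mp hmy y (Set.mem_singleton y)
      exact (hc.zpow_left i).eq
    · set B' := B ⊔ Subgroup.zpowers y with hB'
      have hB'A : B' ≤ A := sup_le hBA (Subgroup.zpowers_le.mpr (hPA hyP))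
      have hyB : y ∉ B := fun h => hy1 (hPB y hyP h)
      have hxB' : x ∉ B' := by
        intro hx
        obtain ⟨β, hβ, c, hc, hxe⟩ := exists_mul_of_mem_sup_abelian hAc hBA
          (Subgroup.zpowers_le.mpr (hPA hyP)) hx
        have hcP : c ∈ P := (Subgroup.zpowers_le.mpr hyP) hc
        have hβ1 : β = 1 := by
          apply hPB β _ hβ
          have : β = x * c⁻¹ := by rw [hxe]; group
          rw [this]; exact P.mul_mem hxP (P.inv_mem hcP)
        rw [hβ1, one_mul] at hxe
        apply hyx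
        have : y ∈ Subgroup.zpowers c :=
          mem_zpowers_of_prime (hAp y (hPA hyP)) hc (hxe ▸ hx1)
        rw [hxe]; exact this
      have hnPr : ¬ Pr B' := by
        intro hPr
        have := hBm hPr le_sup_left
        exact hyB (this (Subgroup.mem_sup_right (Subgroup.mem_zpowers y)))
      have hcent : ∀ m ∈ M ⊓ Subgroup.centralizer (B' : Set G), x * m = m * x := by
        by_contra hcon
        exact hnPr ⟨hB'A, hxB', hcon⟩
      intro m hm
      obtain ⟨hmL, hmy⟩ := Subgroup.mem_inf.mp hm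
      obtain ⟨hmM, hmB⟩ := Subgroup.mem_inf.mp hmL
      have hm' : m ∈ M ⊓ Subgroup.centralizer (B' : Set G) := by
        refine Subgroup.mem_inf.mpr ⟨hmM, ?_⟩
        rw [hB', centralizer_sup_eq]
        refine Subgroup.mem_inf.mpr ⟨hmB, ?_⟩
        rw [Subgroup.mem_centralizer_iff]
        intro z hz
        obtain ⟨i, rfl⟩ := Subgroup.mem_zpowers_iff.mp hz
        have hc : Commute y m := Subgroup.mem_centralizer_iff.mp hmy y (Set.mem_singleton y)
        exact (hc.zpow_left i).eq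
      rw [Subgroup.mem_centralizer_iff]
      intro z hz
      rw [Set.mem_singleton_iff] at hz
      subst hz
      exact hcent m hm'
  intro m hm
  exact Subgroup.mem_centralizer_iff.mp (hle hm) x (Set.mem_singleton x)

omit [Finite G] [Fact p.Prime] in
theorem mem_normalizer_cv {V B : Subgroup G} {g : G} (hgV : g ∈ Subgroup.normalizer (V : Set G))
    (hgB : ∀ b ∈ B, g * b = b * g) :
    g ∈ Subgroup.normalizer ((V ⊓ Subgroup.centralizer (B : Set G) : Subgroup G) : Set G) := by
  have key : ∀ (g : G), g ∈ Subgroup.normalizer (V : Set G) → (∀ b ∈ B, g * b = b * g) →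
      ∀ u ∈ V ⊓ Subgroup.centralizer (B : Set G),
        g * u * g⁻¹ ∈ V ⊓ Subgroup.centralizer (B : Set G) := by
    intro g hgV hgB u hu
    obtain ⟨huV, huB⟩ := mem_cv_iff.mp hu
    refine mem_cv_iff.mpr ⟨conj_mem_of_normalizer huV hgV, ?_⟩
    intro b hb
    have h1 := hgB b hb
    have h2 := huB b hb
    calc b * (g * u * g⁻¹) = (b * g) * u * g⁻¹ := by group
      _ = (g * b) * u * g⁻¹ := by rw [h1]
      _ = g * (b * u) * g⁻¹ := by group
      _ = g * (u * b) * g⁻¹ := by rw [h2]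
      _ = g * u * (g⁻¹ * (g * b)) * g⁻¹ := by group
      _ = g * u * (g⁻¹ * (b * g)) * g⁻¹ := by rw [h1]
      _ = g * u * g⁻¹ * b := by group
  rw [Subgroup.mem_normalizer_iff]
  intro u
  constructor
  · exact key g hgV hgB u
  · intro hu
    have hg' : g⁻¹ ∈ Subgroup.normalizer (V : Set G) := Subgroup.inv_mem _ hgV
    have hgB' : ∀ b ∈ B, g⁻¹ * b = b * g⁻¹ := by
      intro b hb
      have h1 := hgB b hb
      calc g⁻¹ * b = g⁻¹ * (b * g) * g⁻¹ := by group
        _ = g⁻¹ * (g * b) * g⁻¹ := by rw [h1]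
        _ = b * g⁻¹ := by group
    have := key g⁻¹ hg' hgB' _ hu
    have h2 : g⁻¹ * (g * u * g⁻¹) * g⁻¹⁻¹ = u := by group
    rwa [h2] at this

/-- **Bender's bound**: if `H` acts faithfully on the elementary abelian `2`-group `V`, contains
its odd normal subgroup `M ⊇ C_H(M)`, and has no subgroup `S₃` generated by an involution
inverting an element of order `3`, then `|V : C_V(A)| ≥ |A|²` for every elementary abelian
`2`-subgroup `A` of `H`. -/
theorem FFSetup.small_offender_bound (S : FFSetup 2 V H M)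
    (hno : ∀ a ∈ H, ∀ y ∈ H, a ≠ 1 → a ^ 2 = 1 → orderOf y = 3 → a * y * a⁻¹ = y⁻¹ → False) :
    ∀ (n : ℕ) (A : Subgroup G), Nat.card A = n → A ≤ H → (∀ a ∈ A, ∀ b ∈ A, a * b = b * a) →
      (∀ a ∈ A, a ^ 2 = 1) →
      Nat.card A ^ 2 ≤ (V ⊓ Subgroup.centralizer (A : Set G)).relIndex V := by
  have : Fact (Nat.Prime 2) := ⟨Nat.prime_two⟩
  intro n
  induction n using Nat.strong_induction_on with
  | _ n ih =>
  intro A hn hAH hAc hAp
  have hrelpos : ∀ B : Subgroup G, 0 < (V ⊓ Subgroup.centralizer (B : Set G)).relIndex V := by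
    intro B
    have h1 := card_mul_relIndex (inf_le_left : V ⊓ Subgroup.centralizer (B : Set G) ≤ V)
    have h2 : 0 < Nat.card V := Nat.card_pos
    by_contra h0
    have h3 : (V ⊓ Subgroup.centralizer (B : Set G)).relIndex V = 0 := by omega
    rw [h3, mul_zero] at h1
    omega
  by_cases hA1 : A = ⊥
  · rw [hA1, Subgroup.card_bot, one_pow]
    exact hrelpos ⊥
  obtain ⟨x, hx1⟩ := (Subgroup.ne_bot_iff_exists_ne_one).mp hA1
  have hxA' : (x : G) ∈ A := x.2
  have hx1' : (x : G) ≠ 1 := fun h => hx1 (Subtype.ext h)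
  obtain ⟨B, hBA, hgen, hxB, hnc⟩ := S.ea_exists_hyperplane hAH hAc hAp (x : G) hxA' hx1'
  set a : G := (x : G) with ha
  have ha2 : a ^ 2 = 1 := hAp a hxA'
  have haH : a ∈ H := hAH hxA'
  have hoa : orderOf a = 2 := orderOf_eq_prime ha2 hx1'
  -- cardinalities
  have hBZ : B ⊓ Subgroup.zpowers a = ⊥ := by
    rw [eq_bot_iff]
    intro z hz
    rw [Subgroup.mem_bot]
    by_contra hz1
    obtain ⟨hzB, hzZ⟩ := Subgroup.mem_inf.mp hz
    exact hxB ((Subgroup.zpowers_le.mpr hzB) (mem_zpowers_of_prime (p := 2) ha2 hzZ hz1))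
  have hBnZ : B ≤ Subgroup.normalizer (Subgroup.zpowers a : Set G) := by
    intro b hb
    apply mem_normalizer_of_conj_mem
    intro z hz
    obtain ⟨k, rfl⟩ := Subgroup.mem_zpowers_iff.mp hz
    have h1 : b * a = a * b := hAc b (hBA hb) a hxA'
    have h2 : b * a ^ k * b⁻¹ = a ^ k := by
      have hc : Commute b a := h1
      have := (hc.zpow_right k).eq
      rw [this]; group
    rw [h2]
    exact Subgroup.zpow_mem_zpowers a k
  have hcardA : Nat.card A = Nat.card B * 2 := by
    have h1 := card_sup_mul_card_inf hBnZ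
    rw [hBZ, ← hgen, Subgroup.card_bot, mul_one, Nat.card_zpowers, hoa] at h1
    exact h1
  have hBlt : Nat.card B < n := by
    have : 0 < Nat.card B := Nat.card_pos
    omega
  have hIH := ih (Nat.card B) hBlt B rfl (hBA.trans hAH) (fun u hu v hv => hAc u (hBA hu) v (hBA hv))
    (fun u hu => hAp u (hBA hu))
  -- the inverted element
  obtain ⟨k, hk, hak⟩ : ∃ k ∈ M ⊓ Subgroup.centralizer (B : Set G), a * k ≠ k * a := by
    by_contra hcon
    apply hnc
    intro m hm
    by_contra h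
    exact hcon ⟨m, hm, h⟩
  obtain ⟨hkM, hkB⟩ := Subgroup.mem_inf.mp hk
  have haB : ∀ b ∈ B, a * b = b * a := fun b hb => hAc a hxA' b (hBA hb)
  have hkB' : ∀ b ∈ B, k * b = b * k := fun b hb =>
    (Subgroup.mem_centralizer_iff.mp hkB b hb).symm
  set y₀ : G := k⁻¹ * (a * k * a⁻¹) with hy₀
  have hainv : a⁻¹ = a := by
    rw [inv_eq_iff_mul_eq_one, ← pow_two]; exact ha2
  have hy₀M : y₀ ∈ M := M.mul_mem (M.inv_mem hkM) (conj_mem_of_normalizer hkM (S.hMn haH))
  have hy₀B : ∀ b ∈ B, y₀ * b = b * y₀ := by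
    intro b hb
    have h1 := haB b hb
    have h2 := hkB' b hb
    have h3 : a⁻¹ * b = b * a⁻¹ := by rw [hainv]; exact h1
    have h4 : k⁻¹ * b = b * k⁻¹ := by
      calc k⁻¹ * b = k⁻¹ * (b * k) * k⁻¹ := by group
        _ = k⁻¹ * (k * b) * k⁻¹ := by rw [h2]
        _ = b * k⁻¹ := by group
    calc y₀ * b = k⁻¹ * (a * k * (a⁻¹ * b)) := by rw [hy₀]; group
      _ = k⁻¹ * (a * (k * b) * a⁻¹) := by rw [h3]; group
      _ = k⁻¹ * ((a * b) * k * a⁻¹) := by rw [h2]; group
      _ = (k⁻¹ * b) * (a * k * a⁻¹) := by rw [h1]; group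
      _ = b * y₀ := by rw [h4, hy₀]; group
  have hy₀1 : y₀ ≠ 1 := by
    intro h
    apply hak
    rw [hy₀, inv_mul_eq_one] at h
    calc a * k = a * k * a⁻¹ * a := by group
      _ = k * a := by rw [← h]
  have hy₀inv : a * y₀ * a⁻¹ = y₀⁻¹ := by
    have h1 : a * a = 1 := by rw [← pow_two]; exact ha2
    calc a * y₀ * a⁻¹ = a * k⁻¹ * a⁻¹ * ((a * a) * k * (a⁻¹ * a⁻¹)) := by rw [hy₀]; group
      _ = a * k⁻¹ * a⁻¹ * k := by rw [hainv, h1]; group
      _ = y₀⁻¹ := by rw [hy₀]; group
  have hMcop : ∀ z ∈ M, (orderOf z).Coprime 2 := by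
    intro z hz
    have h2 : orderOf z ∣ Nat.card M := by
      have := orderOf_dvd_natCard (⟨z, hz⟩ : M)
      rwa [Subgroup.orderOf_mk] at this
    exact Nat.Coprime.coprime_dvd_left h2 S.hMc
  have hn₀ : orderOf y₀ ≠ 1 := fun h => hy₀1 (orderOf_eq_one_iff.mp h)
  have hn₀0 : orderOf y₀ ≠ 0 := (orderOf_pos y₀).ne'
  set r : ℕ := (orderOf y₀).minFac with hr
  have hrp : r.Prime := Nat.minFac_prime hn₀
  have hrdvd : r ∣ orderOf y₀ := Nat.minFac_dvd _
  set y : G := y₀ ^ (orderOf y₀ / r) with hy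
  have hyord : orderOf y = r := orderOf_pow_orderOf_div hn₀0 hrdvd
  have hyM : y ∈ M := M.pow_mem hy₀M _
  have hyH : y ∈ H := S.hMH hyM
  have hyB : ∀ b ∈ B, y * b = b * y := by
    intro b hb
    have hc : Commute y₀ b := hy₀B b hb
    exact (hc.pow_left _).eq
  have hyinv : a * y * a⁻¹ = y⁻¹ := by
    rw [hy, ← conj_pow, hy₀inv, inv_pow]
  have hr2 : r ≠ 2 := by
    intro h
    have h1 := hMcop y hyM
    rw [hyord, h] at h1
    exact absurd h1 (by decide)
  have hr3 : r ≠ 3 := by
    intro h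
    exact hno a haH y hyH hx1' ha2 (hyord.trans h) hyinv
  have hyr : y ^ r = 1 := by rw [← hyord]; exact pow_orderOf_eq_one y
  have hy1 : y ≠ 1 := by
    intro h
    rw [h, orderOf_one] at hyord
    exact hrp.one_lt.ne hyord
  -- the action on `U = C_V(B)`
  set U : Subgroup G := V ⊓ Subgroup.centralizer (B : Set G) with hU
  have haN : a ∈ Subgroup.normalizer (U : Set G) := mem_normalizer_cv (S.hHV haH) haB
  have hyN : y ∈ Subgroup.normalizer (U : Set G) := mem_normalizer_cv (S.hHV hyH) hyB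
  let cg : CommGroup ↥U :=
    { (inferInstance : Group ↥U) with
      mul_comm := fun u v => Subtype.ext (S.hVc u (Subgroup.mem_inf.mp u.2).1 v
        (Subgroup.mem_inf.mp v.2).1) }
  have hU2 : ∀ u : ↥U, u ^ 2 = 1 := fun u =>
    Subtype.ext (S.hVp u (Subgroup.mem_inf.mp u.2).1)
  set N : Subgroup G := Subgroup.normalizer (U : Set G) with hN
  set α : MulAut ↥U := conjHom U N le_rfl ⟨a, haN⟩ with hα
  set η : MulAut ↥U := conjHom U N le_rfl ⟨y, hyN⟩ with hη
  have hinv' : α * η * α⁻¹ = η⁻¹ := by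
    rw [hα, hη, ← map_inv, ← map_mul, ← map_mul, ← map_inv]
    congr 1
    exact Subtype.ext hyinv
  have hηr : η ^ r = 1 := by
    rw [hη, ← map_pow]
    have : (⟨y, hyN⟩ : ↥N) ^ r = 1 := Subtype.ext hyr
    rw [this, map_one]
  have hη1 : η ≠ 1 := by
    intro h1
    have hfix : ∀ u ∈ V, (∀ b ∈ B, b * u = u * b) → ∀ w ∈ Subgroup.zpowers y, w * u = u * w := by
      intro u hu hB w hw
      have huU : u ∈ U := mem_cv_iff.mpr ⟨hu, hB⟩
      have h2 := congrArg (fun f : MulAut ↥U => ((f ⟨u, huU⟩ : ↥U) : G)) h1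
      simp only [hη, conjHom_apply, MulAut.one_apply] at h2
      have h3 : y * u = u * y := by
        calc y * u = y * u * y⁻¹ * y := by group
          _ = u * y := by rw [h2]
      obtain ⟨i, rfl⟩ := Subgroup.mem_zpowers_iff.mp hw
      have hc : Commute y u := h3
      exact (hc.zpow_left i).eq
    have hBp : IsPGroup 2 B := isPGroup_of_pow (fun b hb => hAp b (hBA hb))
    have hVpg : IsPGroup 2 V := isPGroup_of_pow S.hVp
    have hWcop : (Nat.card (Subgroup.zpowers y)).Coprime 2 := by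
      rw [Nat.card_zpowers]; exact hMcop y hyM
    have hWB : ∀ w ∈ Subgroup.zpowers y, ∀ b ∈ B, w * b = b * w := by
      intro w hw b hb
      obtain ⟨i, rfl⟩ := Subgroup.mem_zpowers_iff.mp hw
      have hc : Commute y b := hyB b hb
      exact (hc.zpow_left i).eq
    have hWV : Subgroup.zpowers y ≤ Subgroup.normalizer (V : Set G) :=
      Subgroup.zpowers_le.mpr (S.hHV hyH)
    have hBV : B ≤ Subgroup.normalizer (V : Set G) := hBA.trans (hAH.trans S.hHV)
    have hcent := Cfsg.Agent.Lib.Helper40.thompson_AxB (Subgroup.zpowers y) B hBp hWcop hWB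
      (Nat.card V) V rfl hVpg hWV hBV hfix
    have h5 : y ∈ H ⊓ Subgroup.centralizer (V : Set G) := by
      refine Subgroup.mem_inf.mpr ⟨hyH, ?_⟩
      rw [Subgroup.mem_centralizer_iff]
      intro u hu
      exact (hcent u hu y (Subgroup.mem_zpowers y)).symm
    rw [S.hf, Subgroup.mem_bot] at h5
    exact hy1 h5
  have hrF : Fact r.Prime := ⟨hrp⟩
  have hord : orderOf η = r := orderOf_eq_prime hηr hη1
  set F : Subgroup ↥U := (Subgroup.centralizer ({a} : Set G)).subgroupOf U with hF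
  have hFmem : ∀ u : ↥U, u ∈ F ↔ α u = u := by
    intro u
    rw [hF, Subgroup.mem_subgroupOf, Subgroup.mem_centralizer_iff]
    constructor
    · intro h
      apply Subtype.ext
      rw [hα, conjHom_apply]
      have h1 := h a (Set.mem_singleton a)
      show a * (u : G) * a⁻¹ = u
      rw [h1]; group
    · intro h g hg
      rw [Set.mem_singleton_iff] at hg
      subst hg
      have h1 := congrArg (fun z : ↥U => (z : G)) h
      simp only [hα, conjHom_apply] at h1
      calc a * (u : G) = a * (u : G) * a⁻¹ * a := by group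
        _ = (u : G) * a := by rw [h1]
  have h4 : 4 ≤ F.index :=
    @dihedral_index ↥U cg _ hU2 α η hinv' r hrp hord hr2 hr3 F hFmem
  have h4' : 4 ≤ (Subgroup.centralizer ({a} : Set G)).relIndex U := h4
  -- assemble
  have hCA : V ⊓ Subgroup.centralizer (A : Set G) = U ⊓ Subgroup.centralizer ({a} : Set G) := by
    rw [hgen, centralizer_sup_eq, hU, inf_assoc]
    congr 2
    ext g
    rw [Subgroup.mem_centralizer_iff, Subgroup.mem_centralizer_iff]
    constructor
    · intro h z hz
      rw [Set.mem_singleton_iff] at hz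
      subst hz
      exact h _ (Subgroup.mem_zpowers _)
    · intro h z hz
      obtain ⟨i, rfl⟩ := Subgroup.mem_zpowers_iff.mp hz
      have hc : Commute a g := h a (Set.mem_singleton a)
      exact (hc.zpow_left i).eq
  have hmul := Subgroup.relIndex_mul_relIndex (U ⊓ Subgroup.centralizer ({a} : Set G)) U V
    inf_le_left inf_le_left
  rw [Subgroup.inf_relIndex_left] at hmul
  rw [hCA, ← hmul, hcardA]
  calc (Nat.card B * 2) ^ 2 = 4 * Nat.card B ^ 2 := by ring
    _ ≤ (Subgroup.centralizer ({a} : Set G)).relIndex U * U.relIndex V :=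
      Nat.mul_le_mul h4' hIH

end bender

end Cfsg.Agent.Lib.Helper14
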