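import Mathlib
import Cfsg.Agent.Lib.Helper14.ClassTwo

set_option autoImplicit false
set_option linter.style.haveILetI false

/-!
# A `p'`-element centralizing the elements of order `p` of a `p`-group, `p` odd (helper14)

`odd_omega`: let `p` be an odd prime, `P` a `p`-subgroup of a finite group normalized by an
element `h` of order prime to `p`.  If `h` centralizes every `x ∈ P` with `x ^ p = 1`, then `h`
centralizes `P`.
-/

namespace Cfsg.Agent.Lib.Helper14.Gy

open Cfsg Cfsg.Agent.Lib.Helper14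

variable {G : Type*} [Group G]

/-- `yⁿ x = x yⁿ cⁿ` when `y x = x y c` and `c` commutes with `y`. -/
theorem pow_mul_of_central {x y c : G} (hc : y * x = x * y * c) (hcy : Commute c y) (n : ℕ) :
    y ^ n * x = x * y ^ n * c ^ n := by
  induction n with
  | zero => simp
  | succ n ih =>
    have h1 : Commute c (y ^ n) := hcy.pow_right n
    calc y ^ (n + 1) * x = y * (y ^ n * x) := by rw [pow_succ', mul_assoc]
      _ = y * (x * y ^ n * c ^ n) := by rw [ih]
      _ = (y * x) * y ^ n * c ^ n := by simp only [mul_assoc]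
      _ = x * y * c * y ^ n * c ^ n := by rw [hc]
      _ = x * y * (c * y ^ n) * c ^ n := by simp only [mul_assoc]
      _ = x * y * (y ^ n * c) * c ^ n := by rw [h1.eq]
      _ = x * (y * y ^ n) * (c * c ^ n) := by simp only [mul_assoc]
      _ = x * y ^ (n + 1) * c ^ (n + 1) := by rw [← pow_succ', ← pow_succ']

/-- `(x y)ⁿ = xⁿ yⁿ c^(n choose 2)` when `y x = x y c` and `c` commutes with `x` and `y`. -/
theorem mul_pow_of_central {x y c : G} (hc : y * x = x * y * c) (hcx : Commute c x)
    (hcy : Commute c y) (n : ℕ) : (x * y) ^ n = x ^ n * y ^ n * c ^ (n.choose 2) := by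
  induction n with
  | zero => simp
  | succ n ih =>
    have h1 := pow_mul_of_central hc hcy n
    have e : (n + 1).choose 2 = n + n.choose 2 := by
      rw [Nat.choose_succ_succ' n 1, Nat.choose_one_right]
    have hCx : Commute (c ^ n.choose 2) x := hcx.pow_left _
    have hCy : Commute (c ^ n.choose 2) y := hcy.pow_left _
    have hny : Commute (c ^ n) y := hcy.pow_left _
    calc (x * y) ^ (n + 1) = (x * y) ^ n * (x * y) := pow_succ _ _
      _ = x ^ n * y ^ n * c ^ (n.choose 2) * (x * y) := by rw [ih]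
      _ = x ^ n * y ^ n * (c ^ (n.choose 2) * x) * y := by simp only [mul_assoc]
      _ = x ^ n * y ^ n * (x * c ^ (n.choose 2)) * y := by rw [hCx.eq]
      _ = x ^ n * (y ^ n * x) * (c ^ (n.choose 2) * y) := by simp only [mul_assoc]
      _ = x ^ n * (x * y ^ n * c ^ n) * (y * c ^ (n.choose 2)) := by rw [h1, hCy.eq]
      _ = x ^ n * x * y ^ n * (c ^ n * y) * c ^ (n.choose 2) := by simp only [mul_assoc]
      _ = x ^ n * x * y ^ n * (y * c ^ n) * c ^ (n.choose 2) := by rw [hny.eq]
      _ = (x ^ n * x) * (y ^ n * y) * (c ^ n * c ^ (n.choose 2)) := by simp only [mul_assoc]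
      _ = x ^ (n + 1) * y ^ (n + 1) * c ^ ((n + 1).choose 2) := by
          rw [← pow_succ, ← pow_succ, ← pow_add, e]

/-- if `h` has finite order and conjugation by `h` maps `P` into `P`, so does conjugation by
`h⁻¹`. -/
theorem conj_inv_mem_of_pow {P : Subgroup G} {h : G} {m : ℕ} (hm : h ^ m = 1) (hm0 : m ≠ 0)
    (hnorm : ∀ x ∈ P, h * x * h⁻¹ ∈ P) : ∀ x ∈ P, h⁻¹ * x * h ∈ P := by
  have key : ∀ k : ℕ, ∀ x ∈ P, h ^ k * x * (h ^ k)⁻¹ ∈ P := by
    intro k
    induction k with
    | zero => intro x hx; simpa using hx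
    | succ k ih =>
      intro x hx
      have h1 := hnorm _ (ih x hx)
      have e : h ^ (k + 1) * x * (h ^ (k + 1))⁻¹ = h * (h ^ k * x * (h ^ k)⁻¹) * h⁻¹ := by
        rw [pow_succ']; group
      rw [e]; exact h1
  intro x hx
  obtain ⟨j, rfl⟩ := Nat.exists_eq_succ_of_ne_zero hm0
  have h2 : h ^ j = h⁻¹ := by
    apply eq_inv_of_mul_eq_one_left
    rw [← pow_succ]; exact hm
  have h3 := key j x hx
  rw [h2, inv_inv] at h3
  exact h3

/-- conjugation by an element normalizing `P` preserves `⁅P, P⁆`. -/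
theorem conj_mem_commutator {P : Subgroup G} {g : G} (hg : ∀ x ∈ P, g * x * g⁻¹ ∈ P) :
    ∀ x ∈ ⁅P, P⁆, g * x * g⁻¹ ∈ ⁅P, P⁆ := by
  intro x hx
  have h1 : (MulAut.conj g) x ∈ (⁅P, P⁆ : Subgroup G).map (MulAut.conj g).toMonoidHom :=
    Subgroup.mem_map_of_mem _ hx
  rw [Subgroup.map_commutator] at h1
  have h2 : P.map (MulAut.conj g).toMonoidHom ≤ P := by
    rintro _ ⟨y, hy, rfl⟩
    exact hg y hy
  have h3 := Subgroup.commutator_mono h2 h2 h1
  simpa using h3

theorem odd_omega_aux [Finite G] {p : ℕ} [hp : Fact p.Prime] (hp2 : p ≠ 2) {h : G} {m : ℕ}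
    (hm : h ^ m = 1) (hcop : m.Coprime p) :
    ∀ (n : ℕ) (P : Subgroup G), Nat.card P ≤ n → IsPGroup p P → (∀ x ∈ P, h * x * h⁻¹ ∈ P) →
      (∀ x ∈ P, x ^ p = 1 → h * x = x * h) → ∀ x ∈ P, h * x = x * h := by
  have hpp : p.Prime := hp.out
  have hm0 : m ≠ 0 := by
    rintro rfl
    rw [Nat.coprime_zero_left] at hcop
    exact hpp.one_lt.ne' hcop
  have hoh : (orderOf h).Coprime p :=
    Nat.Coprime.coprime_dvd_left (orderOf_dvd_of_pow_eq_one hm) hcop
  intro n
  induction n with
  | zero =>
    intro P hc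
    have := Nat.card_pos (α := P)
    omega
  | succ n ih =>
    intro P hcard hP hnorm hom
    by_contra hcon
    have hnorm' := conj_inv_mem_of_pow hm hm0 hnorm
    have hPne : P ≠ ⊥ := by
      rintro rfl
      apply hcon
      intro x hx
      rw [Subgroup.mem_bot] at hx
      rw [hx]; simp
    -- proper invariant subgroups are centralized
    have stepA : ∀ Q : Subgroup G, Q ≤ P → Q ≠ P → (∀ x ∈ Q, h * x * h⁻¹ ∈ Q) →
        ∀ x ∈ Q, h * x = x * h := by
      intro Q hQP hne hQn
      have hlt : Nat.card Q < Nat.card P := by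
        by_contra hge
        exact hne (subgroup_eq_of_le_of_card_le hQP (not_lt.mp hge))
      exact ih Q (by omega) (hP.to_le hQP) hQn (fun x hx => hom x (hQP hx))
    have stepS : ∀ x ∈ P, h * (h * x * h⁻¹ * x⁻¹) = (h * x * h⁻¹ * x⁻¹) * h →
        h * x = x * h := by
      intro x hx hc
      have hd : h * x * h⁻¹ * x⁻¹ ∈ P := P.mul_mem (hnorm x hx) (P.inv_mem hx)
      obtain ⟨k, hk⟩ := hP ⟨_, hd⟩
      have hk' : (h * x * h⁻¹ * x⁻¹) ^ p ^ k = 1 := by
        have := congrArg Subtype.val hk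
        simpa using this
      exact comm_of_stab_coprime hc hk' (Nat.Coprime.pow_right k hoh)
    obtain ⟨D, hDdef⟩ : ∃ D : Subgroup G,
        D = Subgroup.closure {d | ∃ x ∈ P, d = h * x * h⁻¹ * x⁻¹} := ⟨_, rfl⟩
    have hDP : D ≤ P := by
      rw [hDdef, Subgroup.closure_le]
      rintro d ⟨x, hx, rfl⟩
      exact P.mul_mem (hnorm x hx) (P.inv_mem hx)
    have hDn : ∀ d ∈ D, h * d * h⁻¹ ∈ D := by
      intro d hd
      have hle : D ≤ D.comap (MulAut.conj h).toMonoidHom := by
        conv_lhs => rw [hDdef]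
        rw [Subgroup.closure_le]
        rintro d ⟨x, hx, rfl⟩
        rw [SetLike.mem_coe, Subgroup.mem_comap, hDdef]
        apply Subgroup.subset_closure
        refine ⟨h * x * h⁻¹, hnorm x hx, ?_⟩
        simp only [MulEquiv.coe_toMonoidHom, MulAut.conj_apply]
        group
      have := hle hd
      simpa using this
    have hDeq : D = P := by
      by_contra hne
      apply hcon
      intro x hx
      apply stepS x hx
      exact stepA D hDP hne hDn _ (by rw [hDdef]; exact Subgroup.subset_closure ⟨x, hx, rfl⟩)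
    -- proper invariant normal subgroups are central
    have stepB : ∀ K : Subgroup G, K ≤ P → K ≠ P → (∀ x ∈ K, h * x * h⁻¹ ∈ K) →
        (∀ g ∈ P, ∀ x ∈ K, g * x * g⁻¹ ∈ K) → ∀ g ∈ P, ∀ x ∈ K, g * x = x * g := by
      intro K hKP hne hKh hKn
      have hcK := stepA K hKP hne hKh
      have hle : D ≤ Subgroup.centralizer (K : Set G) := by
        rw [hDdef, Subgroup.closure_le]
        rintro d ⟨x, hx, rfl⟩
        rw [SetLike.mem_coe, Subgroup.mem_centralizer_iff]
        intro c hc
        have hc' : x⁻¹ * c * x ∈ K := by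
          have := hKn x⁻¹ (P.inv_mem hx) c hc
          simpa using this
        have h1 := hcK c hc
        have h2 := hcK _ hc'
        have h3 : h⁻¹ * (x⁻¹ * c * x) * h = x⁻¹ * c * x := by
          rw [mul_assoc, ← h2]; group
        have h4 : h * c * h⁻¹ = c := by rw [h1]; group
        have e : (h * x * h⁻¹ * x⁻¹) * c * (h * x * h⁻¹ * x⁻¹)⁻¹ =
            h * x * (h⁻¹ * (x⁻¹ * c * x) * h) * x⁻¹ * h⁻¹ := by group
        have h5 : (h * x * h⁻¹ * x⁻¹) * c * (h * x * h⁻¹ * x⁻¹)⁻¹ = c := by
          rw [e, h3]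
          calc h * x * (x⁻¹ * c * x) * x⁻¹ * h⁻¹ = h * c * h⁻¹ := by group
            _ = c := h4
        calc c * (h * x * h⁻¹ * x⁻¹)
            = ((h * x * h⁻¹ * x⁻¹) * c * (h * x * h⁻¹ * x⁻¹)⁻¹) * (h * x * h⁻¹ * x⁻¹) := by
              rw [h5]
          _ = (h * x * h⁻¹ * x⁻¹) * c := by group
      intro g hg x hx
      have hgD : g ∈ D := hDeq ▸ hg
      exact ((Subgroup.mem_centralizer_iff.mp (hle hgD)) x hx).symm
    -- class two
    have hPP : ⁅P, P⁆ ≠ P := by
      intro heq
      haveI : Nontrivial P := (Subgroup.nontrivial_iff_ne_bot P).mpr hPne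
      haveI : Group.IsNilpotent P := hP.isNilpotent
      have h1 := Group.IsSolvable.commutator_lt_top_of_nontrivial (G := P)
      have h2 := Subgroup.map_subtype_commutator P
      rw [heq] at h2
      have h3 : commutator P = ⊤ := by
        apply Subgroup.map_injective P.subtype_injective
        rw [h2, ← MonoidHom.range_eq_map, Subgroup.range_subtype]
      exact h1.ne h3
    have hcomm_le : ⁅P, P⁆ ≤ P := by
      rw [← Subgroup.map_subtype_commutator P]
      exact Subgroup.map_subtype_le _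
    have hcl2 : ∀ g ∈ P, ∀ c ∈ ⁅P, P⁆, g * c = c * g :=
      stepB ⁅P, P⁆ hcomm_le hPP (conj_mem_commutator hnorm)
        (fun g hg => conj_mem_commutator
          (fun x hx => P.mul_mem (P.mul_mem hg hx) (P.inv_mem hg)))
    -- the commutator data of two elements
    have hdata : ∀ x ∈ P, ∀ y ∈ P, ∃ c : G, y * x = x * y * c ∧ Commute c x ∧ Commute c y ∧
        ∀ g ∈ P, g * c = c * g := by
      intro x hx y hy
      have hc : y⁻¹ * x⁻¹ * y * x ∈ ⁅P, P⁆ := by
        have := Subgroup.commutator_mem_commutator (P.inv_mem hy) (P.inv_mem hx)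
        rw [commutatorElement_def, inv_inv, inv_inv] at this
        exact this
      refine ⟨y⁻¹ * x⁻¹ * y * x, by group, (hcl2 x hx _ hc).symm, (hcl2 y hy _ hc).symm,
        fun g hg => hcl2 g hg _ hc⟩
    -- `p`-th powers are central
    have hmulc : ∀ x ∈ P, ∀ y ∈ P, (∀ g ∈ P, g * x ^ p = x ^ p * g) →
        (∀ g ∈ P, g * y ^ p = y ^ p * g) → ∀ g ∈ P, g * (x * y) ^ p = (x * y) ^ p * g := by
      intro x hx y hy hxc hyc g hg
      obtain ⟨c, hc, hcx, hcy, hcg⟩ := hdata x hx y hy
      rw [mul_pow_of_central hc hcx hcy p]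
      have h1 : Commute g (x ^ p) := hxc g hg
      have h2 : Commute g (y ^ p) := hyc g hg
      have h3 : Commute g (c ^ p.choose 2) := Commute.pow_right (hcg g hg) _
      exact ((h1.mul_right h2).mul_right h3).eq
    obtain ⟨L, hLdef⟩ : ∃ L : Subgroup G, ∀ x, x ∈ L ↔ (x ∈ P ∧ ∀ g ∈ P, g * x ^ p = x ^ p * g) :=
      ⟨{ carrier := {x | x ∈ P ∧ ∀ g ∈ P, g * x ^ p = x ^ p * g}
         one_mem' := ⟨P.one_mem, fun g _ => by simp⟩
         mul_mem' := fun {a b} ha hb =>
           ⟨P.mul_mem ha.1 hb.1, hmulc a ha.1 b hb.1 ha.2 hb.2⟩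
         inv_mem' := fun {a} ha => ⟨P.inv_mem ha.1, fun g hg => by
           have h1 : Commute g (a ^ p) := ha.2 g hg
           rw [inv_pow]
           exact h1.inv_right.eq⟩ }, fun x => Iff.rfl⟩
    have hLP : L ≤ P := fun x hx => ((hLdef x).mp hx).1
    have hpc : ∀ x ∈ P, ∀ g ∈ P, g * x ^ p = x ^ p * g := by
      by_cases hL : L = P
      · intro x hx
        exact ((hLdef x).mp (hL ▸ hx)).2
      · exfalso
        have hLh : ∀ x ∈ L, h * x * h⁻¹ ∈ L := by
          intro x hx
          obtain ⟨hxP, hxc⟩ := (hLdef x).mp hx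
          rw [hLdef]
          refine ⟨hnorm x hxP, fun g hg => ?_⟩
          have h1 := hxc _ (hnorm' g hg)
          rw [conj_pow]
          calc g * (h * x ^ p * h⁻¹) = h * ((h⁻¹ * g * h) * x ^ p) * h⁻¹ := by group
            _ = h * (x ^ p * (h⁻¹ * g * h)) * h⁻¹ := by rw [h1]
            _ = h * x ^ p * h⁻¹ * g := by group
        have hLn : ∀ g ∈ P, ∀ x ∈ L, g * x * g⁻¹ ∈ L := by
          intro g hg x hx
          obtain ⟨hxP, hxc⟩ := (hLdef x).mp hx
          rw [hLdef]
          refine ⟨P.mul_mem (P.mul_mem hg hxP) (P.inv_mem hg), fun g' hg' => ?_⟩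
          have h1 : g * x ^ p * g⁻¹ = x ^ p := by rw [hxc g hg]; group
          rw [conj_pow, h1]
          exact hxc g' hg'
        have hLc := stepB L hLP hL hLh hLn
        have hall : ∀ k : ℕ, ∀ x ∈ P, x ^ p ^ k = 1 → ∀ g ∈ P, g * x = x * g := by
          intro k
          induction k with
          | zero =>
            intro x _ hx g _
            rw [pow_zero, pow_one] at hx
            rw [hx]; simp
          | succ k ihk =>
            intro x hx hxk g hg
            have h1 : (x ^ p) ^ p ^ k = 1 := by rw [← pow_mul, ← pow_succ']; exact hxk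
            have h2 := ihk (x ^ p) (P.pow_mem hx p) h1
            exact hLc g hg x ((hLdef x).mpr ⟨hx, h2⟩)
        apply hL
        apply le_antisymm hLP
        intro x hx
        rw [hLdef]
        refine ⟨hx, ?_⟩
        obtain ⟨k, hk⟩ := hP ⟨x ^ p, P.pow_mem hx p⟩
        have hk' : (x ^ p) ^ p ^ k = 1 := by
          have := congrArg Subtype.val hk
          simpa using this
        exact hall k (x ^ p) (P.pow_mem hx p) hk'
    -- the `p`-th power map is multiplicative
    have h2p : 2 < p := lt_of_le_of_ne hpp.two_le (Ne.symm hp2)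
    have hmul : ∀ x ∈ P, ∀ y ∈ P, (x * y) ^ p = x ^ p * y ^ p := by
      intro x hx y hy
      obtain ⟨c, hc, hcx, hcy, -⟩ := hdata x hx y hy
      have h1 := pow_mul_of_central hc hcy p
      have h2 := hpc y hy x hx
      have hcp : c ^ p = 1 := by
        rw [h2] at h1
        exact mul_eq_left.mp h1.symm
      have hdvd : p ∣ p.choose 2 := hpp.dvd_choose_self (by norm_num) h2p
      obtain ⟨j, hj⟩ := hdvd
      rw [mul_pow_of_central hc hcx hcy p, hj, pow_mul, hcp, one_pow, mul_one]
    -- the subgroup of `p`-th powers is proper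
    let φ : P →* P :=
      { toFun := fun x => x ^ p
        map_one' := one_pow p
        map_mul' := fun x y => by
          apply Subtype.ext
          have := hmul x x.2 y y.2
          simpa using this }
    have hφ : ¬ Function.Surjective φ := by
      intro hs
      have hinj : Function.Injective φ := Finite.injective_iff_surjective.mpr hs
      haveI : Nontrivial P := (Subgroup.nontrivial_iff_ne_bot P).mpr hPne
      obtain ⟨k, hk0, hk⟩ := hP.nontrivial_iff_card.mp inferInstance
      have hdvd : p ∣ Nat.card P := by rw [hk]; exact dvd_pow_self p hk0.ne'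
      obtain ⟨z, hz⟩ := exists_prime_orderOf_dvd_card' p hdvd
      have h1 : φ z = φ 1 := by
        rw [map_one]
        show z ^ p = 1
        rw [← hz]; exact pow_orderOf_eq_one z
      have h2 := hinj h1
      rw [h2, orderOf_one] at hz
      exact hpp.one_lt.ne hz
    obtain ⟨Q, hQdef⟩ : ∃ Q : Subgroup G, Q = φ.range.map P.subtype := ⟨_, rfl⟩
    have hQP : Q ≤ P := by rw [hQdef]; exact Subgroup.map_subtype_le _
    have hQne : Q ≠ P := by
      intro heq
      apply hφ
      rw [← MonoidHom.range_eq_top]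
      apply Subgroup.map_injective P.subtype_injective
      rw [← hQdef, heq, ← MonoidHom.range_eq_map, Subgroup.range_subtype]
    have hQmem : ∀ x ∈ P, x ^ p ∈ Q := by
      intro x hx
      rw [hQdef]
      exact ⟨φ ⟨x, hx⟩, ⟨⟨x, hx⟩, rfl⟩, rfl⟩
    have hQh : ∀ z ∈ Q, h * z * h⁻¹ ∈ Q := by
      intro z hz
      rw [hQdef] at hz
      obtain ⟨_, ⟨x, rfl⟩, rfl⟩ := hz
      have h1 := hQmem _ (hnorm x x.2)
      rw [conj_pow] at h1
      exact h1
    have hQc := stepA Q hQP hQne hQh
    apply hcon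
    intro x hx
    apply stepS x hx
    have hd : h * x * h⁻¹ * x⁻¹ ∈ P := P.mul_mem (hnorm x hx) (P.inv_mem hx)
    apply hom _ hd
    have h1 := hQc _ (hQmem x hx)
    rw [hmul _ (hnorm x hx) _ (P.inv_mem hx), conj_pow, h1, inv_pow]
    group

/-- **Coprime automorphisms trivial on `Ω₁`, `p` odd.** Let `p` be an odd prime and `P` a
`p`-subgroup of a finite group, normalized by an element `h` with `h ^ m = 1`, `m` prime to
`p`.  If `h` commutes with every `x ∈ P` such that `x ^ p = 1`, then `h` centralizes `P`. -/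
theorem odd_omega [Finite G] {p : ℕ} [Fact p.Prime] (hp2 : p ≠ 2) {h : G} {m : ℕ}
    (hm : h ^ m = 1) (hcop : m.Coprime p) (P : Subgroup G) (hP : IsPGroup p P)
    (hnorm : ∀ x ∈ P, h * x * h⁻¹ ∈ P) (hom : ∀ x ∈ P, x ^ p = 1 → h * x = x * h) :
    ∀ x ∈ P, h * x = x * h :=
  odd_omega_aux hp2 hm hcop (Nat.card P) P le_rfl hP hnorm hom

end Cfsg.Agent.Lib.Helper14.Gy
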