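import Mathlib
import Cfsg.Prelude.Def_Local
import Cfsg.Agent.Lib.Helper14.Gy1
import Cfsg.Agent.Lib.Helper40.HallHigman
import Cfsg.Agent.Lib.Helper40.PiCore
import Cfsg.Agent.Lib.Helper31.Basic
import Cfsg.Agent.Lib.Helper77.MaxPrimeIdx
import Cfsg.Agent.Lib.Helper75.FrattiniAct
import Cfsg.Agent.Lib.Helper66.EqOrd
import Cfsg.Agent.Lib.Helper29.WrCRIT
import Cfsg.Agent.S0057

set_option autoImplicit false
set_option linter.style.haveILetI false

/-!
# Gaschütz–Yen: transitive automorphisms on the subgroups of order `p` give `p`-length one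
(helper14)

Let `p` be odd and `G` a finite `p`-soluble group whose automorphism group permutes the
subgroups of order `p` transitively.  Then `G` has `p`-length at most one.

Proof.  We may assume `O_{p'}(G) = 1`; put `P = O_p(G)`, so `C_G(P) ≤ P`.  The characteristic
subgroup `C_G(P) = Z(P)` contains an element of order `p`, hence all of them.  Let
`N = O_{p,p'}(G) = P T` with `T` a `p'`-group.  If some element of order `p` centralizes `N`,
all of them do, so `T` centralizes `Ω₁(P)`, hence `P` (as `p` is odd), whence `T = 1` and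
`G = P`.  Otherwise `C_P(T) = 1`; by the Frattini argument every `p`-element `x` has the form
`x = n g` with `n ∈ P` and `g` normalizing `T`; an element of order `p` normalizing `T` lies in
`P`, so centralizes `T` and `P`, which is impossible; hence `g` is a `p'`-element and `x ∈ P`.
-/

namespace Cfsg.Agent.Lib.Helper14.Gy

open Cfsg Cfsg.Agent.Lib.Helper14

universe u

theorem gy_core {X : Type u} [Group X] [Finite X] {p : ℕ} [Fact p.Prime] (hp2 : p ≠ 2)
    (hS : IsPSolvable p X) (hred : pPrimeCore p X = ⊥)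
    (htr : ∀ U V : Subgroup X, Nat.card U = p → Nat.card V = p →
      ∃ a : MulAut X, U.map a.toMonoidHom = V) :
    ∀ x : X, (∃ k : ℕ, x ^ p ^ k = 1) → x ∈ pCore p X := by
  classical
  have hpp : p.Prime := Fact.out
  obtain ⟨P, hPdef⟩ : ∃ P : Subgroup X, P = pCore p X := ⟨_, rfl⟩
  haveI hPn : P.Normal := hPdef ▸ Cfsg.Agent.Lib.Helper40.pCore_normal' p
  have hPp : IsPGroup p P := hPdef ▸ Cfsg.Agent.Lib.Helper40.pCore_isPGroup' p
  have hCP : Subgroup.centralizer (P : Set X) ≤ P :=
    hPdef ▸ Cfsg.Agent.Lib.Helper40.centralizer_pCore_le hS hred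
  rw [← hPdef]
  have hPmap : ∀ a : MulAut X, P.map a.toMonoidHom = P := by
    intro a
    rw [hPdef]
    exact Cfsg.Agent.Lib.Helper31.pCore_map p a
  have hPa : ∀ a : MulAut X, ∀ g ∈ P, a g ∈ P := by
    intro a g hg
    have h1 : a g ∈ P.map a.toMonoidHom := Subgroup.mem_map_of_mem _ hg
    rw [hPmap a] at h1
    exact h1
  by_cases hPbot : P = ⊥
  · intro x _
    apply hCP
    rw [hPbot]
    simp [Subgroup.mem_centralizer_iff]
  -- an element of order `p` in the centre of `P`
  obtain ⟨z0, hz0ord, hz0⟩ : ∃ z0 : X, orderOf z0 = p ∧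
      z0 ∈ Subgroup.centralizer (P : Set X) := by
    haveI : Nontrivial P := (Subgroup.nontrivial_iff_ne_bot P).mpr hPbot
    haveI : Nontrivial (Subgroup.center P) := hPp.center_nontrivial
    have hZp : IsPGroup p (Subgroup.center P) := hPp.to_subgroup _
    obtain ⟨k, hk0, hk⟩ := hZp.nontrivial_iff_card.mp inferInstance
    have hdvd : p ∣ Nat.card (Subgroup.center P) := by rw [hk]; exact dvd_pow_self p hk0.ne'
    obtain ⟨z, hz⟩ := exists_prime_orderOf_dvd_card' p hdvd
    refine ⟨((z : P) : X), ?_, ?_⟩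
    · rw [← hz, Subgroup.orderOf_coe, Subgroup.orderOf_coe]
    · rw [Subgroup.mem_centralizer_iff]
      intro g hg
      have := Subgroup.mem_center_iff.mp z.2 ⟨g, hg⟩
      exact congrArg Subtype.val this
  -- transitivity on characteristic subgroups
  have htrans : ∀ (C : Subgroup X), (∀ a : MulAut X, ∀ g ∈ C, a g ∈ C) → ∀ w ∈ C,
      orderOf w = p → ∀ y : X, orderOf y = p → y ∈ C := by
    intro C hC w hw hwo y hyo
    obtain ⟨a, ha⟩ := htr (Subgroup.zpowers w) (Subgroup.zpowers y)
      (by rw [Nat.card_zpowers, hwo]) (by rw [Nat.card_zpowers, hyo])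
    have hy : y ∈ (Subgroup.zpowers w).map a.toMonoidHom := by
      rw [ha]; exact Subgroup.mem_zpowers y
    obtain ⟨u, hu, rfl⟩ := hy
    exact hC a u ((Subgroup.zpowers_le.mpr hw) hu)
  have hcentinv : ∀ (N : Subgroup X), (∀ a : MulAut X, ∀ g ∈ N, a g ∈ N) →
      ∀ a : MulAut X, ∀ g ∈ Subgroup.centralizer (N : Set X),
        a g ∈ Subgroup.centralizer (N : Set X) := by
    intro N hN a g hg
    rw [Subgroup.mem_centralizer_iff] at hg ⊢
    intro c hc
    have h1 := hg (a.symm c) (hN a.symm c hc)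
    have h2 := congrArg a h1
    simpa using h2
  have hstar : ∀ y : X, orderOf y = p → y ∈ Subgroup.centralizer (P : Set X) :=
    htrans _ (hcentinv P hPa) z0 hz0 hz0ord
  -- `N = O_{p,p'}(X)`
  obtain ⟨N, hNdef⟩ : ∃ N : Subgroup X,
      N = (pPrimeCore p (X ⧸ P)).comap (QuotientGroup.mk' P) := ⟨_, rfl⟩
  haveI hKn : (pPrimeCore p (X ⧸ P)).Normal := Cfsg.Agent.Lib.Helper81.pPrimeCore_normal p
  haveI hNn : N.Normal := by rw [hNdef]; infer_instance
  have hPN : P ≤ N := by
    intro g hg
    rw [hNdef, Subgroup.mem_comap]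
    have : QuotientGroup.mk' P g = 1 := (QuotientGroup.eq_one_iff g).mpr hg
    rw [this]; exact Subgroup.one_mem _
  have hNa : ∀ a : MulAut X, ∀ g ∈ N, a g ∈ N := by
    intro a g hg
    rw [hNdef, Subgroup.mem_comap] at hg ⊢
    have h1 : (QuotientGroup.congr P P a (hPmap a)) (QuotientGroup.mk' P g) ∈
        (pPrimeCore p (X ⧸ P)).map (QuotientGroup.congr P P a (hPmap a)).toMonoidHom :=
      Subgroup.mem_map_of_mem _ hg
    rw [Cfsg.Agent.Lib.Helper31.pPrimeCore_map p (QuotientGroup.congr P P a (hPmap a))] at h1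
    exact h1
  have hcopK : (Nat.card (pPrimeCore p (X ⧸ P))).Coprime p :=
    Cfsg.Agent.Lib.Helper81.pPrimeCore_coprime p
  obtain ⟨j, hj⟩ := IsPGroup.iff_card.mp hPp
  have hcardN : Nat.card N = Nat.card (pPrimeCore p (X ⧸ P)) * Nat.card P := by
    rw [hNdef]; exact Cfsg.Agent.Lib.Helper40.card_comap_mk' P _
  -- a complement `T` of `P` in `N`
  obtain ⟨T, hTN, hTcard, hNle⟩ : ∃ T : Subgroup X, T ≤ N ∧
      Nat.card T = Nat.card (pPrimeCore p (X ⧸ P)) ∧ N ≤ P ⊔ T := by
    have hc1 : Nat.card (P.subgroupOf N) = Nat.card P :=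
      Cfsg.Agent.Lib.Helper1.card_subgroupOf_of_le hPN
    have hidx : (P.subgroupOf N).index = Nat.card (pPrimeCore p (X ⧸ P)) := by
      have h1 := Subgroup.card_mul_index (P.subgroupOf N)
      rw [hc1, hcardN, mul_comm] at h1
      exact Nat.eq_of_mul_eq_mul_right Nat.card_pos h1
    have hcop : (Nat.card (P.subgroupOf N)).Coprime (P.subgroupOf N).index := by
      rw [hc1, hidx, hj]
      exact Nat.Coprime.pow_left j hcopK.symm
    obtain ⟨K, hK⟩ := Subgroup.exists_right_complement'_of_coprime hcop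
    refine ⟨K.map N.subtype, Subgroup.map_subtype_le _, ?_, ?_⟩
    · rw [Subgroup.card_map_of_injective N.subtype_injective, ← hidx]
      exact hK.symm.index_eq_card.symm
    · intro g hg
      have h1 : (⟨g, hg⟩ : N) ∈ P.subgroupOf N ⊔ K := by rw [hK.sup_eq_top]; trivial
      have h2 : g ∈ (P.subgroupOf N ⊔ K).map N.subtype := ⟨⟨g, hg⟩, h1, rfl⟩
      rw [Subgroup.map_sup, Subgroup.subgroupOf_map_subtype] at h2
      exact (sup_le_sup_right (inf_le_left : P ⊓ N ≤ P) (K.map N.subtype)) h2
  have hTcop : (Nat.card T).Coprime (Nat.card P) := by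
    rw [hTcard, hj]; exact Nat.Coprime.pow_right j hcopK
  have hTcopp : (Nat.card T).Coprime p := by rw [hTcard]; exact hcopK
  have hTnorm : T ≤ Subgroup.normalizer (P : Set X) := by
    rw [Subgroup.normalizer_eq_top]; exact le_top
  have hNdec : ∀ g ∈ N, ∃ n ∈ P, ∃ t ∈ T, g = n * t := fun g hg =>
    Cfsg.Agent.S0057.sup_mem hTnorm (hNle hg)
  have hTP : ∀ t ∈ T, t ∈ P → t = 1 := fun t ht htP =>
    Cfsg.Agent.S0057.inf_triv hTcop htP ht
  by_cases hA : ∃ w : X, orderOf w = p ∧ w ∈ Subgroup.centralizer (N : Set X)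
  · -- every element of order `p` centralizes `N`
    obtain ⟨w, hwo, hw⟩ := hA
    have hall : ∀ y : X, orderOf y = p → y ∈ Subgroup.centralizer (N : Set X) :=
      htrans _ (hcentinv N hNa) w hw hwo
    have hTc : ∀ t ∈ T, t = 1 := by
      intro t ht
      apply hTP t ht
      apply hCP
      rw [Subgroup.mem_centralizer_iff]
      intro v hv
      have hto : t ^ Nat.card T = 1 := by
        have h0 : (⟨t, ht⟩ : T) ^ Nat.card T = 1 := pow_card_eq_one'
        have h00 := congrArg Subtype.val h0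
        rw [Subgroup.coe_pow, Subgroup.coe_one] at h00
        exact h00
      have key := odd_omega hp2 hto hTcopp P hPp (fun x hx => hPn.conj_mem x hx t) ?_ v hv
      · exact key.symm
      · intro x hx hxp
        by_cases hx1 : x = 1
        · rw [hx1]; simp
        · have hxo : orderOf x = p := orderOf_eq_prime hxp hx1
          exact Subgroup.mem_centralizer_iff.mp (hall x hxo) t (hTN ht)
    have hNP : N ≤ P := by
      intro g hg
      obtain ⟨n, hn, t, ht, rfl⟩ := hNdec g hg
      rw [hTc t ht, mul_one]; exact hn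
    have hK : pPrimeCore p (X ⧸ P) = ⊥ := by
      rw [eq_bot_iff]
      intro k hk
      obtain ⟨g, rfl⟩ := QuotientGroup.mk'_surjective P k
      have hgN : g ∈ N := by rw [hNdef]; exact hk
      rw [Subgroup.mem_bot]
      exact (QuotientGroup.eq_one_iff g).mpr (hNP hgN)
    have hQS : IsPSolvable p (X ⧸ P) := Cfsg.Agent.Lib.Helper75.Fratt.isPSolvable_quotient P hS
    have hQP : pCore p (X ⧸ P) = ⊥ := by
      subst hPdef
      exact Cfsg.Agent.Lib.Helper77.pCore_quotient_pCore_eq_bot p
    have hQC := Cfsg.Agent.Lib.Helper40.centralizer_pCore_le hQS hK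
    intro x _
    have h1 : (QuotientGroup.mk' P x) ∈ pCore p (X ⧸ P) := by
      apply hQC
      rw [hQP]
      simp [Subgroup.mem_centralizer_iff]
    rw [hQP, Subgroup.mem_bot] at h1
    exact (QuotientGroup.eq_one_iff x).mp h1
  · -- no element of order `p` centralizes `N`
    push Not at hA
    have hnoT : ∀ y : X, orderOf y = p → ¬ (∀ t ∈ T, y * t * y⁻¹ ∈ T) := by
      intro y hyo hyT
      apply hA y hyo
      have hyc := hstar y hyo
      have hyP : y ∈ P := hCP hyc
      rw [Subgroup.mem_centralizer_iff]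
      intro g hg
      obtain ⟨n, hn, t, ht, rfl⟩ := hNdec g hg
      have h1 : n * y = y * n := Subgroup.mem_centralizer_iff.mp hyc n hn
      have h2 : y * t * y⁻¹ * t⁻¹ = 1 := by
        apply hTP
        · exact T.mul_mem (hyT t ht) (T.inv_mem ht)
        · have h3 : t * y⁻¹ * t⁻¹ ∈ P := hPn.conj_mem _ (P.inv_mem hyP) t
          have e : y * t * y⁻¹ * t⁻¹ = y * (t * y⁻¹ * t⁻¹) := by group
          rw [e]; exact P.mul_mem hyP h3
      have h3 : y * t = t * y := by
        have e : y * t = (y * t * y⁻¹ * t⁻¹) * t * y := by group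
        rw [e, h2, one_mul]
      calc n * t * y = n * (t * y) := by group
        _ = n * (y * t) := by rw [h3]
        _ = (n * y) * t := by group
        _ = (y * n) * t := by rw [h1]
        _ = y * (n * t) := by group
    intro x hx
    obtain ⟨k, hk⟩ := hx
    obtain ⟨B, hBdef⟩ : ∃ B : Subgroup X, B = T.map (MulAut.conj x).toMonoidHom := ⟨_, rfl⟩
    have hBN : B ≤ P ⊔ T := by
      rw [hBdef]
      rintro _ ⟨t, ht, rfl⟩
      apply hNle
      exact hNn.conj_mem t (hTN ht) x
    have hBcard : Nat.card B = Nat.card T := by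
      rw [hBdef]; exact Subgroup.card_map_of_injective (MulAut.conj x).injective
    have hsolvP : Group.IsSolvable P := by
      haveI := hPp.isNilpotent
      infer_instance
    obtain ⟨n, hn, hconj⟩ :=
      Cfsg.Agent.S0057.sup_conj hTnorm hTcop (Or.inr hsolvP) hBN hBcard
    obtain ⟨g, hgdef⟩ : ∃ g : X, g = n⁻¹ * x := ⟨_, rfl⟩
    have hgT : ∀ t ∈ T, g * t * g⁻¹ ∈ T := by
      intro t ht
      have h1 := hconj (x * t * x⁻¹) (by rw [hBdef]; exact ⟨t, ht, rfl⟩)
      have e : g * t * g⁻¹ = n⁻¹ * (x * t * x⁻¹) * n := by rw [hgdef]; group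
      rw [e]; exact h1
    have hgpow : ∀ i : ℕ, ∀ t ∈ T, g ^ i * t * (g ^ i)⁻¹ ∈ T := by
      intro i
      induction i with
      | zero => intro t ht; simpa using ht
      | succ i ih =>
        intro t ht
        have h1 := hgT _ (ih t ht)
        have e : g ^ (i + 1) * t * (g ^ (i + 1))⁻¹ = g * (g ^ i * t * (g ^ i)⁻¹) * g⁻¹ := by
          rw [pow_succ']; group
        rw [e]; exact h1
    have hgo : ¬ p ∣ orderOf g := by
      intro hdvd
      obtain ⟨q, hq⟩ := hdvd
      have hpos : 0 < orderOf g := orderOf_pos g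
      have hq0 : q ≠ 0 := by
        rintro rfl
        rw [mul_zero] at hq
        omega
      have hy : orderOf (g ^ q) = p := by
        rw [orderOf_pow_of_dvd hq0 ⟨p, by rw [hq, mul_comm]⟩, hq]
        exact Nat.mul_div_cancel _ (Nat.pos_of_ne_zero hq0)
      exact hnoT (g ^ q) hy (hgpow q)
    have hgx : QuotientGroup.mk' P g = QuotientGroup.mk' P x := by
      rw [hgdef, map_mul, map_inv]
      have h1 : QuotientGroup.mk' P n = 1 := (QuotientGroup.eq_one_iff n).mpr hn
      rw [h1]; simp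
    have h1 : (QuotientGroup.mk' P x) ^ p ^ k = 1 := by rw [← map_pow, hk, map_one]
    have h2 : (QuotientGroup.mk' P x) ^ orderOf g = 1 := by
      rw [← hgx, ← map_pow, pow_orderOf_eq_one, map_one]
    have hcopg : (p ^ k).Coprime (orderOf g) :=
      Nat.Coprime.pow_left k ((Nat.Prime.coprime_iff_not_dvd hpp).mpr hgo)
    have h3 := eq_one_of_pow_coprime h1 h2 hcopg
    exact (QuotientGroup.eq_one_iff x).mp h3

/-- **Gaschütz–Yen.** A finite `p`-soluble group (`p` odd) whose automorphism group permutes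
the subgroups of order `p` transitively has `p`-length at most one. -/
theorem gy_main {G : Type u} [Group G] [Finite G] {p : ℕ} [Fact p.Prime] (hp2 : p ≠ 2)
    (hG : IsPSolvable p G)
    (htrans : ∀ U V : Subgroup G, Nat.card U = p → Nat.card V = p →
      ∃ a : MulAut G, U.map a.toMonoidHom = V) : PLengthLE p 1 G := by
  classical
  haveI hn : (pPrimeCore p G).Normal := Cfsg.Agent.Lib.Helper81.pPrimeCore_normal p
  obtain ⟨P⟩ : Nonempty (Sylow p G) := inferInstance
  apply Cfsg.Agent.Lib.Helper29.s3787_crit p P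
  intro g hg
  have hN : (Nat.card (pPrimeCore p G)).Coprime p := Cfsg.Agent.Lib.Helper81.pPrimeCore_coprime p
  apply gy_core hp2 (Cfsg.Agent.Lib.Helper75.Fratt.isPSolvable_quotient _ hG)
    (Cfsg.Agent.Lib.Helper75.Fratt.pPrimeCore_quotient_eq_bot' p) ?_ _ ?_
  · intro Ub Vb hU hV
    have hUp : IsPGroup p Ub := IsPGroup.of_card (n := 1) (by rw [hU, pow_one])
    have hVp : IsPGroup p Vb := IsPGroup.of_card (n := 1) (by rw [hV, pow_one])
    obtain ⟨U, -, hUm, hUc⟩ :=
      Cfsg.Agent.Lib.Helper66.exists_lift_pgroup (pPrimeCore p G) hN Ub hUp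
    obtain ⟨V, -, hVm, hVc⟩ :=
      Cfsg.Agent.Lib.Helper66.exists_lift_pgroup (pPrimeCore p G) hN Vb hVp
    obtain ⟨a, ha⟩ := htrans U V (by rw [hUc, hU]) (by rw [hVc, hV])
    have hNmap : (pPrimeCore p G).map a.toMonoidHom = pPrimeCore p G :=
      Cfsg.Agent.Lib.Helper31.pPrimeCore_map p a
    refine ⟨QuotientGroup.congr _ _ a hNmap, ?_⟩
    rw [← hUm, ← hVm, ← ha, Subgroup.map_map, Subgroup.map_map]
    rfl
  · obtain ⟨k, hk⟩ := P.isPGroup' ⟨g, hg⟩
    refine ⟨k, ?_⟩
    have h1 : g ^ p ^ k = 1 := by simpa using congrArg Subtype.val hk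
    rw [← map_pow, h1, map_one]

end Cfsg.Agent.Lib.Helper14.Gy
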