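import Cfsg.Agent.Lib.Helper98.H74Defs

/-! Project H74 (helper98, S5974), piece AREVF (helper14): `ModelH 1 1 i d m → Cond74 i d m`
for even `i ≤ m`. -/

set_option autoImplicit false

namespace Cfsg.Agent.Lib.Helper98.H74

open Cfsg.Agent.Lib.Helper47 Cfsg.Agent.Lib.Helper98.T73 Module Polynomial

/-- AREVF -/
theorem ar_even_fwd (i d m : ℕ) (hi : 1 ≤ i) (heven : Even i) (hd : 4 ≤ d) (hm : 2 ≤ m)
    (hme : Even m) (hmd : m < d) (him : i ≤ m) (hM : ModelH 1 1 i d m) : Cond74 i d m := by
  have hsgn : ∀ A, sgn i A = (-1 : ℤ) ^ A := fun A => by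
    unfold sgn
    rw [if_pos heven]
  have hnodd : ¬ Odd i := fun h => (Nat.not_even_iff_odd.mpr h) heven
  have hDdm := Nat.div_add_mod (2 * d) i
  have hmdm := Nat.div_add_mod m i
  have hDlt : (2 * d) % i < i := Nat.mod_lt _ hi
  have hmlt : m % i < i := Nat.mod_lt _ hi
  have hq1 : 1 ≤ (2 * d) / i := Nat.div_pos (by omega) hi
  unfold Cond74
  rw [if_pos heven]
  by_cases hρ : (2 * d) % i = 0
  · left
    refine ⟨hρ, ?_⟩
    rcases Nat.even_or_odd ((2 * d) / i) with hq | hq
    · right
      have hV : Valid 1 i d ((2 * d) / i) := by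
        refine ⟨hq1, by omega, fun h => absurd h hnodd, fun _ => ?_⟩
        rw [hsgn]
        exact hq.neg_one_pow
      obtain ⟨j, w, hjA, -, hmjw, hw, hw0, -⟩ := hM _ hV
      have hw0' : w = 0 := by omega
      have hj : Even j := by
        have h1 := hw0 hw0'
        rw [hsgn] at h1
        exact (neg_one_pow_eq_one_iff_even (by norm_num)).mp h1
      subst hw0'
      rw [add_zero] at hmjw
      have hmod : m % i = 0 := by
        rw [hmjw]
        exact Nat.mul_mod_right i j
      have hdiv : m / i = j := by
        rw [hmjw]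
        exact Nat.mul_div_cancel_left j (by omega)
      refine ⟨hmod, ?_⟩
      rw [hdiv]
      exact hj
    · left
      exact hq
  · right
    refine ⟨him, ?_⟩
    have hV : Valid 1 i d ((2 * d) / i) := by
      refine ⟨hq1, by omega, fun h => absurd h hnodd, fun h => ?_⟩
      exact absurd h (by omega)
    obtain ⟨j, w, hjA, -, hmjw, hw, hw0, hw1⟩ := hM _ hV
    have hwρ : w ≤ (2 * d) % i := by omega
    have hwm : m % i = w := by
      rw [hmjw, Nat.mul_add_mod]
      exact Nat.mod_eq_of_lt (by omega)
    have hjm : m / i = j := by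
      have h1 : i * (m / i) = i * j := by omega
      exact Nat.eq_of_mul_eq_mul_left (by omega) h1
    by_cases hw00 : w = 0
    · right
      right
      refine ⟨by omega, by omega, ?_⟩
      have h1 := hw0 hw00
      rw [hsgn] at h1
      rw [hjm]
      exact (neg_one_pow_eq_one_iff_even (by norm_num)).mp h1
    · by_cases hlt : w < (2 * d) % i
      · left
        exact ⟨by omega, by omega⟩
      · right
        left
        have hweq : w = (2 * d) % i := by omega
        refine ⟨by omega, by omega, ?_⟩
        have h1 := hw1 (by omega) (by omega)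
        rw [hsgn, hsgn, one_mul, one_mul] at h1
        have h2 : (2 * d + m - 2 * ((2 * d) % i)) = i * ((2 * d) / i + j) := by
          rw [Nat.mul_add]
          omega
        rw [h2, Nat.mul_div_cancel_left _ (by omega)]
        rcases Nat.even_or_odd ((2 * d) / i) with hq | hq <;>
          rcases Nat.even_or_odd j with hj | hj
        · exact hq.add hj
        · rw [hq.neg_one_pow, hj.neg_one_pow] at h1
          norm_num at h1
        · rw [hq.neg_one_pow, hj.neg_one_pow] at h1
          norm_num at h1
        · exact hq.add_odd hj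

end Cfsg.Agent.Lib.Helper98.H74
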