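import Cfsg.Agent.Lib.Helper98.H74Defs
import Cfsg.Agent.Lib.Helper77.H74HYPTYP
import Cfsg.Agent.Lib.Helper24.H74SUM
import Cfsg.Agent.Lib.Helper40.H74COMPL

/-! Project H74 (helper98, S5974), piece CSQ (backup copy by helper14): an isometry `g` with
`g * g = -1` over a field in which `-1` is a square fixes a hyperbolic `(2k+2)`-space. -/

set_option autoImplicit false
set_option linter.unusedSectionVars false
set_option linter.unusedVariables false

namespace Cfsg.Agent.Lib.Helper98.H74

open Cfsg.Agent.Lib.Helper47 Cfsg.Agent.Lib.Helper98.T73 Module Polynomial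

universe u

variable {F : Type u} [Field F] [Fintype F] {V : Type u} [AddCommGroup V] [Module F V]
  [FiniteDimensional F V] {Q : V → F} {B : V → V → F}

/-- an eigenvector in an invariant nondegenerate subspace gives an invariant hyperbolic plane -/
theorem CSQb_eig (hf : QFacts F) (h2 : (2 : F) ≠ 0) (hQ : IsQuad Q B) (p : ℕ) [Fact p.Prime]
    [CharP F p] (g : Module.End F V) (hgQ : QI Q g) (hgg : ∀ v, g (g v) = -v) (c : F)
    (hc : c * c = -1) (Y : Submodule F V) (hYg : Y.map g ≤ Y)
    (hY : ∀ y ∈ Y, y ≠ 0 → ∃ z ∈ Y, B y z ≠ 0) (e : V) (heY : e ∈ Y) (he0 : e ≠ 0)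
    (hge : g e = c • e) :
    ∃ P : Submodule F V, P ≤ Y ∧ SubTyp Q B P 0 1 ∧ P.map g ≤ P := by
  have hBr : ∀ (a : F) (x y : V), B x (a • y) = a * B x y := sym_smul_right hQ.form
  have hBs : ∀ x y : V, B y x = B x y := sym_comm hQ.form
  have hBiso : ∀ u v : V, B (g u) (g v) = B u v := hQ.isometry hQ g hgQ
  have hsing : ∀ (a : F) (v : V), a * a = -1 → g v = a • v → Q v = 0 := by
    intro a v ha hv
    have h1 := hgQ v
    rw [hv, hQ.smul] at h1
    have h3 : (2 : F) * Q v = 0 := by linear_combination (-1 : F) * h1 + Q v * ha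
    exact (mul_eq_zero.mp h3).resolve_left h2
  have hcz : ∀ v : V, (c * c) • v = -v := fun v => by rw [hc, neg_one_smul]
  obtain ⟨z, hzY, hz⟩ := hY e heY he0
  have hgzY : g z ∈ Y := hYg (Submodule.mem_map_of_mem hzY)
  obtain ⟨f, hf_def⟩ : ∃ f : V, f = z + c • g z := ⟨_, rfl⟩
  have hfY : f ∈ Y := by
    rw [hf_def]
    exact Y.add_mem hzY (Y.smul_mem c hgzY)
  have hgf : g f = (-c) • f := by
    rw [hf_def, map_add, map_smul, hgg]
    have h1 : (-c) • (z + c • g z) = -(c • z) - (c * c) • g z := by module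
    rw [h1, hcz]
    module
  have hBef : B e f = 2 * B e z := by
    have h1 := hBiso e z
    rw [hge, hQ.form.smul_left] at h1
    rw [hf_def, hQ.form.add_right, hBr, h1]
    ring
  have hBef0 : B e f ≠ 0 := by
    rw [hBef]
    exact mul_ne_zero h2 hz
  have hQe : Q e = 0 := hsing c e hc hge
  have hQf : Q f = 0 := hsing (-c) f (by linear_combination hc) hgf
  have hBee : B e e = 0 := by rw [hQ.self, hQe, mul_zero]
  have hBff : B f f = 0 := by rw [hQ.self, hQf, mul_zero]
  obtain ⟨P, hPdef⟩ : ∃ P : Submodule F V, P = Submodule.span F {e, f} := ⟨_, rfl⟩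
  have heP : e ∈ P := by
    rw [hPdef]
    exact Submodule.subset_span (Set.mem_insert _ _)
  have hfP : f ∈ P := by
    rw [hPdef]
    exact Submodule.subset_span (Set.mem_insert_of_mem _ rfl)
  have hPY : P ≤ Y := by
    rw [hPdef, Submodule.span_le]
    intro x hx
    rcases hx with h | h
    · rw [h]
      exact heY
    · rw [Set.mem_singleton_iff] at h
      rw [h]
      exact hfY
  have hPg : P.map g ≤ P := by
    rw [hPdef, Submodule.map_span_le]
    intro x hx
    rcases hx with h | h
    · rw [h, hge]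
      exact Submodule.smul_mem _ _ (Submodule.subset_span (Set.mem_insert _ _))
    · rw [Set.mem_singleton_iff] at h
      rw [h, hgf]
      exact Submodule.smul_mem _ _ (Submodule.subset_span (Set.mem_insert_of_mem _ rfl))
  have hpol : ∀ u v : V, QuadraticMap.polar Q u v = B u v := by
    intro u v
    unfold QuadraticMap.polar
    rw [hQ.polar]
    ring
  have hli : LinearIndependent F ![e, f] := by
    rw [LinearIndependent.pair_iff]
    intro s t hst
    have h1 : B e (s • e + t • f) = 0 := by rw [hst, hQ.form.zero_right]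
    rw [hQ.form.add_right, hBr, hBr, hBee] at h1
    have ht : t = 0 := by
      have h4 : t * B e f = 0 := by linear_combination h1
      exact (mul_eq_zero.mp h4).resolve_right hBef0
    have h3 : B (s • e + t • f) f = 0 := by rw [hst, hQ.form.zero_left]
    rw [hQ.form.add_left, hQ.form.smul_left, hQ.form.smul_left, hBff] at h3
    have hs : s = 0 := by
      have h4 : s * B e f = 0 := by linear_combination h3
      exact (mul_eq_zero.mp h4).resolve_right hBef0
    exact ⟨hs, ht⟩
  have hPdim : finrank F P = 2 := by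
    have h1 := finrank_span_eq_card hli
    rw [Matrix.range_cons_cons_empty, Fintype.card_fin] at h1
    rw [hPdef]
    exact h1
  have hU1 := finrank_span_singleton (K := F) he0
  have hH : HypM Q (2 * 0 + 2) P := by
    refine ⟨by omega, ?_, Submodule.span F {e}, ?_, by omega, ?_⟩
    · intro u hu hu0
      rw [hPdef] at hu
      obtain ⟨a, b, rfl⟩ := Submodule.mem_span_pair.mp hu
      by_cases ha : a = 0
      · have hb : b ≠ 0 := by
          intro hb
          apply hu0
          rw [ha, hb, zero_smul, zero_smul, add_zero]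
        refine ⟨e, heP, ?_⟩
        rw [hpol, hQ.form.add_left, hQ.form.smul_left, hQ.form.smul_left, hBee, hBs e f, mul_zero,
          zero_add]
        exact mul_ne_zero hb hBef0
      · refine ⟨f, hfP, ?_⟩
        rw [hpol, hQ.form.add_left, hQ.form.smul_left, hQ.form.smul_left, hBff, mul_zero, add_zero]
        exact mul_ne_zero ha hBef0
    · rw [hPdef]
      apply Submodule.span_mono
      intro x hx
      rw [Set.mem_singleton_iff] at hx
      rw [hx]
      exact Set.mem_insert _ _
    · intro u hu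
      obtain ⟨a, rfl⟩ := Submodule.mem_span_singleton.mp hu
      rw [hQ.smul, hQe, mul_zero]
  exact ⟨P, hPY, (hyp_iff hf hQ p P 0).mp hH, hPg⟩

/-- an invariant nondegenerate nonzero subspace contains an invariant hyperbolic plane -/
theorem CSQb_plane (hf : QFacts F) (h2 : (2 : F) ≠ 0) (hQ : IsQuad Q B) (p : ℕ) [Fact p.Prime]
    [CharP F p] (g : Module.End F V) (hgQ : QI Q g) (hgg : ∀ v, g (g v) = -v) (ι : F)
    (hι : ι * ι = -1) (Y : Submodule F V) (hYg : Y.map g ≤ Y)
    (hY : ∀ y ∈ Y, y ≠ 0 → ∃ z ∈ Y, B y z ≠ 0) (hY0 : ∃ y ∈ Y, y ≠ 0) :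
    ∃ P : Submodule F V, P ≤ Y ∧ SubTyp Q B P 0 1 ∧ P.map g ≤ P := by
  obtain ⟨y, hyY, hy0⟩ := hY0
  have hgyY : g y ∈ Y := hYg (Submodule.mem_map_of_mem hyY)
  have hιv : ∀ v : V, (ι * ι) • v = -v := fun v => by rw [hι, neg_one_smul]
  by_cases h1 : y - ι • g y = 0
  · have h2' : y + ι • g y ≠ 0 := by
      intro h3
      have h4 : (2 : F) • y = 0 := by
        have h5 : (2 : F) • y = (y - ι • g y) + (y + ι • g y) := by module
        rw [h5, h1, h3, add_zero]
      rcases smul_eq_zero.mp h4 with h5 | h5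
      · exact h2 h5
      · exact hy0 h5
    refine CSQb_eig hf h2 hQ p g hgQ hgg (-ι) (by linear_combination hι) Y hYg hY (y + ι • g y)
      (Y.add_mem hyY (Y.smul_mem ι hgyY)) h2' ?_
    rw [map_add, map_smul, hgg]
    have h6 : (-ι) • (y + ι • g y) = -(ι • y) - (ι * ι) • g y := by module
    rw [h6, hιv]
    module
  · refine CSQb_eig hf h2 hQ p g hgQ hgg ι hι Y hYg hY (y - ι • g y)
      (Y.sub_mem hyY (Y.smul_mem ι hgyY)) h1 ?_
    rw [map_sub, map_smul, hgg]
    have h6 : ι • (y - ι • g y) = ι • y - (ι * ι) • g y := by module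
    rw [h6, hιv]
    module

/-- CSQ -/
theorem cpx_fix_sq (hf : QFacts F) (h2 : (2 : F) ≠ 0) (hsq : IsSquare (-1 : F))
    (hQ : IsQuad Q B) (hnd : Nondeg B) (d : ℕ) (hdim : finrank F V = 2 * d) (p : ℕ)
    [Fact p.Prime] [CharP F p] (g : Module.End F V) (hgQ : QI Q g) (hg : g * g = -1) (k : ℕ)
    (hk : 2 * k + 2 < d) :
    ∃ W : Submodule F V, SubTyp Q B W k 1 ∧ W.map g ≤ W := by
  obtain ⟨ι, hι⟩ := hsq
  have hι' : ι * ι = -1 := hι.symm
  have hgg : ∀ v, g (g v) = -v := by
    intro v
    have h : (g * g) v = (-1 : Module.End F V) v := by rw [hg]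
    rw [Module.End.mul_apply, LinearMap.neg_apply, Module.End.one_apply] at h
    exact h
  have key : ∀ k : ℕ, k + 1 ≤ d → ∃ W : Submodule F V, SubTyp Q B W k 1 ∧ W.map g ≤ W := by
    intro k
    induction k with
    | zero =>
      intro _
      have hd0 : 0 < finrank F V := by omega
      haveI : Nontrivial V := Module.nontrivial_of_finrank_pos (R := F) hd0
      obtain ⟨y, hy⟩ := exists_ne (0 : V)
      obtain ⟨P, -, hP, hPg⟩ := CSQb_plane hf h2 hQ p g hgQ hgg ι hι' ⊤ le_top
        (fun y _ hy0 => by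
          by_contra hcon
          push Not at hcon
          exact hy0 (hnd y (fun z => hcon z Submodule.mem_top)))
        ⟨y, Submodule.mem_top, hy⟩
      exact ⟨P, hP, hPg⟩
    | succ k ih =>
      intro hk1
      obtain ⟨X, hX, hXg⟩ := ih (by omega)
      obtain ⟨ε, hε⟩ : ∃ ε : ℤ, IsTyp Q (d - 1) ε := by
        rcases hf.typ_exists (d - 1) V Q B hQ hnd (by omega) with h | h
        · exact ⟨1, h⟩
        · exact ⟨-1, h⟩
      obtain ⟨Y, hXY, -, -, hYt, hYinv⟩ :=
        subtyp_compl hf hQ hnd d hdim ε hε X k 1 hX (by omega)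
      have hYg : Y.map g ≤ Y := hYinv g hgQ hXg
      obtain ⟨hYnd, hYdim, -⟩ := hYt
      have hY0 : ∃ y ∈ Y, y ≠ 0 := by
        have hpos : 0 < finrank F Y := by omega
        haveI : Nontrivial Y := Module.nontrivial_of_finrank_pos (R := F) hpos
        obtain ⟨y, hy⟩ := exists_ne (0 : Y)
        exact ⟨y, y.2, fun h => hy (Subtype.ext h)⟩
      obtain ⟨P, hPY, hP, hPg⟩ := CSQb_plane hf h2 hQ p g hgQ hgg ι hι' Y hYg
        (fun y hy hy0 => by
          by_contra hcon
          push Not at hcon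
          have h0 : (⟨y, hy⟩ : Y) = 0 := hYnd ⟨y, hy⟩ (fun z => hcon z z.2)
          exact hy0 (congrArg Subtype.val h0))
        hY0
      refine ⟨X ⊔ P, ?_, ?_⟩
      · have h := subtyp_sup hf hQ X P (fun x hx y hy => hXY x hx y (hPY hy)) k 0 1 1 hX hP
        simpa using h
      · rw [Submodule.map_sup]
        exact sup_le_sup hXg hPg
  exact key k (by omega)

end Cfsg.Agent.Lib.Helper98.H74
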