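import Mathlib
import Cfsg.Agent.Lib.Helper22.HPDefs
import Cfsg.Agent.Lib.Helper83.IrrBasic
import Cfsg.Agent.Lib.Helper83.Ortho
import Cfsg.Agent.Lib.Helper83.Central
import Cfsg.Agent.Lib.Helper80.Twisted
import Cfsg.Agent.Lib.Helper82.PQ
import Cfsg.Agent.Lib.Helper68.BFPDEC
import Cfsg.Agent.Lib.Helper63.BFS1E

/-!
# S4504, sub-piece SS-CENTCARD (helper14 for helper84)

`|C_G(z ^ t)| = p |Z(G)|` for `t ≠ 0` under `HP` when `G` has no normal subgroup of order `p`.
-/

set_option autoImplicit false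

namespace Cfsg.Agent.Lib.Helper14.HPT

open Cfsg Cfsg.Agent.Lib.Helper22.BFD Cfsg.Agent.Lib.Helper22.HPD
open scoped ComplexConjugate

universe u

/-- a power of `z` with exponent prime to the order `p` of `z` has `z` as a power -/
private theorem hpcc_root {G : Type u} [Group G] (p : ℕ) (hp : p.Prime) (z : G)
    (hz : orderOf z = p) (k : ℤ) (hk : ¬ (p : ℤ) ∣ k) : ∃ b : ℤ, (z ^ k) ^ b = z := by
  have hcop : IsCoprime (p : ℤ) k :=
    (Nat.prime_iff_prime_int.mp hp).coprime_iff_not_dvd.mpr hk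
  obtain ⟨a, b, hab⟩ := hcop
  refine ⟨b, ?_⟩
  have h1 : z ^ (p : ℤ) = 1 := by
    rw [zpow_natCast, ← hz]; exact pow_orderOf_eq_one z
  have h2 : (z ^ k) ^ b = z ^ (a * (p : ℤ) + b * k) := by
    rw [zpow_add, mul_comm a (p : ℤ), zpow_mul, h1, one_zpow, one_mul, ← zpow_mul, mul_comm]
  rw [h2, hab, zpow_one]

theorem hp_centcard {G : Type u} [Group G] [Fintype G] (p : ℕ) [Fact p.Prime]
    (hnn : ∀ H : Subgroup G, H.Normal → Nat.card H ≠ p) (χ : G → ℂ) (z : G) (ζ : ℂ)
    (hHP : HP p ζ z χ) (t : ZMod p) (ht : t ≠ 0) :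
    Nat.card (Subgroup.centralizer ({z ^ t.val} : Set G)) = p * Nat.card (Subgroup.center G) := by
  have hp : p.Prime := Fact.out
  haveI : NeZero p := ⟨hp.ne_zero⟩
  have hz := hHP.hz
  -- `z` is not central
  have hzc : z ∉ Subgroup.center G := by
    intro hc
    have hN : (Subgroup.zpowers z).Normal := by
      refine ⟨fun x hx g => ?_⟩
      obtain ⟨k, rfl⟩ := Subgroup.mem_zpowers_iff.mp hx
      have hck : z ^ k ∈ Subgroup.center G := Subgroup.zpow_mem _ hc k
      have hcomm : g * z ^ k = z ^ k * g := (Subgroup.mem_center_iff.mp hck g)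
      have : g * z ^ k * g⁻¹ = z ^ k := by rw [hcomm]; group
      rw [this]; exact Subgroup.zpow_mem_zpowers z k
    exact hnn _ hN (by rw [Nat.card_zpowers, hz])
  have hpow : ∀ k : ℤ, ¬ (p : ℤ) ∣ k → z ^ k ∉ Subgroup.center G := by
    intro k hk hc
    obtain ⟨b, hb⟩ := hpcc_root p hp z hz k hk
    exact hzc (hb ▸ Subgroup.zpow_mem _ hc b)
  -- the centralizers agree
  have htv : ¬ (p : ℤ) ∣ (t.val : ℤ) := by
    intro h
    have h' : p ∣ t.val := by exact_mod_cast h
    have : ((t.val : ℕ) : ZMod p) = 0 := (ZMod.natCast_eq_zero_iff _ _).mpr h'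
    rw [ZMod.natCast_zmod_val] at this
    exact ht this
  have hcent : Subgroup.centralizer ({z ^ t.val} : Set G) = Subgroup.centralizer ({z} : Set G) := by
    ext g
    simp only [Subgroup.mem_centralizer_iff, Set.mem_singleton_iff, forall_eq]
    constructor
    · intro h
      obtain ⟨b, hb⟩ := hpcc_root p hp z hz (t.val : ℤ) htv
      rw [zpow_natCast] at hb
      have hc : Commute (z ^ t.val) g := h
      have := hc.zpow_left b
      rw [hb] at this
      exact this
    · intro h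
      have hc : Commute z g := h
      exact hc.pow_left _
  rw [hcent]
  -- the bijection
  let f : ZMod p × Subgroup.center G → Subgroup.centralizer ({z} : Set G) := fun x =>
    ⟨z ^ x.1.val * (x.2 : G), by
      rw [Subgroup.mem_centralizer_iff]
      intro h hh
      rw [Set.mem_singleton_iff] at hh
      subst hh
      have hu := Subgroup.mem_center_iff.mp x.2.2
      have h1 : h * (h ^ x.1.val * (x.2 : G)) = h ^ x.1.val * (h * (x.2 : G)) := by
        rw [← mul_assoc, ← mul_assoc, ← pow_succ', ← pow_succ]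
      rw [h1, hu h, mul_assoc]⟩
  have hinj : Function.Injective f := by
    rintro ⟨a, u⟩ ⟨b, u'⟩ hab
    have h0 : z ^ a.val * (u : G) = z ^ b.val * (u' : G) := congrArg Subtype.val hab
    have h1 : z ^ ((a.val : ℤ) - (b.val : ℤ)) = (u' : G) * (u : G)⁻¹ := by
      rw [zpow_sub, zpow_natCast, zpow_natCast]
      have : z ^ a.val = z ^ b.val * (u' : G) * (u : G)⁻¹ := by
        rw [← h0]; group
      rw [this]
      have hu' := Subgroup.mem_center_iff.mp u'.2
      have hu := Subgroup.mem_center_iff.mp (Subgroup.inv_mem _ u.2)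
      rw [mul_assoc, mul_assoc, ← hu ((z ^ b.val)⁻¹), ← mul_assoc (u' : G), ← hu' ((z ^ b.val)⁻¹)]
      group
    have h2 : (p : ℤ) ∣ (a.val : ℤ) - (b.val : ℤ) := by
      by_contra hnd
      apply hpow _ hnd
      rw [h1]
      exact Subgroup.mul_mem _ u'.2 (Subgroup.inv_mem _ u.2)
    have h3 : a = b := by
      have := (ZMod.intCast_zmod_eq_zero_iff_dvd ((a.val : ℤ) - (b.val : ℤ)) p).mpr h2
      push_cast at this
      rw [ZMod.natCast_zmod_val, ZMod.natCast_zmod_val] at this
      exact sub_eq_zero.mp this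
    subst h3
    have h4 : (u : G) = (u' : G) := mul_left_cancel h0
    rw [Prod.mk.injEq]
    exact ⟨rfl, Subtype.ext h4⟩
  have hsurj : Function.Surjective f := by
    rintro ⟨g, hg⟩
    rw [Subgroup.mem_centralizer_iff] at hg
    have hgz : g * z = z * g := (hg z rfl).symm
    obtain ⟨a, u, hu, hgu⟩ := hHP.hC g hgz
    exact ⟨(a, ⟨u, hu⟩), Subtype.ext hgu.symm⟩
  rw [← Nat.card_congr (Equiv.ofBijective f ⟨hinj, hsurj⟩), Nat.card_prod, Nat.card_zmod]

end Cfsg.Agent.Lib.Helper14.HPT
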