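import Mathlib
import Cfsg.Prelude.Def_LieTypeChar
import Cfsg.Agent.Lib.Lead.LTBCore
import Cfsg.Agent.Lib.Lead.LTBDefs

/-!
# S2363 piece LTB-TW (helper14): the twisted groups `²E₆(q)` and `³D₄(q)`
-/

set_option autoImplicit false

namespace Cfsg.Agent.Lib.Lead.LTB

private theorem ltbtw_sub_lt (q i : ℕ) (hq : 2 ≤ q) : q ^ i - 1 < q ^ i := by
  have : 0 < q ^ i := pos_of_ne_zero (pow_ne_zero _ (by omega))
  omega

private theorem ltbtw_pair (q a b : ℕ) (hq : 2 ≤ q) (hab : b ≤ a) :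
    (q ^ a + 1) * (q ^ b - 1) < q ^ (a + b) := by
  have hb : 0 < q ^ b := pos_of_ne_zero (pow_ne_zero _ (by omega))
  obtain ⟨c, hc⟩ : ∃ c, q ^ b = c + 1 := ⟨q ^ b - 1, by omega⟩
  have hle : q ^ b ≤ q ^ a := Nat.pow_le_pow_right (by omega) hab
  rw [pow_add, hc, Nat.add_sub_cancel]
  have : c < q ^ a := by omega
  nlinarith

/-- `q` is a power of `p` when a power of `q` is the order of a field of characteristic `p` -/
private theorem ltbtw_q (p : ℕ) (hp : p.Prime) (K : Type) [Field K] [Fintype K] [CharP K p]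
    (q e : ℕ) (he : 0 < e) (hq : IsPrimePow q) (hK : Fintype.card K = q ^ e) :
    ∃ j : ℕ, q = p ^ j ∧ 2 ≤ q ∧ ¬ p ∣ q + 1 ∧ ¬ p ∣ 1 := by
  obtain ⟨f, _, hf⟩ := FiniteField.card K p
  have hdvd : q ∣ p ^ (f : ℕ) := by
    rw [← hf, hK]
    exact dvd_pow_self q he.ne'
  obtain ⟨j, -, hj⟩ := (Nat.dvd_prime_pow hp).mp hdvd
  have h2 : 2 ≤ q := hq.two_le
  have hj0 : j ≠ 0 := by
    rintro rfl
    rw [pow_zero] at hj
    omega
  have hpq : p ∣ q := by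
    rw [hj]; exact dvd_pow_self p hj0
  have hp1 : ¬ p ∣ 1 := fun h => hp.one_lt.ne' (Nat.dvd_one.mp h)
  refine ⟨j, hj, h2, fun h => hp1 ?_, hp1⟩
  exact (Nat.dvd_add_right hpq).mp h

theorem twe6_stmt : TwE6Stmt := by
  intro p hp K _ _ _ q hq hK h
  obtain ⟨j, hj, h2, hpq1, hp1⟩ := ltbtw_q p hp K q 2 (by norm_num) hq hK
  have hqpos : 0 < q := by omega
  have hd : ¬ p ∣ Nat.gcd 3 (q + 1) := fun hdv => hpq1 (hdv.trans (Nat.gcd_dvd_right 3 (q + 1)))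
  have hM : ((q ^ 5 + 1) * (q ^ 2 - 1)) * (q ^ 6 - 1) * ((q ^ 9 + 1) * (q ^ 8 - 1)) * (q ^ 12 - 1)
      < q ^ 42 := by
    have e : q ^ 42 = q ^ (5 + 2) * q ^ 6 * q ^ (9 + 8) * q ^ 12 := by
      rw [← pow_add, ← pow_add, ← pow_add]
    rw [e]
    exact Nat.mul_lt_mul'' (Nat.mul_lt_mul'' (Nat.mul_lt_mul'' (ltbtw_pair q 5 2 h2 (by norm_num))
      (ltbtw_sub_lt q 6 h2)) (ltbtw_pair q 9 8 h2 (by norm_num))) (ltbtw_sub_lt q 12 h2)
  have heq : Nat.gcd 3 (q + 1) * Nat.card ↥(Lie.twistedE6 K q) = q ^ 36 *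
      (((q ^ 5 + 1) * (q ^ 2 - 1)) * (q ^ 6 - 1) * ((q ^ 9 + 1) * (q ^ 8 - 1)) * (q ^ 12 - 1)) := by
    rw [h]; ring
  have hfin : Finite ↥(Lie.twistedE6 K q) := by
    apply Nat.finite_of_card_ne_zero
    intro h0
    rw [h0, mul_zero] at h
    have h6 : 0 < q ^ 36 * (q ^ 2 - 1) * (q ^ 5 + 1) * (q ^ 6 - 1) * (q ^ 8 - 1) * (q ^ 9 + 1) *
        (q ^ 12 - 1) := by
      have a1 : 0 < q ^ 36 := pos_of_ne_zero (pow_ne_zero _ (by omega))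
      have a2 : 0 < q ^ 2 - 1 := by
        have : 2 ^ 2 ≤ q ^ 2 := Nat.pow_le_pow_left h2 2
        omega
      have a3 : 0 < q ^ 6 - 1 := by
        have : 2 ^ 6 ≤ q ^ 6 := Nat.pow_le_pow_left h2 6
        omega
      have a4 : 0 < q ^ 8 - 1 := by
        have : 2 ^ 8 ≤ q ^ 8 := Nat.pow_le_pow_left h2 8
        omega
      have a5 : 0 < q ^ 12 - 1 := by
        have : 2 ^ 12 ≤ q ^ 12 := Nat.pow_le_pow_left h2 12
        omega
      positivity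
    omega
  rw [hj] at hM heq
  rw [hj]
  rw [hj] at hfin
  exact goal_of_q_mul_bounds p hp j 36 42 _ _ (by rw [← hj]; exact hd) heq hM (by norm_num)

theorem twd4_stmt : TwD4Stmt := by
  intro p hp K _ _ _ q hq hK h
  obtain ⟨j, hj, h2, hpq1, hp1⟩ := ltbtw_q p hp K q 3 (by norm_num) hq hK
  have hqpos : 0 < q := by omega
  have hA : (q ^ 8 + q ^ 4 + 1) * (q ^ 2 - 1) < q ^ 10 := by
    have hb : 0 < q ^ 2 := pos_of_ne_zero (pow_ne_zero _ (by omega))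
    obtain ⟨c, hc⟩ : ∃ c, q ^ 2 = c + 1 := ⟨q ^ 2 - 1, by omega⟩
    have h1 : (q ^ 4 + 1) * (q ^ 2 - 1) < q ^ (4 + 2) := ltbtw_pair q 4 2 h2 (by norm_num)
    have h3 : q ^ (4 + 2) ≤ q ^ 8 := Nat.pow_le_pow_right hqpos (by norm_num)
    have e : q ^ 10 = q ^ 8 * q ^ 2 := by rw [← pow_add]
    rw [e, hc, Nat.add_sub_cancel]
    rw [hc, Nat.add_sub_cancel] at h1
    nlinarith
  have hM : ((q ^ 8 + q ^ 4 + 1) * (q ^ 2 - 1)) * (q ^ 6 - 1) < q ^ 16 := by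
    have e : q ^ 16 = q ^ 10 * q ^ 6 := by rw [← pow_add]
    rw [e]
    exact Nat.mul_lt_mul'' hA (ltbtw_sub_lt q 6 h2)
  have heq : 1 * Nat.card ↥(Lie.twistedD4 K q) = q ^ 12 *
      (((q ^ 8 + q ^ 4 + 1) * (q ^ 2 - 1)) * (q ^ 6 - 1)) := by
    rw [h]; ring
  have hfin : Finite ↥(Lie.twistedD4 K q) := by
    apply Nat.finite_of_card_ne_zero
    intro h0
    rw [h0] at h
    have h6 : 0 < q ^ 12 * (q ^ 2 - 1) * (q ^ 6 - 1) * (q ^ 8 + q ^ 4 + 1) := by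
      have a1 : 0 < q ^ 12 := pos_of_ne_zero (pow_ne_zero _ (by omega))
      have a2 : 0 < q ^ 2 - 1 := by
        have : 2 ^ 2 ≤ q ^ 2 := Nat.pow_le_pow_left h2 2
        omega
      have a3 : 0 < q ^ 6 - 1 := by
        have : 2 ^ 6 ≤ q ^ 6 := Nat.pow_le_pow_left h2 6
        omega
      positivity
    omega
  rw [hj] at hM heq
  rw [hj]
  rw [hj] at hfin
  exact goal_of_q_mul_bounds p hp j 12 16 1 _ hp1 heq hM (by norm_num)

end Cfsg.Agent.Lib.Lead.LTB
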