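import Mathlib
import Cfsg.Agent.Lib.Helper48.MulA

/-!
# S2086, piece HB3: lifts of root elements in the same row commute (torus argument)
-/

set_option autoImplicit false
open scoped commutatorElement

namespace Cfsg.Agent.Lib.Helper48.Mul

open Cfsg.Agent.Lib.Helper48 Cfsg.Agent.Lib.Helper48.St Cfsg.Agent.Lib.Helper70

section torus

variable {Γ : Type*} [Group Γ] {K : Type*} [Field K] {n : ℕ}

/-- conjugation of `x_ij(a)` by `h_ij(p) h_lj(p)` multiplies the parameter by `s ^ 3` -/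
theorem h14_conj_row_ij {i j l : Fin n} (hij : i ≠ j) (hil : i ≠ l) (hjl : j ≠ l) (s : K)
    (hs0 : s ≠ 0) (a : K) :
    (slDu hij (Units.mk0 s hs0) * slDu (Ne.symm hjl) (Units.mk0 s hs0)) * slX i j a *
      (slDu hij (Units.mk0 s hs0) * slDu (Ne.symm hjl) (Units.mk0 s hs0))⁻¹ =
      (slX i j (s ^ 3 * a) : Matrix.SpecialLinearGroup (Fin n) K) := by
  have e : (slDu hij (Units.mk0 s hs0) * slDu (Ne.symm hjl) (Units.mk0 s hs0)) * slX i j a *
      (slDu hij (Units.mk0 s hs0) * slDu (Ne.symm hjl) (Units.mk0 s hs0))⁻¹ =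
      slDu hij (Units.mk0 s hs0) * (slDu (Ne.symm hjl) (Units.mk0 s hs0) * slX i j a *
        (slDu (Ne.symm hjl) (Units.mk0 s hs0))⁻¹) * (slDu hij (Units.mk0 s hs0))⁻¹ := by group
  rw [e, slDu_conj (Ne.symm hjl) _ hij, slDu_conj hij _ hij]
  congr 1
  simp only [duFun, if_true, if_neg hil, if_neg hij, if_neg hjl, if_neg (Ne.symm hij),
    Units.val_mk0, Units.val_one, Units.val_inv_eq_inv_val, inv_inv, one_mul]
  ring

/-- conjugation of `x_il(b)` by `h_ij(p) h_lj(p)` is trivial -/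
theorem h14_conj_row_il {i j l : Fin n} (hij : i ≠ j) (hil : i ≠ l) (hjl : j ≠ l) (s : K)
    (hs0 : s ≠ 0) (b : K) :
    (slDu hij (Units.mk0 s hs0) * slDu (Ne.symm hjl) (Units.mk0 s hs0)) * slX i l b *
      (slDu hij (Units.mk0 s hs0) * slDu (Ne.symm hjl) (Units.mk0 s hs0))⁻¹ =
      (slX i l b : Matrix.SpecialLinearGroup (Fin n) K) := by
  have e : (slDu hij (Units.mk0 s hs0) * slDu (Ne.symm hjl) (Units.mk0 s hs0)) * slX i l b *
      (slDu hij (Units.mk0 s hs0) * slDu (Ne.symm hjl) (Units.mk0 s hs0))⁻¹ =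
      slDu hij (Units.mk0 s hs0) * (slDu (Ne.symm hjl) (Units.mk0 s hs0) * slX i l b *
        (slDu (Ne.symm hjl) (Units.mk0 s hs0))⁻¹) * (slDu hij (Units.mk0 s hs0))⁻¹ := by group
  rw [e, slDu_conj (Ne.symm hjl) _ hil, slDu_conj hij _ hil]
  congr 1
  simp only [duFun, if_true, if_neg hil, if_neg hij, if_neg (Ne.symm hil), if_neg (Ne.symm hjl),
    Units.val_mk0, Units.val_one, one_mul, inv_one, mul_one]
  field_simp

/-- piece HBC3 (1) -/
theorem hypB_torus (σ : Γ →* Matrix.SpecialLinearGroup (Fin n) K) (hs : Function.Surjective σ)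
    (hc : σ.ker ≤ Subgroup.center Γ) (s : K) (hs0 : s ≠ 0) (hs3 : s ^ 3 ≠ 1) : HypB σ slX := by
  intro i j l hij hil hjl a b
  have hne : s ^ 3 - 1 ≠ 0 := sub_ne_zero.mpr hs3
  obtain ⟨a0, ha0⟩ : ∃ a0 : K, a0 = (s ^ 3 - 1)⁻¹ * a := ⟨_, rfl⟩
  have ha0' : s ^ 3 * a0 = a + a0 := by
    rw [ha0]; field_simp; ring
  obtain ⟨u, hu⟩ := hs (slX i j a)
  obtain ⟨u0, hu0⟩ := hs (slX i j a0)
  obtain ⟨v, hv⟩ := hs (slX i l b)
  obtain ⟨T, hT⟩ := hs (slDu hij (Units.mk0 s hs0) * slDu (Ne.symm hjl) (Units.mk0 s hs0))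
  have hcomm0 : Commute (σ u0) (σ v) := by
    rw [hu0, hv]
    exact slX_commute hij hil hil (Ne.symm hij) a0 b
  -- the conjugated lifts
  have h1 : σ (T * u0 * T⁻¹) = σ (u * u0) := by
    rw [map_mul, map_mul, map_inv, hT, hu0, h14_conj_row_ij hij hil hjl s hs0 a0, map_mul, hu, hu0,
      slX_add hij, ha0']
  have h2 : σ (T * v * T⁻¹) = σ v := by
    rw [map_mul, map_mul, map_inv, hT, hv, h14_conj_row_il hij hil hjl s hs0 b]
  have h3 : ⁅T * u0 * T⁻¹, T * v * T⁻¹⁆ = ⁅u0, v⁆ := comm_conj_of_central hc hcomm0 T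
  have h4 : ⁅T * u0 * T⁻¹, T * v * T⁻¹⁆ = ⁅u * u0, v⁆ := lift_comm_eq hc h1 h2
  have h5 : ⁅u * u0, v⁆ = ⁅u0, v⁆ * ⁅u, v⁆ := comm_mul_left_of_central hc hcomm0
  have h6 : ⁅u, v⁆ = 1 := by
    have : ⁅u0, v⁆ * ⁅u, v⁆ = ⁅u0, v⁆ := by rw [← h5, ← h4, h3]
    exact mul_eq_left.mp this
  exact CL_of_exists hc ⟨u, v, hu, hv, commutatorElement_eq_one_iff_commute.mp h6⟩

end torus

end Cfsg.Agent.Lib.Helper48.Mul
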