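import Mathlib
import Cfsg.Prelude.Def_Transfer
import Cfsg.Agent.Lib.Helper75.Frobenius
import Cfsg.Agent.Lib.Helper14.Coprime

set_option autoImplicit false

namespace Cfsg.Agent.Lib.Helper14

open Cfsg
open Cfsg.Agent.Lib.Helper75 (NPC)

section npc

variable {p : ℕ} [Fact p.Prime]

/-- normal `p`-complements pass to subgroups (pull back along injective homs). -/
theorem npc_of_injective {K H : Type*} [Group K] [Group H] (f : K →* H)
    (hf : Function.Injective f) (h : NPC p H) : NPC p K := by
  have hp : p.Prime := Fact.out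
  obtain ⟨N, hN, hc, k, hk⟩ := h
  refine ⟨N.comap f, hN.comap f, ?_, ?_⟩
  · have h1 : Nat.card ((N.comap f).map f) = Nat.card (N.comap f) :=
      Subgroup.card_map_of_injective hf
    have h2 : Nat.card (N.comap f) ∣ Nat.card N := by
      rw [← h1]
      exact Subgroup.card_dvd_of_le (Subgroup.map_comap_le f N)
    exact Nat.Coprime.coprime_dvd_left h2 hc
  · have h1 : (N.comap f).index ∣ p ^ k := by
      rw [Subgroup.index_comap, ← hk]
      exact Subgroup.relIndex_dvd_index_of_normal N f.range
    obtain ⟨j, -, hj⟩ := (Nat.dvd_prime_pow hp).mp h1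
    exact ⟨j, hj⟩

/-- normal `p`-complements pass to quotients (push forward along surjective homs). -/
theorem npc_of_surjective {K H : Type*} [Group K] [Group H] (f : H →* K)
    (hf : Function.Surjective f) (h : NPC p H) : NPC p K := by
  have hp : p.Prime := Fact.out
  obtain ⟨N, hN, hc, k, hk⟩ := h
  refine ⟨N.map f, hN.map f hf, ?_, ?_⟩
  · exact Nat.Coprime.coprime_dvd_left (Subgroup.card_map_dvd N f) hc
  · have h1 : (N.map f).index ∣ p ^ k := by
      rw [← hk]
      exact Subgroup.index_map_dvd N hf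
    obtain ⟨j, -, hj⟩ := (Nat.dvd_prime_pow hp).mp h1
    exact ⟨j, hj⟩

/-- a group with a normal `p'`-subgroup whose quotient has a normal `p`-complement has one. -/
theorem npc_of_quotient {G : Type*} [Group G] [Finite G] (N : Subgroup G) [N.Normal]
    (hN : (Nat.card N).Coprime p) (h : NPC p (G ⧸ N)) : NPC p G := by
  obtain ⟨D, hD, hc, k, hk⟩ := h
  refine ⟨D.comap (QuotientGroup.mk' N), hD.comap _, ?_, k, ?_⟩
  · have hidx : (D.comap (QuotientGroup.mk' N)).index = D.index :=
      Subgroup.index_comap_of_surjective D (QuotientGroup.mk'_surjective N)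
    have h1 := Subgroup.card_mul_index (D.comap (QuotientGroup.mk' N))
    have h2 := Subgroup.card_mul_index D
    have h3 := Subgroup.card_eq_card_quotient_mul_card_subgroup N
    rw [hidx] at h1
    have hpos : 0 < D.index := Nat.pos_of_ne_zero Subgroup.index_ne_zero_of_finite
    have h4 : Nat.card (D.comap (QuotientGroup.mk' N)) = Nat.card D * Nat.card N := by
      apply Nat.eq_of_mul_eq_mul_right hpos
      rw [h1, h3, ← h2]
      ring
    rw [h4]
    exact Nat.Coprime.mul_left hc hN
  · rw [Subgroup.index_comap_of_surjective D (QuotientGroup.mk'_surjective N), hk]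

/-- in a group with a normal `p`-complement, `p'`-elements normalizing a `p`-subgroup centralize
it. -/
theorem npc_centralizes {G : Type*} [Group G] [Finite G] (h : NPC p G) (B : Subgroup G)
    (hB : IsPGroup p B) (z : G) (hz : z ∈ Subgroup.normalizer (B : Set G))
    (hzo : (orderOf z).Coprime p) : z ∈ Subgroup.centralizer (B : Set G) := by
  have hp : p.Prime := Fact.out
  obtain ⟨N, hN, hc, k, hk⟩ := h
  have hzN : z ∈ N := by
    have h1 : z ^ (p ^ k) ∈ N := by
      rw [← QuotientGroup.eq_one_iff, QuotientGroup.mk_pow]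
      have : Nat.card (G ⧸ N) = p ^ k := hk
      rw [← this]
      exact pow_card_eq_one'
    obtain ⟨m, hm⟩ := exists_pow_eq_self_of_coprime (x := z) (n := p ^ k)
      (Nat.Coprime.pow_left k hzo.symm)
    rw [← hm]
    exact Subgroup.pow_mem _ h1 m
  rw [Subgroup.mem_centralizer_iff]
  intro b hb
  have h1 : z * b * z⁻¹ * b⁻¹ ∈ N := by
    have : z * b * z⁻¹ * b⁻¹ = z * (b * z⁻¹ * b⁻¹) := by group
    rw [this]
    exact N.mul_mem hzN (hN.conj_mem _ (N.inv_mem hzN) b)
  have h2 : z * b * z⁻¹ * b⁻¹ ∈ B :=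
    B.mul_mem ((Subgroup.mem_normalizer_iff.mp hz b).mp hb) (B.inv_mem hb)
  have h3 : z * b * z⁻¹ * b⁻¹ = 1 := by
    obtain ⟨j, hj⟩ := hB ⟨_, h2⟩
    have hj' : (z * b * z⁻¹ * b⁻¹) ^ (p ^ j) = 1 := congrArg Subtype.val hj
    have h4 : orderOf (z * b * z⁻¹ * b⁻¹) ∣ p ^ j := orderOf_dvd_of_pow_eq_one hj'
    have h5 : orderOf (z * b * z⁻¹ * b⁻¹) ∣ Nat.card N := by
      have := orderOf_dvd_natCard (⟨_, h1⟩ : N)
      rwa [Subgroup.orderOf_mk] at this
    have h6 : orderOf (z * b * z⁻¹ * b⁻¹) = 1 :=
      Nat.eq_one_of_dvd_coprimes (Nat.Coprime.pow_right j hc) h5 h4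
    exact orderOf_eq_one_iff.mp h6
  calc b * z = (z * b * z⁻¹ * b⁻¹)⁻¹ * (z * b) := by group
    _ = z * b := by rw [h3, inv_one, one_mul]

/-- Frobenius: a group without normal `p`-complement has a nontrivial `p`-subgroup whose
normalizer has no normal `p`-complement. -/
theorem exists_of_not_npc {G : Type*} [Group G] [Finite G] (h : ¬ NPC p G) :
    ∃ B : Subgroup G, IsPGroup p B ∧ B ≠ ⊥ ∧ ¬ NPC p ↥(Subgroup.normalizer (B : Set G)) := by
  by_contra hcon
  apply h
  apply Cfsg.Agent.Lib.Helper75.npc_of_frobCond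
  intro B hB z hz hzo
  by_cases hB1 : B = ⊥
  · rw [hB1, Subgroup.mem_centralizer_iff]
    intro b hb
    rw [Subgroup.mem_bot.mp hb]; group
  have hnpc : NPC p ↥(Subgroup.normalizer (B : Set G)) := by
    by_contra h'
    exact hcon ⟨B, hB, hB1, h'⟩
  set M := Subgroup.normalizer (B : Set G) with hM
  have h1 := npc_centralizes hnpc (B.subgroupOf M)
    (hB.comap_of_injective M.subtype M.subtype_injective) ⟨z, hz⟩ ?_ ?_
  · rw [Subgroup.mem_centralizer_iff] at h1 ⊢
    intro b hb
    have hbM : b ∈ M := Subgroup.le_normalizer hb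
    have := h1 ⟨b, hbM⟩ (Subgroup.mem_subgroupOf.mpr hb)
    exact congrArg Subtype.val this
  · rw [Subgroup.mem_normalizer_iff]
    intro b
    rw [Subgroup.mem_subgroupOf, Subgroup.mem_subgroupOf]
    exact Subgroup.mem_normalizer_iff.mp hz b
  · rw [Subgroup.orderOf_mk]; exact hzo

/-- the numerical form of a normal `p`-complement agrees with the `Prelude` form. -/
theorem npc_iff_hasNormalPComplement {G : Type*} [Group G] [Finite G] :
    NPC p G ↔ HasNormalPComplement p G := by
  have hp : p.Prime := Fact.out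
  constructor
  · intro h
    obtain ⟨P⟩ : Nonempty (Sylow p G) := inferInstance
    obtain ⟨N, hN, hc⟩ := Cfsg.Agent.Lib.Helper75.NPC.exists_isComplement' h P
    exact ⟨P, N, hN, hc⟩
  · rintro ⟨P, N, hN, hc⟩
    have h1 : Nat.card N * Nat.card (P : Subgroup G) = Nat.card G :=
      Subgroup.IsComplement.card_mul_card hc
    have h2 := Subgroup.card_mul_index N
    have h3 := Subgroup.card_mul_index (P : Subgroup G)
    have hNpos : 0 < Nat.card N := Nat.card_pos
    have hPpos : 0 < Nat.card (P : Subgroup G) := Nat.card_pos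
    have h4 : N.index = Nat.card (P : Subgroup G) := by
      apply Nat.eq_of_mul_eq_mul_left hNpos
      rw [h2, h1]
    have h5 : Nat.card N = (P : Subgroup G).index := by
      apply Nat.eq_of_mul_eq_mul_left hPpos
      rw [h3, ← h1, mul_comm]
    refine ⟨N, hN, ?_, (Nat.card G).factorization p, ?_⟩
    · rw [h5]
      exact (Nat.Coprime.symm ((Nat.Prime.coprime_iff_not_dvd hp).mpr P.not_dvd_index))
    · rw [h4, P.card_eq_multiplicity]

/-- pulling back normal `p`-complements of normalizers along an injective hom. -/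
theorem npc_normalizer_of_injective {K G : Type*} [Group K] [Group G] (f : K →* G)
    (hf : Function.Injective f) (W : Subgroup K)
    (h : NPC p ↥(Subgroup.normalizer ((W.map f : Subgroup G) : Set G))) :
    NPC p ↥(Subgroup.normalizer (W : Set K)) := by
  let φ : ↥(Subgroup.normalizer (W : Set K)) →*
      ↥(Subgroup.normalizer ((W.map f : Subgroup G) : Set G)) :=
    (f.comp (Subgroup.normalizer (W : Set K)).subtype).codRestrict _
      (fun x => Subgroup.le_normalizer_map f ⟨x, x.2, rfl⟩)
  apply npc_of_injective φ _ h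
  intro x y hxy
  apply Subtype.ext
  apply hf
  exact congrArg Subtype.val hxy

/-- normalizers of conjugate subgroups. -/
theorem npc_normalizer_conj {G : Type*} [Group G] (H : Subgroup G) (g : G)
    (h : NPC p ↥(Subgroup.normalizer (H : Set G))) :
    NPC p ↥(Subgroup.normalizer ((H.map (MulAut.conj g).toMonoidHom : Subgroup G) : Set G)) := by
  apply npc_normalizer_of_injective (MulAut.conj g⁻¹).toMonoidHom (MulAut.conj g⁻¹).injective
  have : (H.map (MulAut.conj g).toMonoidHom).map (MulAut.conj g⁻¹).toMonoidHom = H := by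
    rw [Subgroup.map_map]
    have : (MulAut.conj g⁻¹).toMonoidHom.comp (MulAut.conj g).toMonoidHom = MonoidHom.id G := by
      ext x
      simp only [MonoidHom.comp_apply, MulEquiv.coe_toMonoidHom, MulAut.conj_apply, inv_inv,
        MonoidHom.id_apply]
      group
    rw [this, Subgroup.map_id]
  rw [this]
  exact h

/-- the normalizer of the image of a `p`-subgroup `W` modulo a normal `p'`-subgroup is the image
of the normalizer. -/
theorem npc_normalizer_quot {G : Type*} [Group G] [Finite G] (N : Subgroup G) [N.Normal]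
    (hN : (Nat.card N).Coprime p) (W : Subgroup G) (hW : IsPGroup p W)
    (h : NPC p ↥(Subgroup.normalizer (W : Set G))) :
    NPC p ↥(Subgroup.normalizer ((W.map (QuotientGroup.mk' N) : Subgroup (G ⧸ N)) : Set (G ⧸ N))) := by
  let φ : ↥(Subgroup.normalizer (W : Set G)) →*
      ↥(Subgroup.normalizer ((W.map (QuotientGroup.mk' N) : Subgroup (G ⧸ N)) : Set (G ⧸ N))) :=
    ((QuotientGroup.mk' N).comp (Subgroup.normalizer (W : Set G)).subtype).codRestrict _
      (fun x => Subgroup.le_normalizer_map (QuotientGroup.mk' N) ⟨x, x.2, rfl⟩)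
  apply npc_of_surjective φ _ h
  rintro ⟨y, hy⟩
  obtain ⟨g, rfl⟩ := QuotientGroup.mk'_surjective N y
  have hg : ∀ x ∈ W, g * x * g⁻¹ ∈ W ⊔ N := by
    intro x hx
    have h1 : QuotientGroup.mk' N (g * x * g⁻¹) ∈ W.map (QuotientGroup.mk' N) := by
      rw [map_mul, map_mul, map_inv]
      exact (Subgroup.mem_normalizer_iff.mp hy _).mp (Subgroup.mem_map_of_mem _ hx)
    have h2 : g * x * g⁻¹ ∈ (W.map (QuotientGroup.mk' N)).comap (QuotientGroup.mk' N) := h1
    rw [Subgroup.comap_map_eq, QuotientGroup.ker_mk'] at h2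
    exact h2
  obtain ⟨y, hyN, hyg⟩ := sylow_conj_mod_normal N hN W hW g hg
  refine ⟨⟨y⁻¹ * g, hyg⟩, ?_⟩
  apply Subtype.ext
  show QuotientGroup.mk' N (y⁻¹ * g) = QuotientGroup.mk' N g
  rw [map_mul, map_inv]
  have : QuotientGroup.mk' N y = 1 := (QuotientGroup.eq_one_iff y).mpr hyN
  rw [this, inv_one, one_mul]

end npc

end Cfsg.Agent.Lib.Helper14
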