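import Mathlib
import Cfsg.Prelude.Def_GeometricClasses
import Cfsg.Agent.Lib.Helper44.O9Defs

/-! Project O9 (helper44, S5835), piece FR9 (helper14): the nine lines `P((w i ⊗ w j) ∘ e)` form an
orthogonal decomposition into isometric non-degenerate lines. -/

set_option autoImplicit false

namespace Cfsg.Agent.Lib.Helper44.O9

open Matrix Cfsg.Geo

variable {n : ℕ} {F : Type*} [Field F] [Fintype F]

omit [Fintype F] in
theorem FR9_lin_left {κ : Type} {α : Type} {f : (κ → F) → (κ → F) → F} (hf : IsBilinearForm f)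
    (s : Finset α) (g : α → F) (V : α → (κ → F)) (y : κ → F) :
    f (∑ i ∈ s, g i • V i) y = ∑ i ∈ s, g i * f (V i) y := by
  have hL : IsLinearMap F (fun x => f x y) :=
    ⟨fun x x' => hf.add_left x x' y, fun c x => by
      show f (c • x) y = c • f x y
      rw [hf.smul_left, smul_eq_mul]⟩
  have h1 : hL.mk' _ (∑ i ∈ s, g i • V i) = ∑ i ∈ s, hL.mk' _ (g i • V i) := map_sum _ _ _
  have h2 : ∀ i, hL.mk' _ (g i • V i) = g i * f (V i) y := fun i => hf.smul_left _ _ _
  simp only [h2] at h1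
  exact h1

omit [Fintype F] in
theorem FR9_lin_right {κ : Type} {α : Type} {f : (κ → F) → (κ → F) → F} (hf : IsBilinearForm f)
    (s : Finset α) (g : α → F) (V : α → (κ → F)) (x : κ → F) :
    f x (∑ i ∈ s, g i • V i) = ∑ i ∈ s, g i * f x (V i) := by
  have hL : IsLinearMap F (fun y => f x y) :=
    ⟨fun y y' => hf.add_right x y y', fun c y => by
      show f x (c • y) = c • f x y
      rw [hf.smul_right, smul_eq_mul]⟩
  have h1 : hL.mk' _ (∑ i ∈ s, g i • V i) = ∑ i ∈ s, hL.mk' _ (g i • V i) := map_sum _ _ _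
  have h2 : ∀ i, hL.mk' _ (g i • V i) = g i * f x (V i) := fun i => hf.smul_right _ _ _
  simp only [h2] at h1
  exact h1

omit [Fintype F] in
theorem FR9_expand {f : (Fin 3 → F) → (Fin 3 → F) → F} (hf : IsBilinearForm f)
    (u v : Fin 3 → F) : f u v = ∑ j, ∑ k, u j * gramMatrix f j k * v k := by
  have hu : u = ∑ j, u j • (Pi.single j (1 : F) : Fin 3 → F) := by
    ext a
    simp [Finset.sum_apply, Pi.single_apply]
  have hv : v = ∑ k, v k • (Pi.single k (1 : F) : Fin 3 → F) := by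
    ext a
    simp [Finset.sum_apply, Pi.single_apply]
  conv_lhs => rw [hu]
  rw [FR9_lin_left hf]
  refine Finset.sum_congr rfl fun j _ => ?_
  conv_lhs => rw [hv]
  rw [FR9_lin_right hf, Finset.mul_sum]
  refine Finset.sum_congr rfl fun k _ => ?_
  unfold gramMatrix
  ring

omit [Fintype F] in
theorem FR9_polar (b : (Fin 9 → F) → (Fin 9 → F) → F) (e : Fin 9 ≃ (Fin 2 → Fin 3))
    (P : GL (Fin 9) F) {f₁ : (Fin 3 → F) → (Fin 3 → F) → F} (hf₁ : IsBilinearForm f₁) (c : F)
    (hc : ∀ x y : (Fin 2 → Fin 3) → F,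
      b ((P : Matrix (Fin 9) (Fin 9) F) *ᵥ (x ∘ e)) ((P : Matrix (Fin 9) (Fin 9) F) *ᵥ (y ∘ e)) =
        c * ∑ a, ∑ b', x a * (∏ i, gramMatrix f₁ (a i) (b' i)) * id (y b'))
    (u v u' v' : Fin 3 → F) :
    b (P.1 *ᵥ (tvec u v ∘ e)) (P.1 *ᵥ (tvec u' v' ∘ e)) = c * (f₁ u u' * f₁ v v') := by
  have h0 := hc (tvec u v) (tvec u' v')
  rw [h0, FR9_expand hf₁ u u', FR9_expand hf₁ v v']
  congr 1
  have key : ∏ i : Fin 2, ∑ j : Fin 3, ∑ k : Fin 3,
        (if i = 0 then u else v) j * gramMatrix f₁ j k * (if i = 0 then u' else v') k =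
      ∑ a : Fin 2 → Fin 3, ∑ b' : Fin 2 → Fin 3, ∏ i : Fin 2,
        (if i = 0 then u else v) (a i) * gramMatrix f₁ (a i) (b' i) *
          (if i = 0 then u' else v') (b' i) := by
    rw [Fintype.prod_sum]
    refine Finset.sum_congr rfl fun a _ => ?_
    rw [Fintype.prod_sum]
  rw [Fin.prod_univ_two] at key
  simp only [if_true, show ((1 : Fin 2) = 0) = False from by simp, if_false] at key
  rw [key]
  refine Finset.sum_congr rfl fun a _ => Finset.sum_congr rfl fun b' _ => ?_
  rw [Fin.prod_univ_two, Fin.prod_univ_two]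
  simp only [if_true, show ((1 : Fin 2) = 0) = False from by simp, if_false, tvec, id]
  ring

/-- the nine vectors -/
def FR9_vec (e : Fin 9 ≃ (Fin 2 → Fin 3)) (P : GL (Fin 9) F) (w : Fin 3 → Fin 3 → F)
    (i : Fin 9) : Fin 9 → F :=
  P.1 *ᵥ (tvec (w (idx9 i).1) (w (idx9 i).2) ∘ e)

omit [Fintype F] in
theorem FR9_frame (e : Fin 9 ≃ (Fin 2 → Fin 3)) (P : GL (Fin 9) F) (w : Fin 3 → Fin 3 → F)
    (i : Fin 9) : frame9 e P w i = Submodule.span F {FR9_vec e P w i} := rfl

omit [Fintype F] in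
theorem FR9_polar_self (Q : (Fin 9 → F) → F) (hQ : IsNondegenerateQuadraticForm Q)
    (v : Fin 9 → F) : QuadraticMap.polar Q v v = 2 * Q v := by
  have h1 : v + v = (2 : F) • v := (two_smul F v).symm
  unfold QuadraticMap.polar
  rw [h1, hQ.smul]
  ring

theorem FR9 (h2 : (2 : F) ≠ 0) (Q : (Fin 9 → F) → F) (hQ : IsNondegenerateQuadraticForm Q)
    (e : Fin 9 ≃ (Fin 2 → Fin 3)) (P : GL (Fin 9) F)
    (f₁ : (Fin 3 → F) → (Fin 3 → F) → F) (hf₁ : IsSymmetricForm f₁)
    (ht : IsTensorPowerFormStructure id (QuadraticMap.polar Q) f₁ e P)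
    (w : Fin 3 → Fin 3 → F) (ε : F) (hε : ε ≠ 0) (hnorm : ∀ j, f₁ (w j) (w j) = ε)
    (horth : ∀ j k, j ≠ k → f₁ (w j) (w k) = 0) :
    IsOrthogonalMDecomposition Q 1 (frame9 e P w) := by
  obtain ⟨c, hc0, hc⟩ := ht
  have hb : IsBilinearForm (QuadraticMap.polar Q) := hQ.polar_bilinear
  have hd : c * (ε * ε) ≠ 0 := mul_ne_zero hc0 (mul_ne_zero hε hε)
  -- the table of the polar form on the nine vectors
  have htab : ∀ i j : Fin 9, QuadraticMap.polar Q (FR9_vec e P w i) (FR9_vec e P w j) =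
      if i = j then c * (ε * ε) else 0 := by
    intro i j
    have h1 := FR9_polar (QuadraticMap.polar Q) e P hf₁.bilinear c hc
      (w (idx9 i).1) (w (idx9 i).2) (w (idx9 j).1) (w (idx9 j).2)
    have h1' : QuadraticMap.polar Q (FR9_vec e P w i) (FR9_vec e P w j) =
        c * (f₁ (w (idx9 i).1) (w (idx9 j).1) * f₁ (w (idx9 i).2) (w (idx9 j).2)) := h1
    rw [h1']
    by_cases hij : i = j
    · subst hij
      rw [if_pos rfl, hnorm, hnorm]
    · rw [if_neg hij]
      have hne : idx9 i ≠ idx9 j := fun h => hij (idx9.injective h)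
      by_cases h3 : (idx9 i).1 = (idx9 j).1
      · have h4 : (idx9 i).2 ≠ (idx9 j).2 := fun h => hne (Prod.ext h3 h)
        rw [horth _ _ h4, mul_zero, mul_zero]
      · rw [horth _ _ h3, zero_mul, mul_zero]
  have hsmulL : ∀ (a : F) (x y : Fin 9 → F),
      QuadraticMap.polar Q (a • x) y = a * QuadraticMap.polar Q x y := hb.smul_left
  have hsmulR : ∀ (a : F) (x y : Fin 9 → F),
      QuadraticMap.polar Q x (a • y) = a * QuadraticMap.polar Q x y :=
    fun a x y => hb.smul_right a x y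
  have hself : ∀ i, QuadraticMap.polar Q (FR9_vec e P w i) (FR9_vec e P w i) = c * (ε * ε) := by
    intro i
    rw [htab, if_pos rfl]
  have hne0 : ∀ i, FR9_vec e P w i ≠ 0 := by
    intro i h0
    have h1 := hself i
    have h3 : QuadraticMap.polar Q (FR9_vec e P w i) (FR9_vec e P w i) = 0 := by
      have h4 : FR9_vec e P w i = (0 : F) • FR9_vec e P w i := by rw [zero_smul, h0]
      rw [h4, hsmulL, zero_mul]
    rw [h3] at h1
    exact hd h1.symm
  have hli : LinearIndependent F (FR9_vec e P w) := by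
    rw [Fintype.linearIndependent_iff]
    intro g hg j
    have h1 := FR9_lin_left hb Finset.univ g (FR9_vec e P w) (FR9_vec e P w j)
    rw [hg] at h1
    have h0 : QuadraticMap.polar Q (0 : Fin 9 → F) (FR9_vec e P w j) = 0 := by
      have h4 : (0 : Fin 9 → F) = (0 : F) • (0 : Fin 9 → F) := by rw [zero_smul]
      rw [h4, hsmulL, zero_mul]
    rw [h0] at h1
    have h5 : ∑ i, g i * QuadraticMap.polar Q (FR9_vec e P w i) (FR9_vec e P w j) =
        g j * (c * (ε * ε)) := by
      rw [Finset.sum_eq_single j]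
      · rw [hself]
      · intro i _ hij
        rw [htab, if_neg hij, mul_zero]
      · intro h
        exact absurd (Finset.mem_univ j) h
    rw [h5] at h1
    rcases mul_eq_zero.mp h1.symm with h | h
    · exact h
    · exact absurd h hd
  have hQeq : ∀ i j, Q (FR9_vec e P w i) = Q (FR9_vec e P w j) := by
    intro i j
    have h1 := FR9_polar_self Q hQ (FR9_vec e P w i)
    have h3 := FR9_polar_self Q hQ (FR9_vec e P w j)
    rw [hself] at h1 h3
    exact mul_left_cancel₀ h2 (h1.symm.trans h3)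
  refine ⟨⟨⟨by norm_num, by norm_num, ?_, ?_, ?_⟩, ?_, ?_⟩, ?_⟩
  · intro i
    rw [FR9_frame]
    exact finrank_span_singleton (hne0 i)
  · exact hli.iSupIndep_span_singleton
  · have h1 : iSup (frame9 e P w) = Submodule.span F (Set.range (FR9_vec e P w)) :=
      (Submodule.span_range_eq_iSup (R := F) (v := FR9_vec e P w)).symm
    rw [h1]
    refine hli.span_eq_top_of_card_eq_finrank' ?_
    simp
  · intro i x hx hx0
    rw [FR9_frame] at hx
    obtain ⟨a, rfl⟩ := Submodule.mem_span_singleton.mp hx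
    have ha : a ≠ 0 := by
      rintro rfl
      exact hx0 (zero_smul _ _)
    have hmem : FR9_vec e P w i ∈ frame9 e P w i := by
      rw [FR9_frame]
      exact Submodule.mem_span_singleton_self _
    refine ⟨⟨_, hmem, ?_⟩, ⟨_, hmem, ?_⟩⟩
    · rw [hsmulR, hself]
      exact mul_ne_zero ha hd
    · rw [hsmulL, hself]
      exact mul_ne_zero ha hd
  · intro i j hij x hx y hy
    rw [FR9_frame] at hx hy
    obtain ⟨a, rfl⟩ := Submodule.mem_span_singleton.mp hx
    obtain ⟨a', rfl⟩ := Submodule.mem_span_singleton.mp hy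
    rw [hsmulL, hsmulR, htab, if_neg hij, mul_zero, mul_zero]
  · intro i j
    rw [FR9_frame e P w i, FR9_frame e P w j]
    refine ⟨(LinearEquiv.toSpanNonzeroSingleton F (Fin 9 → F) (FR9_vec e P w i) (hne0 i)).symm.trans
      (LinearEquiv.toSpanNonzeroSingleton F (Fin 9 → F) (FR9_vec e P w j) (hne0 j)), ?_⟩
    intro x
    have h1 : ((LinearEquiv.toSpanNonzeroSingleton F (Fin 9 → F) (FR9_vec e P w i) (hne0 i)).symm x) •
        FR9_vec e P w i = (x : Fin 9 → F) :=
      LinearEquiv.toSpanNonzeroSingleton_symm_apply_smul F (Fin 9 → F) _ (hne0 i) x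
    rw [LinearEquiv.trans_apply, LinearEquiv.toSpanNonzeroSingleton_apply]
    show Q (_ • FR9_vec e P w j) = Q (x : Fin 9 → F)
    rw [← h1, hQ.smul, hQ.smul, hQeq i j]

end Cfsg.Agent.Lib.Helper44.O9
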