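import Mathlib
import Cfsg.Prelude.Def_GeometricClasses
import Cfsg.Prelude.Def_LieClassical

/-!
# Project OMP (helper71), piece O8b (helper14)

For odd `n` and discriminant `-2` up to squares, the scalar of a form-rational structure of the
polar form of a quadratic form can be absorbed: a rational structure for the quadratic form with
the same subfield group.  Self-contained (local versions of the two facts on squares).
-/

set_option autoImplicit false

namespace Cfsg.Agent.Lib.Helper14.OMPO8b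

open Matrix Cfsg.Geo

variable {n : ℕ} {F : Type*} [Field F] [Fintype F]

omit [Fintype F] in
theorem o8b_ringChar_ne_two (h2 : (2 : F) ≠ 0) : ringChar F ≠ 2 := by
  intro h
  apply h2
  have h3 := ringChar.Nat.cast_ringChar (R := F)
  rw [h] at h3
  exact_mod_cast h3

theorem o8b_pow_card (F₁ : Subfield F) (x : F) (hx : x ∈ F₁) : x ^ Nat.card F₁ = x := by
  classical
  haveI : Fintype F₁ := Fintype.ofFinite F₁
  have h := FiniteField.pow_card (⟨x, hx⟩ : F₁)
  rw [Nat.card_eq_fintype_card]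
  have h' := congrArg (fun y : F₁ => (y : F)) h
  simpa using h'

omit [Fintype F] in
theorem o8b_exp (x : F) (q₁ m : ℕ) (hq : q₁ = 2 * m + 1) (hx : x ^ q₁ = x) :
    ∀ r : ℕ, ∃ e : ℕ, q₁ ^ r = 2 * e + 1 ∧ x ^ e = (x ^ m) ^ r := by
  intro r
  induction r with
  | zero => exact ⟨0, by simp, by simp⟩
  | succ r ih =>
    obtain ⟨e, he, hxe⟩ := ih
    refine ⟨q₁ * e + m, ?_, ?_⟩
    · rw [pow_succ, he, hq]; ring
    · rw [pow_add, pow_mul, hx, hxe, pow_succ]

/-- the elements of the subfield of index 2 are squares -/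
theorem o8b_sq2 (h2 : (2 : F) ≠ 0) (F₁ : Subfield F) (hcard : Fintype.card F = Nat.card F₁ ^ 2)
    (x : F) (hx : x ∈ F₁) : IsSquare x := by
  by_cases hx0 : x = 0
  · rw [hx0]; exact ⟨0, by simp⟩
  rw [FiniteField.isSquare_iff (o8b_ringChar_ne_two h2) hx0]
  have hoddF : Fintype.card F % 2 = 1 :=
    FiniteField.odd_card_of_char_ne_two (o8b_ringChar_ne_two h2)
  obtain ⟨m, hm⟩ : ∃ m, Nat.card F₁ = 2 * m + 1 := by
    have h3 : Odd (Nat.card F₁ ^ 2) := by rw [← hcard]; exact Nat.odd_iff.mpr hoddF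
    have h4 : Odd (Nat.card F₁) := (Nat.odd_pow_iff (by norm_num)).mp h3
    obtain ⟨m, hm⟩ := h4
    exact ⟨m, hm⟩
  obtain ⟨e, he, hxe⟩ := o8b_exp x (Nat.card F₁) m hm (o8b_pow_card F₁ x hx) 2
  have hdiv : Fintype.card F / 2 = e := by rw [hcard, he]; omega
  rw [hdiv, hxe]
  have h1 : x ^ (2 * m) = 1 := by
    have h := o8b_pow_card F₁ x hx
    rw [hm, pow_succ] at h
    have h5 : x ^ (2 * m) * x = 1 * x := by rw [h, one_mul]
    exact mul_right_cancel₀ hx0 h5
  rw [← pow_mul, mul_comm]; exact h1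

/-- for a subfield of odd index every non-zero element is a subfield element times a square -/
theorem o8b_sq1 (h2 : (2 : F) ≠ 0) (F₁ : Subfield F) (r : ℕ) (hr : Odd r)
    (hcard : Fintype.card F = Nat.card F₁ ^ r) (ζ : F) (hζ : ζ ≠ 0) :
    ∃ a s : F, a ∈ F₁ ∧ a ≠ 0 ∧ s ≠ 0 ∧ ζ = a * s ^ 2 := by
  classical
  have hch := o8b_ringChar_ne_two h2
  by_cases hsq : IsSquare ζ
  · obtain ⟨s, hs⟩ := hsq
    refine ⟨1, s, F₁.one_mem, one_ne_zero, ?_, by rw [hs]; ring⟩
    rintro rfl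
    apply hζ
    rw [hs, mul_zero]
  · haveI : Fintype F₁ := Fintype.ofFinite F₁
    have h2' : (2 : F₁) ≠ 0 := by
      intro h
      apply h2
      have h3 : ((2 : F₁) : F) = ((0 : F₁) : F) := by rw [h]
      have h4 : ((2 : F₁) : F) = (2 : F) := rfl
      rw [h4] at h3
      exact h3
    have hch₁ : ringChar F₁ ≠ 2 := o8b_ringChar_ne_two h2'
    obtain ⟨a₀, ha₀⟩ := FiniteField.exists_nonsquare hch₁
    have ha₀0 : a₀ ≠ 0 := by
      rintro rfl
      exact ha₀ ⟨0, by simp⟩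
    have h1 : a₀ ^ (Fintype.card F₁ / 2) = -1 := by
      rcases FiniteField.pow_dichotomy hch₁ ha₀0 with h | h
      · exact absurd ((FiniteField.isSquare_iff hch₁ ha₀0).mpr h) ha₀
      · exact h
    have hoddF : Fintype.card F % 2 = 1 := FiniteField.odd_card_of_char_ne_two hch
    have hr0 : r ≠ 0 := by
      rintro rfl
      exact (Nat.not_odd_iff_even.mpr (by decide : Even 0)) hr
    obtain ⟨m, hm⟩ : ∃ m, Nat.card F₁ = 2 * m + 1 := by
      have h3 : Odd (Nat.card F₁ ^ r) := by rw [← hcard]; exact Nat.odd_iff.mpr hoddF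
      have h4 : Odd (Nat.card F₁) := (Nat.odd_pow_iff hr0).mp h3
      obtain ⟨m, hm⟩ := h4
      exact ⟨m, hm⟩
    have hm' : Fintype.card F₁ / 2 = m := by
      rw [← Nat.card_eq_fintype_card, hm]; omega
    rw [hm'] at h1
    have h1F : (a₀ : F) ^ m = -1 := by
      have h3 := congrArg (fun y : F₁ => (y : F)) h1
      simpa using h3
    have ha0F : (a₀ : F) ≠ 0 := by
      intro h
      apply ha₀0
      exact Subtype.ext h
    obtain ⟨e, he, hae⟩ := o8b_exp (a₀ : F) (Nat.card F₁) m hm (o8b_pow_card F₁ _ a₀.2) r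
    have hdiv : Fintype.card F / 2 = e := by rw [hcard, he]; omega
    rw [h1F, hr.neg_one_pow] at hae
    have hζe : ζ ^ e = -1 := by
      rcases FiniteField.pow_dichotomy hch hζ with h | h
      · exact absurd ((FiniteField.isSquare_iff hch hζ).mpr h) hsq
      · rw [hdiv] at h; exact h
    have hq0 : ζ / (a₀ : F) ≠ 0 := div_ne_zero hζ ha0F
    have hqsq : IsSquare (ζ / (a₀ : F)) := by
      rw [FiniteField.isSquare_iff hch hq0, hdiv, div_pow, hζe, hae]
      norm_num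
    obtain ⟨s, hs⟩ := hqsq
    refine ⟨(a₀ : F), s, a₀.2, ha0F, ?_, ?_⟩
    · rintro rfl
      apply hq0
      rw [hs, mul_zero]
    · have h5 : ζ = (a₀ : F) * (ζ / (a₀ : F)) := by field_simp
      rw [h5, hs]; ring

omit [Fintype F] in
/-- the value of a bilinear form through its Gram matrix -/
theorem o8b_gram (b : (Fin n → F) → (Fin n → F) → F) (hb : IsBilinearForm b) (u v : Fin n → F) :
    b u v = u ⬝ᵥ (gramMatrix b *ᵥ v) := by
  let B : (Fin n → F) →ₗ[F] (Fin n → F) →ₗ[F] F :=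
    LinearMap.mk₂ F b hb.add_left hb.smul_left hb.add_right hb.smul_right
  have hG : gramMatrix b = LinearMap.toMatrix₂' F B := by
    ext i j
    rfl
  rw [hG, ← Matrix.toLinearMap₂'_apply', Matrix.toLinearMap₂'_toMatrix']
  rfl

omit [Fintype F] in
theorem o8b_map_conj_of_mem {G : Type*} [Group G] (H : Subgroup G) (g : G) (hg : g ∈ H) :
    H.map (MulAut.conj g).toMonoidHom = H := by
  apply le_antisymm
  · rintro _ ⟨y, hy, rfl⟩
    exact H.mul_mem (H.mul_mem hg hy) (H.inv_mem hg)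
  · intro x hx
    refine ⟨g⁻¹ * x * g, H.mul_mem (H.mul_mem (H.inv_mem hg) hx) hg, ?_⟩
    show g * (g⁻¹ * x * g) * g⁻¹ = x
    group

omit [Fintype F] in
/-- rescaling the base change by a scalar `s` with `ζ = a * s ^ 2`, `a` in the subfield -/
theorem o8b_of_scale (Q : (Fin n → F) → F) (hQ : IsNondegenerateQuadraticForm Q)
    (h2 : (2 : F) ≠ 0) (F₁ : Subfield F) (P : GL (Fin n) F) (ζ : F)
    (hrat : IsFormRationalStructure (QuadraticMap.polar Q) F₁ ζ P)
    (a s : F) (ha : a ∈ F₁) (ha0 : a ≠ 0) (hs : s ≠ 0) (hζ : ζ = a * s ^ 2) :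
    ∃ P' : GL (Fin n) F, IsQuadFormRationalStructure Q F₁ P' ∧
      subfieldSubgroup F₁ P' = subfieldSubgroup F₁ P := by
  classical
  obtain ⟨z, hzdef⟩ : ∃ z : GL (Fin n) F, z = Units.map
      (Matrix.scalar (Fin n) : F →+* Matrix (Fin n) (Fin n) F).toMonoidHom (Units.mk0 s hs) :=
    ⟨_, rfl⟩
  have hz : z.1 = s • (1 : Matrix (Fin n) (Fin n) F) := by
    rw [hzdef]
    simp [Matrix.smul_one_eq_diagonal]
  have hP' : ∀ u : Fin n → F, (P * z).1 *ᵥ u = s • (P.1 *ᵥ u) := by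
    intro u
    rw [Units.val_mul, hz, Matrix.mul_smul, Matrix.mul_one, Matrix.smul_mulVec]
  refine ⟨P * z, ?_, ?_⟩
  · intro u hu
    have h := hrat u u hu hu
    rw [hP', hQ.smul]
    have hpol : QuadraticMap.polar Q (P.1 *ᵥ u) (P.1 *ᵥ u) = 2 * Q (P.1 *ᵥ u) := by
      unfold QuadraticMap.polar
      have h4 : Q (P.1 *ᵥ u + P.1 *ᵥ u) = 4 * Q (P.1 *ᵥ u) := by
        have h5 : P.1 *ᵥ u + P.1 *ᵥ u = (2 : F) • (P.1 *ᵥ u) := (two_smul F _).symm
        rw [h5, hQ.smul]; norm_num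
      rw [h4]; ring
    rw [hpol] at h
    have h2mem : (2 : F) ∈ F₁ := by
      have h6 : (2 : F) = 1 + 1 := by norm_num
      rw [h6]; exact F₁.add_mem F₁.one_mem F₁.one_mem
    have e : s ^ 2 * Q (P.1 *ᵥ u) = a⁻¹ * (2 : F)⁻¹ * (ζ * (2 * Q (P.1 *ᵥ u))) := by
      rw [hζ]; field_simp
    rw [e]
    exact F₁.mul_mem (F₁.mul_mem (F₁.inv_mem ha) (F₁.inv_mem h2mem)) h
  · unfold subfieldSubgroup
    have hzX : z ∈ (Matrix.GeneralLinearGroup.map (F₁.subtype : F₁ →+* F)).range ⊔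
        scalars (Fin n) F := by
      apply Subgroup.mem_sup_right
      rw [hzdef]
      exact ⟨Units.mk0 s hs, rfl⟩
    have hconj : (MulAut.conj (P * z)).toMonoidHom =
        (MulAut.conj P).toMonoidHom.comp (MulAut.conj z).toMonoidHom := by
      rw [map_mul]
      rfl
    rw [hconj, ← Subgroup.map_map, o8b_map_conj_of_mem _ z hzX]

/-- index 2: `ζ` is a square -/
theorem o8b_square_of_two (Q : (Fin n → F) → F) (hQ : IsNondegenerateQuadraticForm Q)
    (h2 : (2 : F) ≠ 0) (hodd : Odd n)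
    (hdisc : ∃ c : F, c ≠ 0 ∧ (gramMatrix (QuadraticMap.polar Q)).det = -2 * c ^ 2)
    (F₁ : Subfield F) (hcard : Fintype.card F = Nat.card F₁ ^ 2)
    (P : GL (Fin n) F) (ζ : F) (hζ : ζ ≠ 0)
    (hrat : IsFormRationalStructure (QuadraticMap.polar Q) F₁ ζ P) :
    ∃ s : F, s ≠ 0 ∧ ζ = s ^ 2 := by
  classical
  obtain ⟨c, hc0, hc⟩ := hdisc
  obtain ⟨G, hGdef⟩ : ∃ G : Matrix (Fin n) (Fin n) F, G = gramMatrix (QuadraticMap.polar Q) :=
    ⟨_, rfl⟩
  rw [← hGdef] at hc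
  obtain ⟨Δ, hΔdef⟩ : ∃ Δ : Matrix (Fin n) (Fin n) F, Δ = ζ • (P.1ᵀ * G * P.1) := ⟨_, rfl⟩
  have hΔ : ∀ i j, Δ i j = ζ * QuadraticMap.polar Q (P.1 *ᵥ Pi.single i 1)
      (P.1 *ᵥ Pi.single j 1) := by
    intro i j
    rw [o8b_gram _ hQ.polar_bilinear, ← hGdef, hΔdef, Matrix.smul_apply, smul_eq_mul]
    congr 1
    rw [Matrix.mulVec_mulVec, Matrix.mulVec_single_one, Matrix.mulVec_single_one]
    simp only [Matrix.mul_apply, dotProduct, Matrix.transpose_apply, Matrix.col_apply,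
      Finset.sum_mul]
    rw [Finset.sum_comm]
    apply Finset.sum_congr rfl
    intro k _
    rw [Finset.mul_sum]
    apply Finset.sum_congr rfl
    intro l _
    ring
  have hmem_single : ∀ k : Fin n, ∀ l, (Pi.single k (1 : F) : Fin n → F) l ∈ F₁ := by
    intro k l
    by_cases h : l = k
    · subst h
      rw [Pi.single_eq_same]
      exact F₁.one_mem
    · rw [Pi.single_eq_of_ne h]
      exact F₁.zero_mem
  have hmem : ∀ i j, Δ i j ∈ F₁ := by
    intro i j
    rw [hΔ]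
    exact hrat _ _ (hmem_single i) (hmem_single j)
  have hdet_mem : Δ.det ∈ F₁ := by
    have h1 : Δ = (Matrix.of fun i j => (⟨Δ i j, hmem i j⟩ : F₁)).map F₁.subtype := by
      ext i j
      rfl
    have h9 : ((Matrix.of fun i j => (⟨Δ i j, hmem i j⟩ : F₁)).map F₁.subtype).det =
        F₁.subtype (Matrix.det (Matrix.of fun i j => (⟨Δ i j, hmem i j⟩ : F₁))) := by
      rw [RingHom.map_det]
      rfl
    rw [h1, h9]
    exact SetLike.coe_mem _
  have hdet : Δ.det = ζ ^ n * (P.1.det * (-2 * c ^ 2) * P.1.det) := by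
    rw [hΔdef, Matrix.det_smul, Fintype.card_fin, Matrix.det_mul, Matrix.det_mul,
      Matrix.det_transpose, hc]
  have hm2 : (-2 : F) ∈ F₁ := by
    have h6 : (-2 : F) = -(1 + 1) := by norm_num
    rw [h6]; exact F₁.neg_mem (F₁.add_mem F₁.one_mem F₁.one_mem)
  obtain ⟨d, hd⟩ := o8b_sq2 h2 F₁ hcard Δ.det hdet_mem
  obtain ⟨e, he⟩ := o8b_sq2 h2 F₁ hcard (-2) hm2
  have he0 : e ≠ 0 := by
    rintro rfl
    have h7 : (2 : F) = 0 := by linear_combination -he
    exact h2 h7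
  have hP0 : P.1.det ≠ 0 := by
    have h8 : IsUnit P.1.det := (Matrix.isUnit_iff_isUnit_det _).mp P.isUnit
    exact h8.ne_zero
  obtain ⟨k, hk⟩ := hodd
  have hn' : ζ ^ n = ζ ^ (2 * k + 1) := by rw [hk]
  obtain ⟨D, hDdef⟩ : ∃ D : F, D = P.1.det * c * e * ζ ^ k := ⟨_, rfl⟩
  have hD0 : D ≠ 0 := by
    rw [hDdef]
    exact mul_ne_zero (mul_ne_zero (mul_ne_zero hP0 hc0) he0) (pow_ne_zero k hζ)
  have hkey : ζ * D ^ 2 = d * d := by
    rw [← hd, hdet, hn', hDdef]
    linear_combination (-(ζ ^ (2 * k + 1) * P.1.det ^ 2 * c ^ 2)) * he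
  have hs2 : ζ = (d / D) ^ 2 := by
    rw [div_pow]
    field_simp
    rw [hkey]; ring
  refine ⟨d / D, ?_, hs2⟩
  intro h0
  apply hζ
  rw [hs2, h0]; ring

/-- O8b: for odd `n` and discriminant `-2` up to squares the scalar can be absorbed: a rational
structure for the quadratic form with the same subfield group. -/
theorem O8b (Q : (Fin n → F) → F) (hQ : IsNondegenerateQuadraticForm Q) (h2 : (2 : F) ≠ 0)
    (hodd : Odd n)
    (hdisc : ∃ c : F, c ≠ 0 ∧ (gramMatrix (QuadraticMap.polar Q)).det = -2 * c ^ 2)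
    (F₁ : Subfield F) (r : ℕ) (hr : r.Prime) (hcard : Fintype.card F = Nat.card F₁ ^ r)
    (P : GL (Fin n) F) (ζ : F) (hζ : ζ ≠ 0)
    (hrat : IsFormRationalStructure (QuadraticMap.polar Q) F₁ ζ P) :
    ∃ P' : GL (Fin n) F, IsQuadFormRationalStructure Q F₁ P' ∧
      subfieldSubgroup F₁ P' = subfieldSubgroup F₁ P := by
  rcases hr.eq_two_or_odd' with h | h
  · subst h
    obtain ⟨s, hs0, hs⟩ := o8b_square_of_two Q hQ h2 hodd hdisc F₁ hcard P ζ hζ hrat
    exact o8b_of_scale Q hQ h2 F₁ P ζ hrat 1 s F₁.one_mem one_ne_zero hs0 (by rw [hs, one_mul])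
  · obtain ⟨a, s, ha, ha0, hs0, hζ'⟩ := o8b_sq1 h2 F₁ r h hcard ζ hζ
    exact o8b_of_scale Q hQ h2 F₁ P ζ hrat a s ha ha0 hs0 hζ'

end Cfsg.Agent.Lib.Helper14.OMPO8b
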