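import Mathlib
import Cfsg.Agent.Lib.Helper14.OSDefs
import Cfsg.Agent.Lib.Helper85.OSA
import Cfsg.Agent.Lib.Helper20.OSB
import Cfsg.Agent.Lib.Helper40.OSC
import Cfsg.Agent.Lib.Helper34.OSD
import Cfsg.Agent.Lib.Helper12.OSE
import Cfsg.Agent.Lib.Helper17.OSF
import Cfsg.Agent.Lib.Helper17.OSG
import Cfsg.Agent.Lib.Helper20.OSH
import Cfsg.Agent.Lib.Helper20.OSI

/-!
# Order + spectrum of `PSL(2, q)`, `q` odd: the class counts (glue)
-/

set_option autoImplicit false

namespace Cfsg.Agent.Lib.Helper14.OS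

section

variable {G : Type*} [Group G] [Finite G] {q a b : ℕ}

theorem glue_X_conj (n : ℕ) (g x : G) (hx : x ∈ X G n) : g * x * g⁻¹ ∈ X G n := by
  refine ⟨?_, ?_⟩
  · intro h
    apply hx.1
    have : x = g⁻¹ * (g * x * g⁻¹) * g := by group
    rw [this, h]; group
  · have h1 : orderOf (g * x * g⁻¹) = orderOf x := by
      have := orderOf_injective (MulAut.conj g).toMonoidHom (MulAut.conj g).injective x
      simpa using this
    rw [h1]; exact hx.2

theorem glue_dvd_Na (H : Hyp G q a b) : q * b ∣ Nat.card (X G a) := by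
  apply card_dvd_of_conj (X G a) (glue_X_conj a) (q * b)
  intro x hx
  obtain ⟨e, he⟩ := cent_a H x hx.1 hx.2
  have h1 := Subgroup.card_mul_index (Subgroup.centralizer ({x} : Set G))
  rw [H.hcard] at h1
  have hpos : 0 < Nat.card (Subgroup.centralizer ({x} : Set G)) := Nat.card_pos
  refine ⟨e, ?_⟩
  apply Nat.eq_of_mul_eq_mul_left hpos
  rw [h1]
  calc 2 * q * a * b = (2 * a) * (q * b) := by ring
    _ = Nat.card (Subgroup.centralizer ({x} : Set G)) * e * (q * b) := by rw [he]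
    _ = _ := by ring

theorem glue_dvd_Nb (H : Hyp G q a b) : 2 * q * a ∣ Nat.card (X G b) := by
  apply card_dvd_of_conj (X G b) (glue_X_conj b) (2 * q * a)
  intro x hx
  obtain ⟨e, he⟩ := cent_b H x hx.1 hx.2
  have h1 := Subgroup.card_mul_index (Subgroup.centralizer ({x} : Set G))
  rw [H.hcard] at h1
  have hpos : 0 < Nat.card (Subgroup.centralizer ({x} : Set G)) := Nat.card_pos
  refine ⟨e, ?_⟩
  apply Nat.eq_of_mul_eq_mul_left hpos
  rw [h1]
  calc 2 * q * a * b = b * (2 * q * a) := by ring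
    _ = Nat.card (Subgroup.centralizer ({x} : Set G)) * e * (2 * q * a) := by rw [he]
    _ = _ := by ring

theorem glue_dvd_Nq (H : Hyp G q a b) : 2 * a * b ∣ Nat.card (X G q) := by
  apply card_dvd_of_conj (X G q) (glue_X_conj q) (2 * a * b)
  intro x hx
  obtain ⟨e, he⟩ := cent_q H x hx.1 hx.2
  have h1 := Subgroup.card_mul_index (Subgroup.centralizer ({x} : Set G))
  rw [H.hcard] at h1
  have hpos : 0 < Nat.card (Subgroup.centralizer ({x} : Set G)) := Nat.card_pos
  refine ⟨e, ?_⟩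
  apply Nat.eq_of_mul_eq_mul_left hpos
  rw [h1]
  calc 2 * q * a * b = q * (2 * a * b) := by ring
    _ = Nat.card (Subgroup.centralizer ({x} : Set G)) * e * (2 * a * b) := by rw [he]
    _ = _ := by ring

theorem glue_Nq (H : Hyp G q a b) : Nat.card (X G q) = 4 * a * b :=
  arith_Nq q a b _ _ _ H.hab H.hdiff H.ha H.hb (by rw [← H.hcard]; exact partition H)
    (glue_dvd_Na H) (glue_dvd_Nb H) (glue_dvd_Nq H)

theorem glue_Na_Nb (H : Hyp G q a b) :
    Nat.card (X G a) = (a - 1) * q * b ∧ Nat.card (X G b) = q * a * (b - 1) := by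
  obtain ⟨x, hx⟩ := H.hexb
  obtain ⟨k, hk1, hk2, hk⟩ := To_count H (fun y hy hyb => cent_b H y hy hyb) x hx
    (fun S N h1 h2 => card_conj_union S N h1 h2)
  have hp := partition H
  rw [H.hcard, glue_Nq H] at hp
  exact arith_Na q a b _ _ k H.hab H.hdiff H.ha H.hb hp (glue_dvd_Na H) hk hk1 hk2

end

end Cfsg.Agent.Lib.Helper14.OS
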