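import Mathlib
import Cfsg.Agent.Lib.Helper14.OSGlue1

/-!
# Order + spectrum of `PSL(2, q)`, `q` odd: the Brauer–Suzuki–Wall setup (glue)
-/

set_option autoImplicit false

namespace Cfsg.Agent.Lib.Helper14.OS

open Subgroup

section

variable {G : Type*} [Group G]

theorem glue_zpowers_two (x : G) (a : ℕ) (hx : orderOf x = a) (ha : Even a) (y : G)
    (hy : y ∈ zpowers x) (hy2 : y * y = 1) : y = 1 ∨ y = x ^ (a / 2) := by
  obtain ⟨m, hm⟩ := ha
  have hm2 : a / 2 = m := by omega
  rw [hm2]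
  obtain ⟨k, rfl⟩ := Subgroup.mem_zpowers_iff.mp hy
  have h1 : x ^ (2 * k) = 1 := by
    rw [two_mul, zpow_add]; exact hy2
  have h2 : (orderOf x : ℤ) ∣ 2 * k := orderOf_dvd_iff_zpow_eq_one.mpr h1
  rw [hx, hm] at h2
  have h3 : (m : ℤ) ∣ k := by
    obtain ⟨c, hc⟩ := h2
    refine ⟨c, ?_⟩
    push_cast at hc
    linarith
  obtain ⟨j, rfl⟩ := h3
  have ht : (x ^ m) * (x ^ m) = 1 := by
    rw [← pow_add, ← hm, ← hx]; exact pow_orderOf_eq_one x
  have h4 : x ^ ((m : ℤ) * j) = (x ^ m) ^ j := by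
    rw [zpow_mul, zpow_natCast]
  rw [h4]
  rcases Int.even_or_odd' j with ⟨i, hi | hi⟩
  · left
    rw [hi, two_mul, zpow_add, ← (Commute.refl (x ^ m)).mul_zpow, ht, one_zpow]
  · right
    rw [hi, zpow_add, two_mul, zpow_add, ← (Commute.refl (x ^ m)).mul_zpow, ht, one_zpow,
      one_mul, zpow_one]

theorem glue_sup_eq [Finite G] (T C : Subgroup G) (hTC : T ≤ C)
    (hcard : Nat.card C = 2 * Nat.card T) (s : G) (hsC : s ∈ C) (hsT : s ∉ T) :
    T ⊔ zpowers s = C := by
  have hle : T ⊔ zpowers s ≤ C := sup_le hTC (by rw [zpowers_le]; exact hsC)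
  apply Subgroup.eq_of_le_of_card_ge hle
  have h1 : Nat.card T ∣ Nat.card (T ⊔ zpowers s : Subgroup G) :=
    Subgroup.card_dvd_of_le le_sup_left
  have h2 : Nat.card (T ⊔ zpowers s : Subgroup G) ∣ Nat.card C := Subgroup.card_dvd_of_le hle
  have h3 : Nat.card T < Nat.card (T ⊔ zpowers s : Subgroup G) := by
    by_contra hcon
    push Not at hcon
    have := Subgroup.eq_of_le_of_card_ge (le_sup_left : T ≤ T ⊔ zpowers s) hcon
    apply hsT
    rw [this]
    exact (le_sup_right : zpowers s ≤ T ⊔ zpowers s) (mem_zpowers s)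
  obtain ⟨j, hj⟩ := h1
  have hTpos : 0 < Nat.card T := Nat.card_pos
  rw [hj, hcard] at h2
  rw [hj] at h3
  have hj2 : j ∣ 2 := by
    obtain ⟨c, hc⟩ := h2
    refine ⟨c, ?_⟩
    apply Nat.eq_of_mul_eq_mul_left hTpos
    rw [← mul_assoc, ← hc]; ring
  have hj1 : 1 < j := by
    by_contra hcon
    push Not at hcon
    have : Nat.card T * j ≤ Nat.card T * 1 := Nat.mul_le_mul_left _ hcon
    omega
  have hj' : j = 2 := by
    rcases (Nat.dvd_prime Nat.prime_two).mp hj2 with h | h
    · omega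
    · exact h
  rw [hcard, hj, hj', mul_comm]

theorem glue_cop (q a b : ℕ) (hab : a + b = q) (hdiff : a = b + 1 ∨ b = a + 1) (ha : Even a) :
    (2 * a).Coprime (q * b) := by
  have hbodd : Odd b := by
    rcases hdiff with h | h
    · rw [h] at ha
      exact (Nat.even_add_one.mp ha) |> Nat.not_even_iff_odd.mp
    · rw [h]; exact ha.add_one
  have hqodd : Odd q := by rw [← hab]; exact ha.add_odd hbodd
  have h1 : a.Coprime b := by
    rcases hdiff with h | h
    · rw [h]; simp
    · rw [h]; simp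
  have h2 : a.Coprime q := by
    rw [← hab]; simpa using h1
  have h3 : Nat.Coprime 2 (q * b) := Nat.coprime_two_left.mpr (hqodd.mul hbodd)
  exact Nat.Coprime.mul_left h3 (Nat.Coprime.mul_right h2 h1)

end

section

variable {G : Type*} [Group G] [Finite G] {q a b : ℕ}

/-- The core of the setup: an involution `s` of `C(t)` outside `T`, inverting `T`. -/
theorem glue_core (H : Hyp G q a b) (x : G) (hx : orderOf x = a) :
    ∃ s : G, s ∈ centralizer ({x ^ (a / 2)} : Set G) ∧ s ∉ zpowers x ∧ orderOf s = 2 ∧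
      (∀ y ∈ zpowers x, (∀ c ∈ centralizer ({x ^ (a / 2)} : Set G), c * y = y * c) →
        y = 1 ∨ y = x ^ (a / 2)) ∧
      (∀ y ∈ zpowers x, s * y * s⁻¹ = y⁻¹) ∧
      (∀ u : G, orderOf u = 2 → IsConj u (x ^ (a / 2))) := by
  have hca : ∀ y : G, y ≠ 1 → orderOf y ∣ a →
      Nat.card (centralizer ({y} : Set G)) ∣ 2 * a := fun y hy hya => cent_a H y hy hya
  obtain ⟨ht2, hCcard, hNT⟩ := Ct_card H hca x hx
  have hTe := Te_cent H hca x hx
  have ha2 : 2 ≤ a := by
    have := H.hb
    rcases H.hdiff with h | h <;> omega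
  have ha0 : 0 < a := by omega
  have h2a : 2 ∣ a := H.ha.two_dvd
  have hTcard : Nat.card (zpowers x) = a := by rw [Nat.card_zpowers, hx]
  have hTC : zpowers x ≤ centralizer ({x ^ (a / 2)} : Set G) := by
    rw [zpowers_le, mem_centralizer_iff]
    intro h hh
    rw [Set.mem_singleton_iff] at hh
    rw [hh]
    exact pow_mul_comm' x (a / 2)
  have htT : x ^ (a / 2) ∈ zpowers x := Subgroup.pow_mem _ (mem_zpowers x) _
  have ht1 : x ^ (a / 2) ≠ 1 := by
    intro h
    rw [h, orderOf_one] at ht2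
    omega
  have htt : x ^ (a / 2) * x ^ (a / 2) = 1 := by
    have h := pow_orderOf_eq_one (x ^ (a / 2))
    rw [ht2, sq] at h
    exact h
  have hta : orderOf (x ^ (a / 2)) ∣ a := by rw [ht2]; exact h2a
  have hCord : ∀ c ∈ centralizer ({x ^ (a / 2)} : Set G), orderOf c ∣ a := by
    intro c hc
    exact cent_a_ord H _ ht1 hta c ((mem_centralizer_iff.mp hc) _ rfl).symm
  obtain ⟨s, hsC, hsT⟩ : ∃ s ∈ centralizer ({x ^ (a / 2)} : Set G), s ∉ zpowers x := by
    by_contra hcon
    push Not at hcon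
    have hle : centralizer ({x ^ (a / 2)} : Set G) ≤ zpowers x := hcon
    have := Subgroup.card_le_of_le hle
    omega
  have hs1 : s ≠ 1 := by rintro rfl; exact hsT (one_mem _)
  have hNa' : Nat.card {g : G | g ≠ 1 ∧ orderOf g ∣ a} * (2 * a) = Nat.card G * (a - 1) := by
    have h1 := (glue_Na_Nb H).1
    have h2 : Nat.card {g : G | g ≠ 1 ∧ orderOf g ∣ a} = (a - 1) * q * b := h1
    rw [h2, H.hcard]; ring
  have hu1 : ∀ u : G, orderOf u = 2 → u ≠ 1 := by
    rintro u hu rfl
    rw [orderOf_one] at hu; omega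
  have huu : ∀ u : G, orderOf u = 2 → u * u = 1 := by
    intro u hu
    have h := pow_orderOf_eq_one u
    rw [hu, sq] at h
    exact h
  by_cases hab : ∀ c ∈ centralizer ({x ^ (a / 2)} : Set G),
      ∀ d ∈ centralizer ({x ^ (a / 2)} : Set G), c * d = d * c
  · -- abelian case: `a = 2`
    have hcentC : ∀ y ∈ zpowers x, y ≠ 1 →
        centralizer ({y} : Set G) ≤ centralizer ({x ^ (a / 2)} : Set G) := by
      intro y hy hy1
      by_cases hcen : ∀ c ∈ centralizer ({x ^ (a / 2)} : Set G), c * y = y * c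
      · exact ((hTe y hy hy1).2 hcen).le
      · push Not at hcen
        obtain ⟨c, hc, hne⟩ := hcen
        rw [(hTe y hy hy1).1 ⟨c, hc, hne⟩]; exact hTC
    have hconjC : ∀ g : G, g ≠ 1 → orderOf g ∣ a →
        ∃ h : G, h * g * h⁻¹ ∈ centralizer ({x ^ (a / 2)} : Set G) :=
      fun g hg1 hga => conj_into_C a (q * b) (by rw [H.hcard]; ring)
        (glue_cop q a b H.hab H.hdiff H.ha) x hx H.ha ha0 hCcard hcentC g hg1 hga
    obtain ⟨ha2', htrans⟩ := ab_case a ha2 (centralizer ({x ^ (a / 2)} : Set G)) hCcard hab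
      (fun y hy hy1 => hca y hy1 (hCord y hy)) hCord hconjC hNa'
      (fun S N h1 h2 => card_conj_union S N h1 h2)
    have hs2 : orderOf s = 2 := by
      have h := hCord s hsC
      rw [ha2'] at h
      rcases (Nat.dvd_prime Nat.prime_two).mp h with h' | h'
      · exact absurd (orderOf_eq_one_iff.mp h') hs1
      · exact h'
    have hsq : ∀ y ∈ zpowers x, y * y = 1 := by
      intro y hy
      have h := hCord y (hTC hy)
      rw [ha2'] at h
      rw [← sq]; exact orderOf_dvd_iff_pow_eq_one.mp h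
    refine ⟨s, hsC, hsT, hs2, ?_, ?_, ?_⟩
    · intro y hy _
      exact glue_zpowers_two x a hx H.ha y hy (hsq y hy)
    · intro y hy
      have h1 : s * y = y * s := hab s hsC y (hTC hy)
      rw [h1, mul_inv_cancel_right]
      exact eq_inv_of_mul_eq_one_left (hsq y hy)
    · intro u hu
      obtain ⟨h, hh⟩ := hconjC u (hu1 u hu) (by rw [hu]; exact h2a)
      have hne : h * u * h⁻¹ ≠ 1 := by
        intro e
        apply hu1 u hu
        have : u = h⁻¹ * (h * u * h⁻¹) * h := by group
        rw [this, e]; group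
      have h1 : IsConj (h * u * h⁻¹) (x ^ (a / 2)) := htrans _ hh _ (hTC htT) hne ht1
      have h2 : IsConj u (h * u * h⁻¹) := isConj_iff.mpr ⟨h, rfl⟩
      exact h2.trans h1
  · -- nonabelian case
    have hc1 : ∀ y ∈ zpowers x,
        (∃ c ∈ centralizer ({x ^ (a / 2)} : Set G), c * y ≠ y * c) →
        centralizer ({y} : Set G) = zpowers x := by
      intro y hy hex
      have hy1 : y ≠ 1 := by
        rintro rfl
        obtain ⟨c, -, hc⟩ := hex
        exact hc (by rw [mul_one, one_mul])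
      exact (hTe y hy hy1).1 hex
    have hc2 : ∀ y ∈ zpowers x, y ≠ 1 →
        (∀ c ∈ centralizer ({x ^ (a / 2)} : Set G), c * y = y * c) →
        centralizer ({y} : Set G) = centralizer ({x ^ (a / 2)} : Set G) :=
      fun y hy hy1 h => (hTe y hy hy1).2 h
    have hconjT := nonab_conj a x hx H.ha ha0 hCcard hNT hc1 hc2 hab hNa'
      (fun S N h1 h2 => card_conj_union S N h1 h2)
    obtain ⟨hZ0, hsinv⟩ := nonab_core a x hx H.ha ha0 hCcard hNT hc1 hc2 hab
      (fun s' hs' hsT' => hconjT s' (by rintro rfl; exact hsT' (one_mem _)) (hCord s' hs'))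
    have hs2 : orderOf s = 2 := (hsinv s hsC hsT).1
    refine ⟨s, hsC, hsT, hs2, hZ0, ?_, ?_⟩
    · intro y hy
      have h1 : s * y ∈ centralizer ({x ^ (a / 2)} : Set G) := mul_mem hsC (hTC hy)
      have h2 : s * y ∉ zpowers x := by
        intro h
        apply hsT
        have := mul_mem h (inv_mem hy)
        simpa using this
      have h3 := huu _ (hsinv _ h1 h2).1
      have h4 : s⁻¹ = s := inv_eq_of_mul_eq_one_right (huu s hs2)
      rw [h4]
      apply eq_inv_of_mul_eq_one_left
      rw [← h3]; group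
    · intro u hu
      obtain ⟨h, hh⟩ := hconjT u (hu1 u hu) (by rw [hu]; exact h2a)
      have hsq : (h * u * h⁻¹) * (h * u * h⁻¹) = 1 := by
        have : (h * u * h⁻¹) * (h * u * h⁻¹) = h * (u * u) * h⁻¹ := by group
        rw [this, huu u hu]; group
      rcases glue_zpowers_two x a hx H.ha _ hh hsq with e | e
      · exfalso
        apply hu1 u hu
        have : u = h⁻¹ * (h * u * h⁻¹) * h := by group
        rw [this, e]; group
      · exact isConj_iff.mpr ⟨h, e⟩

/-- The hypotheses of the abstract Brauer–Suzuki–Wall theorem. -/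
theorem glue_setup (H : Hyp G q a b) :
    ∃ (t s : G) (K : Subgroup G), orderOf t = 2 ∧ IsMulCommutative ↥K ∧
      K ≤ centralizer ({t} : Set G) ∧ t ∈ K ∧ orderOf s = 2 ∧
      s ∈ centralizer ({t} : Set G) ∧ s ∉ K ∧
      K ⊔ zpowers s = centralizer ({t} : Set G) ∧
      K ⊓ centralizer ({s} : Set G) = zpowers t ∧
      (∀ x ∈ K, s * x * s⁻¹ = x⁻¹) ∧
      (∀ g : G, g ∉ centralizer ({t} : Set G) →
        K ⊓ K.map (MulAut.conj g).toMonoidHom = ⊥) ∧
      (∀ x y : G, orderOf x = 2 → orderOf y = 2 → IsConj x y) := by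
  obtain ⟨x, hx⟩ := H.hexa
  obtain ⟨s, hsC, hsT, hs2, hZ0, hinv, hconj⟩ := glue_core H x hx
  have hca : ∀ y : G, y ≠ 1 → orderOf y ∣ a →
      Nat.card (centralizer ({y} : Set G)) ∣ 2 * a := fun y hy hya => cent_a H y hy hya
  obtain ⟨ht2, hCcard, hNT⟩ := Ct_card H hca x hx
  have hTe := Te_cent H hca x hx
  have hTcard : Nat.card (zpowers x) = a := by rw [Nat.card_zpowers, hx]
  have hTC : zpowers x ≤ centralizer ({x ^ (a / 2)} : Set G) := by
    rw [zpowers_le, mem_centralizer_iff]
    intro h hh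
    rw [Set.mem_singleton_iff] at hh
    rw [hh]
    exact pow_mul_comm' x (a / 2)
  have htT : x ^ (a / 2) ∈ zpowers x := Subgroup.pow_mem _ (mem_zpowers x) _
  have ht1 : x ^ (a / 2) ≠ 1 := by
    intro h
    rw [h, orderOf_one] at ht2
    omega
  have htt : x ^ (a / 2) * x ^ (a / 2) = 1 := by
    have h := pow_orderOf_eq_one (x ^ (a / 2))
    rw [ht2, sq] at h
    exact h
  have hTab : ∀ y ∈ zpowers x, ∀ z ∈ zpowers x, y * z = z * y := by
    intro y hy z hz
    obtain ⟨i, rfl⟩ := Subgroup.mem_zpowers_iff.mp hy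
    obtain ⟨j, rfl⟩ := Subgroup.mem_zpowers_iff.mp hz
    rw [← zpow_add, ← zpow_add, add_comm]
  have hsup : zpowers x ⊔ zpowers s = centralizer ({x ^ (a / 2)} : Set G) :=
    glue_sup_eq _ _ hTC (by rw [hCcard, hTcard]) s hsC hsT
  have hgC : ∀ g : G, g * x ^ (a / 2) * g⁻¹ = x ^ (a / 2) →
      g ∈ centralizer ({x ^ (a / 2)} : Set G) := by
    intro g hg
    rw [mem_centralizer_iff]
    intro h hh
    rw [Set.mem_singleton_iff] at hh
    rw [hh]
    exact (mul_inv_eq_iff_eq_mul.mp hg).symm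
  refine ⟨x ^ (a / 2), s, zpowers x, ht2, ⟨⟨fun y z => Subtype.ext (hTab y y.2 z z.2)⟩⟩, hTC, htT,
    hs2, hsC, hsT, hsup, ?_, hinv, ?_, ?_⟩
  · apply le_antisymm
    · rintro y ⟨hyT, hys⟩
      have hcen : ∀ c ∈ centralizer ({x ^ (a / 2)} : Set G), c * y = y * c := by
        have h1 : zpowers x ⊔ zpowers s ≤ centralizer ({y} : Set G) := by
          apply sup_le
          · rw [zpowers_le, mem_centralizer_iff]
            intro h hh
            rw [Set.mem_singleton_iff] at hh
            rw [hh]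
            exact hTab y hyT x (mem_zpowers x)
          · rw [zpowers_le, mem_centralizer_iff]
            intro h hh
            rw [Set.mem_singleton_iff] at hh
            rw [hh]
            exact ((mem_centralizer_iff.mp hys) s rfl).symm
        rw [hsup] at h1
        intro c hc
        exact ((mem_centralizer_iff.mp (h1 hc)) y rfl).symm
      rcases hZ0 y hyT hcen with rfl | rfl
      · exact one_mem _
      · exact mem_zpowers _
    · rw [zpowers_le]
      refine ⟨htT, ?_⟩
      show x ^ (a / 2) ∈ centralizer ({s} : Set G)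
      rw [mem_centralizer_iff]
      intro h hh
      rw [Set.mem_singleton_iff] at hh
      rw [hh]
      exact ((mem_centralizer_iff.mp hsC) _ rfl).symm
  · intro g hg
    rw [eq_bot_iff]
    rintro w ⟨hwT, hwg⟩
    rw [mem_bot]
    by_contra hw1
    obtain ⟨y, hyT, rfl⟩ := hwg
    have hW : (MulAut.conj g).toMonoidHom y = g * y * g⁻¹ := rfl
    rw [hW] at hwT hw1
    apply hg
    apply hgC
    by_cases hcen : ∀ c ∈ centralizer ({x ^ (a / 2)} : Set G),
        c * (g * y * g⁻¹) = (g * y * g⁻¹) * c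
    · rcases hZ0 _ hwT hcen with h | h
      · exact absurd h hw1
      · -- `g y g⁻¹ = t`, so `y` has square one, `y = t`
        have hyy : y * y = 1 := by
          have h1 : (g * y * g⁻¹) * (g * y * g⁻¹) = 1 := by rw [h]; exact htt
          have h2 : y * y = g⁻¹ * ((g * y * g⁻¹) * (g * y * g⁻¹)) * g := by group
          rw [h2, h1]; group
        rcases glue_zpowers_two x a hx H.ha y hyT hyy with e | e
        · exfalso
          apply hw1
          rw [e]; group
        · rw [e] at h; exact h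
    · -- `g y g⁻¹` is not central: its centralizer is `T`
      push Not at hcen
      obtain ⟨c, hc, hne⟩ := hcen
      have hcw := (hTe _ hwT hw1).1 ⟨c, hc, hne⟩
      have hmem : g * x ^ (a / 2) * g⁻¹ ∈ centralizer ({g * y * g⁻¹} : Set G) := by
        rw [mem_centralizer_iff]
        intro h hh
        rw [Set.mem_singleton_iff] at hh
        rw [hh]
        have h1 : y * x ^ (a / 2) = x ^ (a / 2) * y := hTab y hyT _ htT
        calc g * y * g⁻¹ * (g * x ^ (a / 2) * g⁻¹) = g * (y * x ^ (a / 2)) * g⁻¹ := by group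
          _ = g * (x ^ (a / 2) * y) * g⁻¹ := by rw [h1]
          _ = _ := by group
      rw [hcw] at hmem
      have hsq : (g * x ^ (a / 2) * g⁻¹) * (g * x ^ (a / 2) * g⁻¹) = 1 := by
        have : (g * x ^ (a / 2) * g⁻¹) * (g * x ^ (a / 2) * g⁻¹)
            = g * (x ^ (a / 2) * x ^ (a / 2)) * g⁻¹ := by group
        rw [this, htt]; group
      rcases glue_zpowers_two x a hx H.ha _ hmem hsq with e | e
      · exfalso
        apply ht1
        have : x ^ (a / 2) = g⁻¹ * (g * x ^ (a / 2) * g⁻¹) * g := by group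
        rw [this, e]; group
      · exact e
  · intro u v hu hv
    exact (hconj u hu).trans (hconj v hv).symm

end

end Cfsg.Agent.Lib.Helper14.OS
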