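import Cfsg.Agent.Lib.Helper22.PTDefs

/-! Project PT (helper22, S4705), piece E1 (helper14). -/

set_option autoImplicit false

namespace Cfsg.Agent.Lib.Helper14.PT

open Cfsg Cfsg.Agent.Lib.Helper22.BFD Cfsg.Agent.Lib.Helper22.PT
open scoped ComplexConjugate

universe u

variable {G : Type u} [Group G] [Fintype G]

/-- PIECE E1 -/
theorem e1 (p : ℕ) [Fact p.Prime] (hp2 : p ≠ 2) (w : ℂ) (z : G) (ζ : G → ℂ) (s : ℕ)
    (η : G → ℂ) (u : ZMod p) (χ₁ χ₂ : IrrCharacter G) (Y : (ZMod p)ˣ → IrrCharacter G)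
    (hB : Blk G p w z η u χ₁ χ₂ Y) (hY1 : (Y 1).1 = fun g => ζ (g ^ s))
    (hlam : ∀ g, ζ g ^ 2 - ζ (g ^ 2) =
      ∑ k : (ZMod p)ˣ, (if (k : ZMod p) = 2 ∨ (k : ZMod p) = -2 then 0 else (Y k).1 g)) :
    ∀ g, ¬ p ∣ orderOf g → ζ g ^ 2 - ζ (g ^ 2) = ((p : ℂ) - 3) * ζ (g ^ s) := by
  intro g hg
  have hp : p.Prime := Fact.out
  rw [hlam g]
  have hYg : ∀ k : (ZMod p)ˣ, (Y k).1 g = ζ (g ^ s) := by
    intro k
    rw [hB.regY k g hg, hY1]
  simp only [hYg]
  have h2ne : (2 : ZMod p) ≠ 0 := by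
    intro h
    have h' : ((2 : ℕ) : ZMod p) = 0 := by exact_mod_cast h
    rw [ZMod.natCast_eq_zero_iff] at h'
    exact hp2 ((Nat.prime_dvd_prime_iff_eq hp Nat.prime_two).mp h')
  have hne : Units.mk0 (2 : ZMod p) h2ne ≠ -Units.mk0 (2 : ZMod p) h2ne := by
    intro h
    have h1 : (2 : ZMod p) = -2 := by
      have h0 := congrArg (fun k : (ZMod p)ˣ => (k : ZMod p)) h
      simpa using h0
    have h3 : (2 : ZMod p) * 2 = 0 := by linear_combination h1
    rcases mul_eq_zero.mp h3 with h | h <;> exact h2ne h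
  have hfilter : (Finset.univ.filter
      (fun k : (ZMod p)ˣ => (k : ZMod p) = 2 ∨ (k : ZMod p) = -2)) =
      {Units.mk0 (2 : ZMod p) h2ne, -Units.mk0 (2 : ZMod p) h2ne} := by
    ext k
    simp only [Finset.mem_filter, Finset.mem_univ, true_and, Finset.mem_insert,
      Finset.mem_singleton]
    constructor
    · rintro (h | h)
      · left
        exact Units.ext h
      · right
        apply Units.ext
        rw [Units.val_neg]
        exact h
    · rintro (h | h)
      · left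
        rw [h]
        rfl
      · right
        rw [h, Units.val_neg]
        rfl
  have hsplit : ∀ k : (ZMod p)ˣ,
      (if (k : ZMod p) = 2 ∨ (k : ZMod p) = -2 then (0 : ℂ) else ζ (g ^ s)) =
        ζ (g ^ s) - (if (k : ZMod p) = 2 ∨ (k : ZMod p) = -2 then ζ (g ^ s) else 0) := by
    intro k
    split_ifs <;> simp
  simp only [hsplit]
  rw [Finset.sum_sub_distrib, Finset.sum_const, ← Finset.sum_filter, hfilter, Finset.sum_const,
    Finset.card_univ, ZMod.card_units, Finset.card_pair hne]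
  simp only [nsmul_eq_mul]
  rw [Nat.cast_sub hp.one_lt.le]
  push_cast
  ring

end Cfsg.Agent.Lib.Helper14.PT
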