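import Cfsg.Agent.Lib.Helper22.PTDefs
import Cfsg.Agent.Lib.Helper83.IrrBasic
import Cfsg.Agent.Lib.Helper83.Central

/-! Project PT (helper22, S4705), piece KAPPA (helper14). -/

set_option autoImplicit false

namespace Cfsg.Agent.Lib.Helper14.PT

open Cfsg Cfsg.Agent.Lib.Helper22.BFD Cfsg.Agent.Lib.Helper22.PT
open scoped ComplexConjugate

universe u

variable {G : Type u} [Group G] [Fintype G]

/-- the `p`-regular central elements -/
def kappa_Z1 (G : Type u) [Group G] (p : ℕ) [Fact p.Prime] : Subgroup G where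
  carrier := {g | g ∈ Subgroup.center G ∧ ¬ p ∣ orderOf g}
  one_mem' := by
    refine ⟨Subgroup.one_mem _, ?_⟩
    rw [orderOf_one]
    exact (Fact.out : p.Prime).one_lt.ne' ∘ Nat.dvd_one.mp
  mul_mem' := by
    rintro a b ⟨ha, ha'⟩ ⟨hb, hb'⟩
    refine ⟨Subgroup.mul_mem _ ha hb, fun hd => ?_⟩
    have hc : Commute a b := (Subgroup.mem_center_iff.mp ha b).symm
    have h1 := hd.trans hc.orderOf_mul_dvd_lcm
    rcases ((Fact.out : p.Prime).dvd_mul.mp (h1.trans (Nat.lcm_dvd_mul _ _))) with h | h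
    · exact ha' h
    · exact hb' h
  inv_mem' := by
    rintro a ⟨ha, ha'⟩
    refine ⟨Subgroup.inv_mem _ ha, ?_⟩
    rw [orderOf_inv]
    exact ha'

/-- PIECE KAPPA -/
theorem kappa (p : ℕ) [Fact p.Prime] (z : G) (ζ : G → ℂ) (h : Hyp G p z ζ) (s : ℕ)
    (hs : Sq2 G p s) (horb : Orb ζ s)
    (hzabs : ∀ g : G, ‖ζ g‖ = ‖ζ 1‖ → g ∈ Subgroup.center G)
    (hM2 : ∑ g : G, (if p ∣ orderOf g then 0 else ζ g * conj (ζ g)) =
      2 * (Nat.card G : ℂ) / p)
    (hk : ∀ g, ¬ p ∣ orderOf g → ζ g ^ 2 = ((p : ℂ) - 2) * ζ (g ^ s)) : False := by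
  classical
  have hp : p.Prime := Fact.out
  have hp5 : 5 < p := h.p5
  obtain ⟨-, hd1⟩ := Cfsg.Agent.Lib.Helper83.irr_degree h.irr
  -- the degree
  have hdp : charDegree ζ + 2 = p := by
    have h1 : ((charDegree ζ : ℕ) : ℂ) + 2 = (p : ℂ) := by
      rw [← hd1, h.deg]
      ring
    exact_mod_cast h1
  have hdR : ((charDegree ζ : ℕ) : ℝ) = (p : ℝ) - 2 := by
    have h1 : (p : ℝ) = ((charDegree ζ : ℕ) : ℝ) + 2 := by exact_mod_cast hdp.symm
    linarith
  have hCpos : (0 : ℝ) < (p : ℝ) - 2 := by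
    have : (5 : ℝ) < (p : ℝ) := by exact_mod_cast hp5
    linarith
  have hnorm1 : ‖ζ 1‖ = (p : ℝ) - 2 := by
    rw [hd1, Complex.norm_natCast, hdR]
  have hle : ∀ g : G, ‖ζ g‖ ≤ (p : ℝ) - 2 := by
    intro g
    have := Cfsg.Agent.Lib.Helper83.irr_norm_le h.irr g
    rwa [hdR] at this
  -- the dichotomy for p-regular elements
  have hdich : ∀ g : G, ¬ p ∣ orderOf g → ζ g = 0 ∨ ‖ζ g‖ = (p : ℝ) - 2 := by
    intro g hg
    refine horb ((p : ℝ) - 2) hCpos g ?_ ?_ ?_
    · exact Nat.Coprime.coprime_dvd_right (orderOf_dvd_natCard g) hs.cop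
    · intro j
      have hreg : ¬ p ∣ orderOf (g ^ (s ^ j)) := fun hd => hg (hd.trans (orderOf_pow_dvd _))
      have h1 := hk (g ^ (s ^ j)) hreg
      rw [← pow_mul, ← pow_succ] at h1
      rw [h1]
      push_cast
      ring
    · intro j
      exact hle _
  -- the values on p-regular elements
  have hval : ∀ g : G, (if p ∣ orderOf g then 0 else ζ g * conj (ζ g)) =
      if g ∈ kappa_Z1 G p then (((p - 2 : ℕ) : ℂ)) ^ 2 else 0 := by
    intro g
    have hcast : (((p - 2 : ℕ) : ℂ)) = (p : ℂ) - 2 := by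
      rw [Nat.cast_sub (by omega)]
      norm_num
    by_cases hg : p ∣ orderOf g
    · rw [if_pos hg, if_neg]
      rintro ⟨-, h2⟩
      exact h2 hg
    · rw [if_neg hg]
      by_cases hc : g ∈ Subgroup.center G
      · rw [if_pos (show g ∈ kappa_Z1 G p from ⟨hc, hg⟩)]
        have h1 : ‖ζ g‖ = (p : ℝ) - 2 := by
          have := Cfsg.Agent.Lib.Helper83.irr_central_norm (⟨ζ, h.irr⟩ : IrrCharacter G) g hc
          rw [← hdR]
          exact this
        rw [Complex.mul_conj, Complex.normSq_eq_norm_sq, h1, hcast]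
        push_cast
        ring
      · rw [if_neg]
        · rcases hdich g hg with h0 | h0
          · rw [h0, zero_mul]
          · exact absurd (hzabs g (h0.trans hnorm1.symm)) hc
        · rintro ⟨h2, -⟩
          exact hc h2
  rw [Finset.sum_congr rfl (fun g _ => hval g)] at hM2
  rw [← Finset.sum_filter, Finset.sum_const, nsmul_eq_mul] at hM2
  have hcard : (Finset.univ.filter (fun g : G => g ∈ kappa_Z1 G p)).card =
      Nat.card (kappa_Z1 G p) := by
    rw [Nat.card_eq_fintype_card, Fintype.card_subtype]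
  rw [hcard] at hM2
  obtain ⟨m, hm⟩ := Subgroup.card_subgroup_dvd_card (kappa_Z1 G p)
  have hn1 : 0 < Nat.card (kappa_Z1 G p) := Nat.card_pos
  have hpC : (p : ℂ) ≠ 0 := by exact_mod_cast hp.ne_zero
  have h3 : ((Nat.card (kappa_Z1 G p) * (p - 2) ^ 2 * p : ℕ) : ℂ) =
      ((2 * (Nat.card (kappa_Z1 G p) * m) : ℕ) : ℂ) := by
    push_cast
    rw [hM2, hm]
    push_cast
    field_simp
  have h4 : Nat.card (kappa_Z1 G p) * (p - 2) ^ 2 * p = 2 * (Nat.card (kappa_Z1 G p) * m) := by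
    exact_mod_cast h3
  have h5 : (p - 2) ^ 2 * p = 2 * m := by
    have h6 : Nat.card (kappa_Z1 G p) * ((p - 2) ^ 2 * p) = Nat.card (kappa_Z1 G p) * (2 * m) := by
      rw [← mul_assoc, h4]
      ring
    exact Nat.eq_of_mul_eq_mul_left hn1 h6
  have hodd : Odd p := hp.odd_of_ne_two (by omega)
  have hodd2 : Odd (p - 2) := by
    obtain ⟨k, hk'⟩ := hodd
    exact ⟨k - 1, by omega⟩
  have hodd3 : Odd ((p - 2) ^ 2 * p) := (hodd2.pow).mul hodd
  rw [h5] at hodd3
  exact (Nat.not_even_iff_odd.mpr hodd3) (even_two_mul m)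

end Cfsg.Agent.Lib.Helper14.PT
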