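import Cfsg.Agent.Lib.Helper96.PmGlue
import Cfsg.Agent.Lib.Helper42.PiEXA
import Cfsg.Agent.Lib.Helper64.PiCONA
import Cfsg.Agent.Lib.Helper87.PiUNIC
import Cfsg.Agent.Lib.Helper53.PiU3
import Cfsg.Agent.Lib.Lead.PiU1
import Cfsg.Agent.Lib.Lead.PiU2
import Cfsg.Agent.Lib.Lead.PiU4

/-!
Project PM (S5991, helper96), piece UNIV (helper14): an anisotropic binary quadratic form over a
finite field of odd characteristic represents every element.
-/

set_option autoImplicit false
set_option linter.unusedSectionVars false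
set_option linter.unusedVariables false

namespace Cfsg.Agent.Lib.Helper14.Pm

open Module Cfsg.Agent.Lib.Helper96.Sp Cfsg.Agent.Lib.Helper96.BG Cfsg.Agent.Lib.Helper96.Hy
  Cfsg.Agent.Lib.Helper96.Pi Cfsg.Agent.Lib.Helper47

universe u

section Concrete

open Matrix
open scoped MatrixGroups

variable {F : Type u} [Field F] [Fintype F]

-- PIECE UNIV
theorem exists_rep_binary (h2 : (2 : F) ≠ 0) (a b : F)
    (hab : ∀ z₁ z₂ : F, z₁ ^ 2 + a * z₁ * z₂ + b * z₂ ^ 2 = 0 → z₁ = 0 ∧ z₂ = 0) (c : F) :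
    ∃ s t : F, s ^ 2 + a * s * t + b * t ^ 2 = c := by
  have hD0 : 4 * b - a ^ 2 ≠ 0 := by
    intro h0
    have h1 := hab (-a) 2 (by linear_combination h0)
    exact h2 h1.2
  have hodd : Fintype.card F % 2 = 1 := by
    apply FiniteField.odd_card_of_char_ne_two
    intro h
    apply h2
    have h' := ringChar.Nat.cast_ringChar (R := F)
    rw [h] at h'
    exact_mod_cast h'
  obtain ⟨x, y, hxy⟩ := FiniteField.exists_root_sum_quadratic (R := F)
    (f := Polynomial.X ^ 2)
    (g := Polynomial.C (4 * b - a ^ 2) * Polynomial.X ^ 2 + Polynomial.C 0 * Polynomial.X +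
      Polynomial.C (-(4 * c)))
    (Polynomial.degree_X_pow 2) (Polynomial.degree_quadratic hD0) hodd
  simp only [Polynomial.eval_add, Polynomial.eval_mul, Polynomial.eval_pow, Polynomial.eval_X,
    Polynomial.eval_C] at hxy
  obtain ⟨h, hh⟩ : ∃ h : F, 2 * h = 1 := ⟨2⁻¹, mul_inv_cancel₀ h2⟩
  refine ⟨(x - a * y) * h, y, ?_⟩
  linear_combination h ^ 2 * hxy -
    (a * h * x * y - a ^ 2 * h * y ^ 2 + (b * y ^ 2 - c) * (1 + 2 * h)) * hh

end Concrete

end Cfsg.Agent.Lib.Helper14.Pm
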