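import Mathlib
import Cfsg.Prelude.Def_GeometricClasses
import Cfsg.Prelude.Def_LieClassical

/-!
# Project SPP (helper71), piece FLD2a (helper14)

In dimension `2p`, `p` odd, there is no field subalgebra of degree 2 all of whose elements are
self-adjoint for a symplectic form.
-/

set_option autoImplicit false

namespace Cfsg.Agent.Lib.Helper14.SPPFLD2a

open Matrix Cfsg.Geo

variable {n : ℕ} {F : Type*} [Field F] [Fintype F]

private theorem fld2a_left_inv {K : Subalgebra F (Matrix (Fin n) (Fin n) F)}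
    (hK : IsFieldSubalgebra 2 K) {k : Matrix (Fin n) (Fin n) F} (hk : k ∈ K) (hk0 : k ≠ 0) :
    ∃ y ∈ K, y * k = 1 := by
  obtain ⟨y, hy, hxy⟩ := hK.inv k hk hk0
  exact ⟨y, hy, by rw [← hK.comm k hk y hy]; exact hxy⟩

private theorem fld2a_inj {K : Subalgebra F (Matrix (Fin n) (Fin n) F)}
    (hK : IsFieldSubalgebra 2 K) {k : Matrix (Fin n) (Fin n) F} (hk : k ∈ K) (hk0 : k ≠ 0)
    {u : Fin n → F} (hu : k *ᵥ u = 0) : u = 0 := by
  obtain ⟨y, hy, hyx⟩ := fld2a_left_inv hK hk hk0
  calc u = (1 : Matrix (Fin n) (Fin n) F) *ᵥ u := (Matrix.one_mulVec u).symm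
    _ = (y * k) *ᵥ u := by rw [hyx]
    _ = y *ᵥ (k *ᵥ u) := by rw [Matrix.mulVec_mulVec]
    _ = 0 := by rw [hu, Matrix.mulVec_zero]

/-- (a): `f (k v) v = 0`. -/
private theorem fld2a_kvv (f : (Fin n → F) → (Fin n → F) → F) (hf : IsSymplecticForm f)
    (K : Subalgebra F (Matrix (Fin n) (Fin n) F)) (hK : IsFieldSubalgebra 2 K)
    (hsa : IsSelfAdjointFor f K) (k : Matrix (Fin n) (Fin n) F) (hk : k ∈ K) (v : Fin n → F) :
    f (k *ᵥ v) v = 0 := by
  classical
  have h1 : f (k *ᵥ v) v = - f (k *ᵥ v) v := by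
    calc f (k *ᵥ v) v = f v (k *ᵥ v) := hsa k hk v v
      _ = - f (k *ᵥ v) v := hf.skew _ _
  by_cases h2 : (2 : F) = 0
  · -- every element of `K` is a square in `K`
    let φ : K → K := fun x => ⟨x.1 * x.1, K.mul_mem x.2 x.2⟩
    have hinj : Function.Injective φ := by
      intro x y hxy
      have hxy' : x.1 * x.1 = y.1 * y.1 := congrArg Subtype.val hxy
      have hcomm := hK.comm x.1 x.2 y.1 y.2
      have h2M : ∀ M : Matrix (Fin n) (Fin n) F, M + M = 0 := by
        intro M
        have : M + M = (2 : F) • M := by rw [two_smul]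
        rw [this, h2, zero_smul]
      have hsq : (x.1 + y.1) * (x.1 + y.1) = 0 := by
        have e1 : (x.1 + y.1) * (x.1 + y.1)
            = (x.1 * x.1 + y.1 * y.1) + (x.1 * y.1 + x.1 * y.1) := by
          rw [add_mul, mul_add, mul_add, ← hcomm]
          abel
        rw [e1, hxy', h2M, h2M, add_zero]
      have hz : x.1 + y.1 = 0 := by
        by_contra hne
        obtain ⟨z, _, hz⟩ := hK.inv _ (K.add_mem x.2 y.2) hne
        apply hne
        calc x.1 + y.1 = (x.1 + y.1) * ((x.1 + y.1) * z) := by rw [hz, mul_one]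
          _ = ((x.1 + y.1) * (x.1 + y.1)) * z := by rw [mul_assoc]
          _ = 0 := by rw [hsq, zero_mul]
      apply Subtype.ext
      have : x.1 = x.1 + (y.1 + y.1) := by rw [h2M, add_zero]
      rw [this, ← add_assoc, hz, zero_add]
    have hsurj : Function.Surjective φ := Finite.injective_iff_surjective.mp hinj
    obtain ⟨s, hs⟩ := hsurj ⟨k, hk⟩
    have hs' : s.1 * s.1 = k := congrArg Subtype.val hs
    rw [← hs', ← Matrix.mulVec_mulVec, hsa s.1 s.2 (s.1 *ᵥ v) v]
    exact hf.alternating _
  · have h3 : (2 : F) * f (k *ᵥ v) v = 0 := by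
      rw [two_mul]
      nth_rewrite 1 [h1]
      exact neg_add_cancel _
    rcases mul_eq_zero.mp h3 with h4 | h4
    · exact absurd h4 h2
    · exact h4

/-- `K`-invariant subspaces. -/
private def KInv (K : Subalgebra F (Matrix (Fin n) (Fin n) F)) (U : Submodule F (Fin n → F)) :
    Prop :=
  ∀ k ∈ K, ∀ u ∈ U, k *ᵥ u ∈ U

/-- Evaluation `k ↦ k v`. -/
private def ev (K : Subalgebra F (Matrix (Fin n) (Fin n) F)) (v : Fin n → F) :
    K →ₗ[F] (Fin n → F) where
  toFun k := k.1 *ᵥ v
  map_add' a b := by simp [Matrix.add_mulVec]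
  map_smul' c a := by simp [Matrix.smul_mulVec]

/-- The `K`-line of `v`. -/
private def kline (K : Subalgebra F (Matrix (Fin n) (Fin n) F)) (v : Fin n → F) :
    Submodule F (Fin n → F) :=
  LinearMap.range (ev K v)

private theorem mem_kline (K : Subalgebra F (Matrix (Fin n) (Fin n) F)) (v x : Fin n → F) :
    x ∈ kline K v ↔ ∃ k ∈ K, k *ᵥ v = x := by
  constructor
  · rintro ⟨k, rfl⟩
    exact ⟨k.1, k.2, rfl⟩
  · rintro ⟨k, hk, rfl⟩
    exact ⟨⟨k, hk⟩, rfl⟩

private theorem self_mem_kline (K : Subalgebra F (Matrix (Fin n) (Fin n) F)) (v : Fin n → F) :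
    v ∈ kline K v :=
  (mem_kline K v v).mpr ⟨1, K.one_mem, Matrix.one_mulVec v⟩

private theorem kline_inv (K : Subalgebra F (Matrix (Fin n) (Fin n) F)) (v : Fin n → F) :
    KInv K (kline K v) := by
  intro k hk u hu
  obtain ⟨a, ha, rfl⟩ := (mem_kline K v u).mp hu
  exact (mem_kline K v _).mpr ⟨k * a, K.mul_mem hk ha, by rw [Matrix.mulVec_mulVec]⟩

private theorem kline_le (K : Subalgebra F (Matrix (Fin n) (Fin n) F)) (v : Fin n → F)
    (U : Submodule F (Fin n → F)) (hU : KInv K U) (hv : v ∈ U) : kline K v ≤ U := by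
  intro x hx
  obtain ⟨a, ha, rfl⟩ := (mem_kline K v x).mp hx
  exact hU a ha v hv

private theorem kline_finrank (K : Subalgebra F (Matrix (Fin n) (Fin n) F))
    (hK : IsFieldSubalgebra 2 K) (v : Fin n → F) (hv : v ≠ 0) :
    Module.finrank F (kline K v) = 2 := by
  have hinj : Function.Injective (ev K v) := by
    rw [← LinearMap.ker_eq_bot, LinearMap.ker_eq_bot']
    intro k hk
    by_contra hne
    have hne' : k.1 ≠ 0 := fun h => hne (Subtype.ext h)
    exact hv (fld2a_inj hK k.2 hne' hk)
  rw [kline, LinearMap.finrank_range_of_inj hinj, hK.finrank_eq]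

private theorem kline_inf (K : Subalgebra F (Matrix (Fin n) (Fin n) F))
    (hK : IsFieldSubalgebra 2 K) (U : Submodule F (Fin n → F)) (hU : KInv K U) (v : Fin n → F)
    (hv : v ∉ U) : U ⊓ kline K v = ⊥ := by
  rw [eq_bot_iff]
  intro x hx
  rw [Submodule.mem_bot]
  obtain ⟨hxU, hxk⟩ := Submodule.mem_inf.mp hx
  obtain ⟨a, ha, rfl⟩ := (mem_kline K v x).mp hxk
  by_cases ha0 : a = 0
  · rw [ha0, Matrix.zero_mulVec]
  · exfalso
    obtain ⟨y, hy, hya⟩ := fld2a_left_inv hK ha ha0
    apply hv
    have : v = y *ᵥ (a *ᵥ v) := by rw [Matrix.mulVec_mulVec, hya, Matrix.one_mulVec]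
    rw [this]
    exact hU y hy _ hxU

private theorem sup_inv (K : Subalgebra F (Matrix (Fin n) (Fin n) F))
    (U : Submodule F (Fin n → F)) (hU : KInv K U) (v : Fin n → F) :
    KInv K (U ⊔ kline K v) := by
  intro k hk x hx
  obtain ⟨a, ha, b, hb, rfl⟩ := Submodule.mem_sup.mp hx
  rw [Matrix.mulVec_add]
  exact Submodule.add_mem _ (Submodule.mem_sup_left (hU k hk a ha))
    (Submodule.mem_sup_right (kline_inv K v k hk b hb))

private theorem sup_finrank (K : Subalgebra F (Matrix (Fin n) (Fin n) F))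
    (hK : IsFieldSubalgebra 2 K) (U : Submodule F (Fin n → F)) (hU : KInv K U) (v : Fin n → F)
    (hv : v ∉ U) : Module.finrank F ↥(U ⊔ kline K v) = Module.finrank F U + 2 := by
  have h := Submodule.finrank_sup_add_finrank_inf_eq U (kline K v)
  rw [kline_inf K hK U hU v hv, finrank_bot, add_zero] at h
  have hv0 : v ≠ 0 := fun h0 => hv (h0 ▸ U.zero_mem)
  rw [h, kline_finrank K hK v hv0]

/-- (c): a `K`-invariant subspace has even dimension. -/
private theorem even_of_inv (K : Subalgebra F (Matrix (Fin n) (Fin n) F))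
    (hK : IsFieldSubalgebra 2 K) (U : Submodule F (Fin n → F)) (hU : KInv K U) :
    Even (Module.finrank F U) := by
  have key : ∀ m : ℕ, ∀ U' : Submodule F (Fin n → F), U' ≤ U → KInv K U' →
      Even (Module.finrank F U') → Module.finrank F U - Module.finrank F U' = m →
      Even (Module.finrank F U) := by
    intro m
    induction m using Nat.strong_induction_on with
    | _ m ih =>
      intro U' hle hinv hev hm
      by_cases hUU : U' = U
      · rw [← hUU]; exact hev
      · have hlt : U' < U := lt_of_le_of_ne hle hUU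
        obtain ⟨v, hvU, hvU'⟩ := SetLike.exists_of_lt hlt
        have hfr := sup_finrank K hK U' hinv v hvU'
        have hle2 : U' ⊔ kline K v ≤ U := sup_le hle (kline_le K v U hU hvU)
        have hle3 := Submodule.finrank_mono hle2
        refine ih (Module.finrank F U - Module.finrank F ↥(U' ⊔ kline K v)) ?_ (U' ⊔ kline K v)
          hle2 (sup_inv K U' hinv v) ?_ rfl
        · rw [hfr] at hle3 ⊢
          omega
        · rw [hfr]
          exact Even.add hev even_two
  refine key _ ⊥ bot_le ?_ ?_ rfl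
  · intro k _ u hu
    rw [Submodule.mem_bot] at hu ⊢
    rw [hu, Matrix.mulVec_zero]
  · rw [finrank_bot]; exact Even.zero

/-- FLD2a: in dimension `2p`, `p` odd, there is no self-adjoint field subalgebra of degree 2. -/
theorem FLD2a (f : (Fin n → F) → (Fin n → F) → F) (hf : IsSymplecticForm f) (p : ℕ)
    (hp : Odd p) (hn : n = 2 * p) (K : Subalgebra F (Matrix (Fin n) (Fin n) F))
    (hK : IsFieldSubalgebra 2 K) (hsa : IsSelfAdjointFor f K) : False := by
  classical
  have hb := hf.bilinear
  -- the `K`-line of `v` is totally singular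
  have hline : ∀ v : Fin n → F, ∀ a ∈ K, ∀ b ∈ K, f (a *ᵥ v) (b *ᵥ v) = 0 := by
    intro v a ha b hb'
    rw [← hsa b hb' (a *ᵥ v) v, Matrix.mulVec_mulVec]
    exact fld2a_kvv f hf K hK hsa (b * a) (K.mul_mem hb' ha) v
  -- a maximal `K`-invariant totally singular subspace
  have key : ∀ m : ℕ, ∀ U' : Submodule F (Fin n → F), KInv K U' → IsTotallySingularFor f U' →
      n - Module.finrank F U' = m →
      ∃ U : Submodule F (Fin n → F), KInv K U ∧ IsTotallySingularFor f U ∧
        ∀ v : Fin n → F, (∀ u ∈ U, f u v = 0) → v ∈ U := by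
    intro m
    induction m using Nat.strong_induction_on with
    | _ m ih =>
      intro U' hinv hts hm
      by_cases hmax : ∀ v : Fin n → F, (∀ u ∈ U', f u v = 0) → v ∈ U'
      · exact ⟨U', hinv, hts, hmax⟩
      · push Not at hmax
        obtain ⟨v, hv, hvU'⟩ := hmax
        have hfr := sup_finrank K hK U' hinv v hvU'
        have hle3 : Module.finrank F ↥(U' ⊔ kline K v) ≤ n := by
          have := Submodule.finrank_le (U' ⊔ kline K v)
          rwa [Module.finrank_fintype_fun_eq_card, Fintype.card_fin] at this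
        refine ih (n - Module.finrank F ↥(U' ⊔ kline K v)) ?_ (U' ⊔ kline K v)
          (sup_inv K U' hinv v) ?_ rfl
        · rw [hfr] at hle3 ⊢
          omega
        · intro x hx y hy
          obtain ⟨a, ha, c, hc, rfl⟩ := Submodule.mem_sup.mp hx
          obtain ⟨b, hb', d, hd, rfl⟩ := Submodule.mem_sup.mp hy
          obtain ⟨α, hα, rfl⟩ := (mem_kline K v c).mp hc
          obtain ⟨β, hβ, rfl⟩ := (mem_kline K v d).mp hd
          rw [hb.add_left, hb.add_right, hb.add_right, hts a ha b hb', hline v α hα β hβ]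
          have e1 : f a (β *ᵥ v) = 0 := by
            rw [← hsa β hβ a v]
            exact hv _ (hinv β hβ a ha)
          have e2 : f (α *ᵥ v) b = 0 := by
            rw [hf.skew, ← hsa α hα b v, hv _ (hinv α hα b hb'), neg_zero]
          rw [e1, e2]
          simp
  obtain ⟨U, hUinv, hUts, hUmax⟩ := key _ ⊥
    (by
      intro k _ u hu
      rw [Submodule.mem_bot] at hu ⊢
      rw [hu, Matrix.mulVec_zero])
    (by
      intro u hu v hv
      rw [Submodule.mem_bot] at hu
      rw [hu]
      have := hb.smul_left 0 0 v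
      simpa using this) rfl
  -- the bilinear form
  let B : LinearMap.BilinForm F (Fin n → F) :=
    LinearMap.mk₂ F f hb.add_left hb.smul_left hb.add_right hb.smul_right
  have hBf : ∀ u v, B u v = f u v := fun u v => rfl
  have hnd : B.Nondegenerate := by
    constructor
    · intro x hx
      by_contra hx0
      obtain ⟨_, ⟨y, hy⟩⟩ := hf.nondegenerate x hx0
      exact hy (hx y)
    · intro y hy
      by_contra hy0
      obtain ⟨⟨x, hx⟩, _⟩ := hf.nondegenerate y hy0
      exact hx (hy x)
  have horth : B.orthogonal U = U := by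
    apply le_antisymm
    · intro v hv
      exact hUmax v (fun u hu => hv u hu)
    · intro v hv u hu
      exact hUts u hu v hv
  have hfin := LinearMap.BilinForm.finrank_orthogonal hnd U
  rw [horth, Module.finrank_fintype_fun_eq_card, Fintype.card_fin] at hfin
  have hle : Module.finrank F U ≤ n := by
    have := Submodule.finrank_le U
    rwa [Module.finrank_fintype_fun_eq_card, Fintype.card_fin] at this
  have hev := even_of_inv K hK U hUinv
  have hUp : Module.finrank F U = p := by omega
  rw [hUp] at hev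
  exact (Nat.not_even_iff_odd.mpr hp) hev

end Cfsg.Agent.Lib.Helper14.SPPFLD2a
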