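import Mathlib
import Cfsg.Prelude.Def_PLocal
import Cfsg.Prelude.Def_Local
import Cfsg.Agent.Lib.Helper14.FF3
import Cfsg.Agent.Lib.Helper14.DualHH
import Cfsg.Agent.Lib.Helper14.QuadSylow
import Cfsg.Agent.Lib.Helper14.Tq1
import Cfsg.Agent.Lib.Helper14.Sf0
import Cfsg.Agent.Lib.Helper26.SolvPSolv
import Cfsg.Agent.Lib.Helper31.Basic

set_option autoImplicit false
set_option linter.unusedSectionVars false

/-!
# Generalized best offenders in solvable groups (helper14)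

An abelian `2`-subgroup `A` of a solvable group `S` acting faithfully on an elementary abelian
`2`-group `V` with `O_2(S) = 1`, maximizing `|B| |C_V(B)|` over its subgroups `B`, is generated
by best offenders of order `2`.
-/

universe u

namespace Cfsg.Agent.Lib.Helper14

open Cfsg
open scoped commutatorElement

theorem perm_fin4_comm : ∀ σ τ : Equiv.Perm (Fin 4), ∀ i : Fin 4,
    (σ i = i ∧ τ i = i ∧ τ ≠ 1 ∧ τ * τ = 1 ∧ σ * τ = τ * σ) → (σ = 1 ∨ σ = τ) := by
  decide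

/-- in the stabilizer of a point of a four-element set, the centralizer of an involution has
order two. -/
theorem perm_card4_comm {α : Type*} (h : Nat.card α = 4) (σ τ : Equiv.Perm α) (a : α)
    (hσ : σ a = a) (hτ : τ a = a) (hτ1 : τ ≠ 1) (hτ2 : τ * τ = 1) (hc : σ * τ = τ * σ) :
    σ = 1 ∨ σ = τ := by
  have hfin : Finite α := Nat.finite_of_card_ne_zero (by omega)
  let e : α ≃ Fin 4 := Finite.equivFinOfCardEq h
  have h1 := perm_fin4_comm (e.permCongrHom σ) (e.permCongrHom τ) (e a)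
    ⟨by simp [Equiv.permCongrHom, hσ], by simp [Equiv.permCongrHom, hτ],
      fun h' => hτ1 ((MulEquiv.map_eq_one_iff _).mp h'),
      by rw [← map_mul, hτ2, map_one], by rw [← map_mul, ← map_mul, hc]⟩
  rcases h1 with h1 | h1
  · left; exact (MulEquiv.map_eq_one_iff _).mp h1
  · right; exact (e.permCongrHom).injective h1

section gbo

variable {G : Type u} [Group G] [Finite G]

theorem le_normalizer_of_commute_sf {H K : Subgroup G}
    (hc : ∀ x ∈ H, ∀ y ∈ K, x * y = y * x) : H ≤ Subgroup.normalizer (K : Set G) := by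
  intro v hv
  apply mem_normalizer_of_conj_mem
  intro z hz
  have : v * z * v⁻¹ = z := by rw [hc v hv z hz]; group
  rw [this]; exact hz

/-- a generalized best offender: an abelian `2`-group maximizing `|B| |C_V(B)|` over its
subgroups. -/
structure IsGbo (V A : Subgroup G) : Prop where
  pg : IsPGroup 2 A
  ab : ∀ a ∈ A, ∀ b ∈ A, a * b = b * a
  mx : ∀ B : Subgroup G, B ≤ A → ff V B ≤ ff V A

theorem gbo_gen (V S : Subgroup G) (hV : IsElementaryAbelian 2 V)
    (hSV : S ≤ Subgroup.normalizer (V : Set G))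
    (hf : S ⊓ Subgroup.centralizer (V : Set G) = ⊥)
    (hsolv : Group.IsSolvable ↥S) (hcore : pCore 2 ↥S = ⊥) :
    ∀ (n : ℕ) (A : Subgroup G), Nat.card A = n → A ≤ S → IsGbo V A →
      A ≤ ⨆ B : {B : Subgroup G // B ≤ A ∧ IsBestOffenderOn 2 V B ∧ Nat.card B = 2},
        (B : Subgroup G) := by
  have : Fact (Nat.Prime 2) := ⟨Nat.prime_two⟩
  have hVc := ea_comm hV
  have hpsolvS : IsPSolvable 2 ↥S :=
    Cfsg.Agent.Lib.Helper26.isPSolvable_of_isSolvable 2 _ ↥S rfl hsolv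
  have FS := FFSetup.of_hyp V S hV hSV hf (centralizer_pPrimeCore_le hpsolvS hcore)
  -- the subgroup generated by all best offenders
  set H : Subgroup G := ⨆ A' : {A' : Subgroup G // A' ≤ S ∧ IsBestOffenderOn 2 V A'},
    (A' : Subgroup G) with hH
  have hHS : H ≤ S := iSup_le (fun A' => A'.2.1)
  have hleH : ∀ A' : Subgroup G, A' ≤ S → IsBestOffenderOn 2 V A' → A' ≤ H := fun A' h1 h2 =>
    le_iSup (fun A' : {A' : Subgroup G // A' ≤ S ∧ IsBestOffenderOn 2 V A'} => (A' : Subgroup G))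
      ⟨A', h1, h2⟩
  have hSH : S ≤ Subgroup.normalizer (H : Set G) := by
    intro s hs
    apply mem_normalizer_of_conj_mem
    intro y hy
    have h1 : H.map (MulAut.conj s).toMonoidHom ≤ H := by
      rw [hH, Subgroup.map_iSup]
      apply iSup_le
      rintro ⟨A', hA'S, hA'⟩
      apply hleH
      · rintro _ ⟨a, ha, rfl⟩
        exact S.mul_mem (S.mul_mem hs (hA'S ha)) (S.inv_mem hs)
      · exact bo_map_equiv hA' (MulAut.conj s)
          (Cfsg.Agent.Lib.Helper26.map_conj_eq_of_mem_normalizer (hSV hs))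
    exact h1 ⟨y, hy, rfl⟩
  have hS3 : H = ⨆ A' : {A' : Subgroup G // A' ≤ H ∧ IsBestOffenderOn 2 V A'},
      (A' : Subgroup G) := by
    apply le_antisymm
    · show (⨆ A' : {A' : Subgroup G // A' ≤ S ∧ IsBestOffenderOn 2 V A'},
        (A' : Subgroup G)) ≤ _
      apply iSup_le
      rintro ⟨A', hA'S, hA'⟩
      exact le_iSup (fun A' : {A' : Subgroup G // A' ≤ H ∧ IsBestOffenderOn 2 V A'} =>
        (A' : Subgroup G)) ⟨A', hleH A' hA'S hA', hA'⟩
    · exact iSup_le (fun A' => A'.2.1)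
  have hHV : H ≤ Subgroup.normalizer (V : Set G) := hHS.trans hSV
  have hfH : H ⊓ Subgroup.centralizer (V : Set G) = ⊥ := by
    rw [eq_bot_iff, ← hf]; exact inf_le_inf_right _ hHS
  have hsolvH : Group.IsSolvable ↥H :=
    Group.isSolvable_of_isSolvable_injective (Subgroup.inclusion_injective hHS)
  have hpsolvH : IsPSolvable 2 ↥H :=
    Cfsg.Agent.Lib.Helper26.isPSolvable_of_isSolvable 2 _ ↥H rfl hsolvH
  have hcoreH : pCore 2 ↥H = ⊥ := pCore_eq_bot_of_le_normalizer H S hHS hSH hcore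
  have hS1 := centralizer_pPrimeCore_le hpsolvH hcoreH
  intro n
  induction n using Nat.strong_induction_on with
  | _ n ih =>
  intro A hn hAS hA
  by_cases hA1 : A = ⊥
  · rw [hA1]; exact bot_le
  have hAV : A ≤ Subgroup.normalizer (V : Set G) := hAS.trans hSV
  have hAc : A ≤ Subgroup.centralizer (A : Set G) := by
    intro a ha
    rw [Subgroup.mem_centralizer_iff]
    intro b hb
    exact hA.ab b hb a ha
  have hab : ⁅A, A⁆ ≤ Subgroup.centralizer (V : Set G) := by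
    rw [Subgroup.commutator_eq_bot_iff_le_centralizer.mpr hAc]; exact bot_le
  have hpA : ∀ a ∈ A, ∃ k : ℕ, a ^ 2 ^ k ∈ Subgroup.centralizer (V : Set G) := by
    intro a ha
    obtain ⟨k, hk⟩ := hA.pg ⟨a, ha⟩
    refine ⟨k, ?_⟩
    have h1 : a ^ 2 ^ k = 1 := by simpa using congrArg Subtype.val hk
    rw [h1]; exact Subgroup.one_mem _
  obtain ⟨hff, hcv⟩ := replacement_of_max hVc hAV hab hA.mx V le_rfl
  have hVA : ⁅V, A⁆ ≠ ⊥ := by
    intro h
    have h1 : V ≤ Subgroup.centralizer (A : Set G) :=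
      Subgroup.commutator_eq_bot_iff_le_centralizer.mp h
    have h2 : A ≤ Subgroup.centralizer (V : Set G) := Subgroup.le_centralizer_iff.mp h1
    apply hA1
    rw [eq_bot_iff, ← hf]
    exact le_inf hAS h2
  have hVA' := replacement_nontrivial_pg hV hAV hab hpA V le_rfl hcv hVA
  obtain ⟨A', hA'def⟩ : ∃ A' : Subgroup G,
      A' = A ⊓ Subgroup.centralizer ((⁅V, A⁆ : Subgroup G) : Set G) := ⟨_, rfl⟩
  rw [← hA'def] at hff hVA'
  have hA'A : A' ≤ A := by rw [hA'def]; exact inf_le_left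
  have hA'bo : IsBestOffenderOn 2 V A' := by
    refine ⟨?_, ?_, ?_⟩
    · intro B hB
      have h1 := hA.mx B (hB.trans hA'A)
      unfold ff at h1 hff
      rw [hff]; exact h1
    · exact (Subgroup.commutator_mono hA'A hA'A).trans hab
    · intro a ha
      rw [hA'def] at ha
      have haA : a ∈ A := (Subgroup.mem_inf.mp ha).1
      have haC := (Subgroup.mem_inf.mp ha).2
      rw [Subgroup.mem_centralizer_iff]
      intro v hv
      have haN : a ∈ Subgroup.normalizer (V : Set G) := hAV haA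
      have hc : ⁅v, a⁆ ∈ ⁅V, A⁆ := Subgroup.commutator_mem_commutator hv haA
      have hcV : ⁅v, a⁆ ∈ V := comm_mem_of_normalizer hv haN
      have h1 : ⁅v, a⁆ * a = a * ⁅v, a⁆ := Subgroup.mem_centralizer_iff.mp haC _ hc
      have h4 : ⁅v, a⁆ * ⁅v, a⁆ = 1 := by rw [← pow_two]; exact hV.2 _ hcV
      have h3 : v * a = ⁅v, a⁆ * a * v := by rw [commutatorElement_def]; group
      generalize ⁅v, a⁆ = c at h1 h3 h4
      calc v * a ^ 2 = (v * a) * a := by rw [pow_two, mul_assoc]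
        _ = (c * a * v) * a := by rw [h3]
        _ = c * a * (v * a) := by simp only [mul_assoc]
        _ = c * a * (c * a * v) := by rw [h3]
        _ = c * (a * c) * a * v := by simp only [mul_assoc]
        _ = c * (c * a) * a * v := by rw [h1]
        _ = (c * c) * a * a * v := by simp only [mul_assoc]
        _ = a ^ 2 * v := by rw [h4, one_mul, pow_two]
  have hA'S : A' ≤ S := hA'A.trans hAS
  have hA'1 : A' ≠ ⊥ := by
    intro h
    rw [h] at hVA'
    exact hVA' (Subgroup.commutator_bot_right V)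
  obtain ⟨k, Bi, hBi, -, hsup⟩ := FS.bo_decomp _ A' rfl hA'S hA'bo
  have hk : ∃ i : Fin k, True := by
    by_contra hcon
    apply hA'1
    rw [← hsup]
    have : IsEmpty (Fin k) := ⟨fun i => hcon ⟨i, trivial⟩⟩
    exact iSup_of_empty _
  obtain ⟨i₀, -⟩ := hk
  obtain ⟨B₀, hB₀A', hB₀bo, hB₀card⟩ : ∃ B₀ : Subgroup G,
      B₀ ≤ A' ∧ IsBestOffenderOn 2 V B₀ ∧ Nat.card B₀ = 2 := ⟨Bi i₀, hBi i₀⟩
  have hB₀A : B₀ ≤ A := hB₀A'.trans hA'A
  have hB₀S : B₀ ≤ S := hB₀A.trans hAS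
  have hB₀H : B₀ ≤ H := hleH B₀ hB₀S hB₀bo
  obtain ⟨hB₀V, hB₀min⟩ := FS.bo_prime_min hB₀S hB₀card
  have hcomp := isFFComp_of_min V H hV hHV hfH hS1 hS3 hB₀H hB₀bo hB₀V hB₀min
  set Wp : Subgroup G := (pPrimeCore 2 ↥H).map H.subtype with hWp
  set E : Subgroup G := ⁅Wp, B₀⁆ ⊔ B₀ with hE
  set VE : Subgroup G := ⁅V, E⁆ with hVE
  have hAE : ∀ a ∈ A, E.map (MulAut.conj a).toMonoidHom ≤ E := by
    intro a ha
    have h1 : Wp.map (MulAut.conj a).toMonoidHom ≤ Wp := by
      rintro _ ⟨y, hy, rfl⟩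
      exact pPrimeCore_conj_mem H (hSH (hAS ha)) y hy
    have h2 : B₀.map (MulAut.conj a).toMonoidHom ≤ B₀ := by
      rintro _ ⟨b, hb, rfl⟩
      show a * b * a⁻¹ ∈ B₀
      rw [hA.ab a ha b (hB₀A hb), mul_inv_cancel_right]; exact hb
    rw [hE, Subgroup.map_sup, Subgroup.map_commutator]
    exact sup_le_sup (Subgroup.commutator_mono h1 h2) h2
  have hAVE : A ≤ Subgroup.normalizer (VE : Set G) := by
    intro a ha
    apply mem_normalizer_of_conj_mem
    intro w hw
    have h1 : VE.map (MulAut.conj a).toMonoidHom ≤ VE := by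
      rw [hVE, Subgroup.map_commutator,
        Cfsg.Agent.Lib.Helper26.map_conj_eq_of_mem_normalizer (hAV ha)]
      exact Subgroup.commutator_mono le_rfl (hAE a ha)
    exact h1 ⟨w, hw, rfl⟩
  have hVEcard : Nat.card VE = 4 := by rw [hcomp.h3]; norm_num
  obtain ⟨t, htB, ht1⟩ : ∃ t ∈ B₀, t ≠ 1 := by
    apply exists_ne_one_of_ne_bot
    intro h
    rw [h, Subgroup.card_bot] at hB₀card
    omega
  have ht2 : t ^ 2 = 1 := FS.bo_pow hB₀S hB₀bo t htB
  have htt : t * t = 1 := by rw [← pow_two]; exact ht2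
  have htA : t ∈ A := hB₀A htB
  have hB₀z : B₀ = Subgroup.zpowers t := by
    have hle : Subgroup.zpowers t ≤ B₀ := Subgroup.zpowers_le.mpr htB
    have hc : Nat.card B₀ ≤ Nat.card (Subgroup.zpowers t) := by
      rw [hB₀card, Nat.card_zpowers, orderOf_eq_prime ht2 ht1]
    exact (subgroup_eq_of_le_of_card_le hle hc).symm
  have htE : t ∈ E := (le_sup_right : B₀ ≤ E) htB
  have htVE : t ∉ Subgroup.centralizer (VE : Set G) := by
    intro h
    have hbot : t ∈ E ⊓ (H ⊓ Subgroup.centralizer ((⁅V, E⁆ : Subgroup G) : Set G)) :=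
      ⟨htE, hB₀H htB, h⟩
    rw [hcomp.h7, Subgroup.mem_bot] at hbot
    exact ht1 hbot
  obtain ⟨A₁, hA₁def⟩ : ∃ A₁ : Subgroup G,
      A₁ = A ⊓ Subgroup.centralizer (VE : Set G) := ⟨_, rfl⟩
  have hA₁A : A₁ ≤ A := by rw [hA₁def]; exact inf_le_left
  have hA₁C : A₁ ≤ Subgroup.centralizer (VE : Set G) := by rw [hA₁def]; exact inf_le_right
  have key : ∀ a ∈ A, a ∈ A₁ ∨ t * a ∈ A₁ := by
    intro a ha
    let φ : ↥A →* Equiv.Perm ↥VE := (MulAut.toPerm ↥VE).comp (conjHom VE A hAVE)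
    have hφ : ∀ (x : ↥A) (w : ↥VE), ((φ x) w : G) = (x : G) * w * (x : G)⁻¹ := fun x w => rfl
    have hfix : ∀ x : ↥A, (φ x) 1 = 1 := fun x => Subtype.ext (by rw [hφ]; simp)
    have hker : ∀ x : ↥A, φ x = 1 → (x : G) ∈ Subgroup.centralizer (VE : Set G) := by
      intro x hx
      rw [Subgroup.mem_centralizer_iff]
      intro w hw
      have h1 := hφ x ⟨w, hw⟩
      rw [hx, Equiv.Perm.one_apply] at h1
      have h1' : w = (x : G) * w * (x : G)⁻¹ := h1
      calc w * (x : G) = ((x : G) * w * (x : G)⁻¹) * (x : G) := by rw [← h1']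
        _ = (x : G) * w := by group
    have htt' : (⟨t, htA⟩ : ↥A) * ⟨t, htA⟩ = 1 := Subtype.ext htt
    have h1 := perm_card4_comm hVEcard (φ ⟨a, ha⟩) (φ ⟨t, htA⟩) 1 (hfix _) (hfix _)
      (fun h => htVE (hker _ h)) (by rw [← map_mul, htt', map_one])
      (by
        rw [← map_mul, ← map_mul]
        congr 1
        exact Subtype.ext (hA.ab a ha t htA))
    rcases h1 with h1 | h1
    · left
      rw [hA₁def]
      exact ⟨ha, hker _ h1⟩
    · right
      rw [hA₁def]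
      refine ⟨A.mul_mem htA ha, ?_⟩
      have h2 : φ (⟨t, htA⟩ * ⟨a, ha⟩) = 1 := by
        rw [map_mul, h1, ← map_mul, htt', map_one]
      exact hker _ h2
  have htA₁ : t ∉ A₁ := fun h => htVE (hA₁C h)
  have hBA₁ : B₀ ⊓ A₁ = ⊥ := by
    rw [eq_bot_iff]
    rintro x ⟨hxB, hxA₁⟩
    rw [Subgroup.mem_bot]
    by_contra hx1
    have hxB' : x ∈ Subgroup.zpowers t := by rw [← hB₀z]; exact hxB
    exact htA₁ ((Subgroup.zpowers_le.mpr hxA₁) (mem_zpowers_of_prime ht2 hxB' hx1))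
  have hsupA : B₀ ⊔ A₁ = A := by
    apply le_antisymm (sup_le hB₀A hA₁A)
    intro a ha
    rcases key a ha with h | h
    · exact Subgroup.mem_sup_right h
    · have e : a = t⁻¹ * (t * a) := by group
      rw [e]
      exact Subgroup.mul_mem_sup (B₀.inv_mem htB) h
  have hcomm_le : ∀ B₁ B₂ : Subgroup G, B₁ ≤ A → B₂ ≤ A →
      B₁ ≤ Subgroup.normalizer (B₂ : Set G) := fun B₁ B₂ h1 h2 =>
    le_normalizer_of_commute_sf (fun x hx y hy => hA.ab x (h1 hx) y (h2 hy))
  have hcardA : Nat.card A = 2 * Nat.card A₁ := by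
    have h1 := card_sup_mul_card_inf (hcomm_le B₀ A₁ hB₀A hA₁A)
    rw [hsupA, hBA₁, Subgroup.card_bot, mul_one, hB₀card] at h1
    exact h1
  have hVEV : VE ≤ V := by
    rw [hVE, Subgroup.commutator_le]
    intro v hv e he
    exact comm_mem_of_normalizer hv (hHV (hcomp.le_H he))
  have hkey2 : ∀ B₁ : Subgroup G, B₁ ≤ A₁ →
      Nat.card ↥(V ⊓ Subgroup.centralizer (B₁ : Set G)) =
        2 * Nat.card ↥(V ⊓ Subgroup.centralizer ((B₀ ⊔ B₁ : Subgroup G) : Set G)) := by
    intro B₁ hB₁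
    obtain ⟨D, hDdef⟩ : ∃ D : Subgroup G, D = V ⊓ Subgroup.centralizer (B₁ : Set G) := ⟨_, rfl⟩
    have hDV : D ≤ V := by rw [hDdef]; exact inf_le_left
    have hDc : ∀ x ∈ D, ∀ y ∈ D, x * y = y * x := fun x hx y hy => hVc x (hDV hx) y (hDV hy)
    have htD : t ∈ Subgroup.normalizer (D : Set G) := by
      apply mem_normalizer_of_conj_mem
      intro x hx
      rw [hDdef] at hx ⊢
      obtain ⟨hxV, hxC⟩ := Subgroup.mem_inf.mp hx
      refine Subgroup.mem_inf.mpr ⟨conj_mem_of_normalizer hxV (hAV htA), ?_⟩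
      rw [Subgroup.mem_centralizer_iff] at hxC ⊢
      intro b hb
      have hbA : b ∈ A := hA₁A (hB₁ hb)
      have h1 := hxC b hb
      have h2 := hA.ab t htA b hbA
      have h3 : b * t⁻¹ = t⁻¹ * b := by
        rw [eq_inv_mul_iff_mul_eq, ← mul_assoc, h2, mul_inv_cancel_right]
      calc b * (t * x * t⁻¹) = (b * t) * x * t⁻¹ := by group
        _ = (t * b) * x * t⁻¹ := by rw [h2]
        _ = t * (b * x) * t⁻¹ := by group
        _ = t * (x * b) * t⁻¹ := by rw [h1]
        _ = t * x * (b * t⁻¹) := by group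
        _ = t * x * (t⁻¹ * b) := by rw [h3]
        _ = t * x * t⁻¹ * b := by group
    have h1 := card_comm_zpowers hDc t htD
    rw [← hB₀z] at h1
    have h2 : D ⊓ Subgroup.centralizer (B₀ : Set G) =
        V ⊓ Subgroup.centralizer ((B₀ ⊔ B₁ : Subgroup G) : Set G) := by
      rw [cv_sup, hDdef]
      ext x
      simp only [Subgroup.mem_inf]
      tauto
    have h3 : Nat.card ↥(⁅D, B₀⁆) = 2 := by
      have hle : ⁅D, B₀⁆ ≤ ⁅V, B₀⁆ := Subgroup.commutator_mono hDV le_rfl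
      have hc2 := (FS.bo_prime_data hB₀S hB₀bo hB₀card).1
      have hne : ⁅D, B₀⁆ ≠ ⊥ := by
        intro h
        apply htVE
        have hVED : VE ≤ D := by
          rw [hDdef]
          refine le_inf hVEV ?_
          rw [Subgroup.le_centralizer_iff]
          exact hB₁.trans hA₁C
        have h4 : D ≤ Subgroup.centralizer (B₀ : Set G) :=
          Subgroup.commutator_eq_bot_iff_le_centralizer.mp h
        have h5 : B₀ ≤ Subgroup.centralizer (D : Set G) := Subgroup.le_centralizer_iff.mp h4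
        exact (Subgroup.centralizer_le hVED) (h5 htB)
      have hdvd : Nat.card ↥(⁅D, B₀⁆) ∣ 2 := hc2 ▸ Subgroup.card_dvd_of_le hle
      rcases (Nat.dvd_prime Nat.prime_two).mp hdvd with h | h
      · exact absurd (Subgroup.card_eq_one.mp h) hne
      · exact h
    rw [h3, h2] at h1
    rw [← hDdef]
    exact h1.symm
  have hgbo₁ : IsGbo V A₁ := by
    refine ⟨hA.pg.to_le hA₁A, fun a ha b hb => hA.ab a (hA₁A ha) b (hA₁A hb), ?_⟩
    intro B₁ hB₁
    have e1 := hkey2 B₁ hB₁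
    have e2 := hkey2 A₁ le_rfl
    rw [hsupA] at e2
    have hB₀B₁ : B₀ ⊓ B₁ = ⊥ := by
      rw [eq_bot_iff, ← hBA₁]; exact inf_le_inf_left _ hB₁
    have e3 := card_sup_mul_card_inf (hcomm_le B₀ B₁ hB₀A (hB₁.trans hA₁A))
    rw [hB₀B₁, Subgroup.card_bot, mul_one, hB₀card] at e3
    have e4 := hA.mx (B₀ ⊔ B₁) (sup_le hB₀A (hB₁.trans hA₁A))
    unfold ff at e4 ⊢
    rw [e3, hcardA] at e4
    rw [e1, e2]
    calc Nat.card ↥B₁ * (2 * Nat.card ↥(V ⊓ Subgroup.centralizer ((B₀ ⊔ B₁ : Subgroup G) : Set G)))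
        = 2 * Nat.card ↥B₁ *
          Nat.card ↥(V ⊓ Subgroup.centralizer ((B₀ ⊔ B₁ : Subgroup G) : Set G)) := by ring
      _ ≤ 2 * Nat.card ↥A₁ * Nat.card ↥(V ⊓ Subgroup.centralizer (A : Set G)) := e4
      _ = Nat.card ↥A₁ * (2 * Nat.card ↥(V ⊓ Subgroup.centralizer (A : Set G))) := by ring
  have hlt : Nat.card A₁ < n := by
    rw [← hn, hcardA]
    have := Nat.card_pos (α := ↥A₁)
    omega
  have hih := ih (Nat.card A₁) hlt A₁ rfl (hA₁A.trans hAS) hgbo₁
  refine hsupA.symm.le.trans (sup_le ?_ ?_)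
  · exact le_iSup (fun B : {B : Subgroup G // B ≤ A ∧ IsBestOffenderOn 2 V B ∧ Nat.card B = 2} =>
      (B : Subgroup G)) ⟨B₀, hB₀A, hB₀bo, hB₀card⟩
  · refine hih.trans ?_
    apply iSup_le
    rintro ⟨B, hBA₁, hBbo, hBc⟩
    exact le_iSup (fun B : {B : Subgroup G // B ≤ A ∧ IsBestOffenderOn 2 V B ∧ Nat.card B = 2} =>
      (B : Subgroup G)) ⟨B, hBA₁.trans hA₁A, hBbo, hBc⟩

end gbo

end Cfsg.Agent.Lib.Helper14
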