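import Mathlib
import Cfsg.Prelude.Def_PLocal
import Cfsg.Prelude.Def_Local
import Cfsg.Agent.Lib.Helper14.Sf1
import Cfsg.Agent.S0250

set_option autoImplicit false
set_option linter.unusedSectionVars false

/-!
# Groups generated by generalized best offenders are products of `S_3` (helper14)
-/

universe u

namespace Cfsg.Agent.Lib.Helper14

open Cfsg
open scoped commutatorElement

theorem pi_iso_of_indep {G : Type*} [Group G] {ι : Type*} [Finite ι] (E : ι → Subgroup G)
    (Y : Subgroup G) (hn : ∀ i, Y ≤ Subgroup.normalizer (E i : Set G))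
    (hind : iSupIndep E) (hsup : ⨆ i, E i = Y) {K : Type*} [Group K]
    (hiso : ∀ i, Nonempty (↥(E i) ≃* K)) :
    Nonempty (↥Y ≃* (Fin (Nat.card ι) → K)) := by
  classical
  have : Fintype ι := Fintype.ofFinite ι
  have hEY : ∀ i, E i ≤ Y := fun i => (le_iSup E i).trans hsup.le
  have hcomm : Pairwise fun i j => ∀ x y : G, x ∈ E i → y ∈ E j → Commute x y := by
    intro i j hij x y hx hy
    have hd : Disjoint (E i) (E j) := hind.pairwiseDisjoint hij
    have h1 : ⁅x, y⁆ ∈ E i ⊓ E j := by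
      constructor
      · have hy' := hn i (hEY j hy)
        rw [commutatorElement_def]
        have h3 : y * x⁻¹ * y⁻¹ ∈ E i :=
          (Subgroup.mem_normalizer_iff.mp hy' x⁻¹).mp ((E i).inv_mem hx)
        have h2 := (E i).mul_mem hx h3
        have h4 : x * y * x⁻¹ * y⁻¹ = x * (y * x⁻¹ * y⁻¹) := by group
        rw [h4]; exact h2
      · have hx' := hn j (hEY i hx)
        rw [commutatorElement_def]
        have h3 : x * y * x⁻¹ ∈ E j := (Subgroup.mem_normalizer_iff.mp hx' y).mp hy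
        exact (E j).mul_mem h3 ((E j).inv_mem hy)
    have h2 : ⁅x, y⁆ = 1 := by
      have h5 := hd.le_bot h1
      simpa using h5
    exact commutatorElement_eq_one_iff_commute.mp h2
  have hinj : Function.Injective (Subgroup.noncommPiCoprod hcomm) :=
    Subgroup.injective_noncommPiCoprod_of_iSupIndep hind
  have hrange : (Subgroup.noncommPiCoprod hcomm).range = Y := by
    rw [Subgroup.noncommPiCoprod_range, hsup]
  have e1 : (∀ i : ι, ↥(E i)) ≃* ↥(Subgroup.noncommPiCoprod hcomm).range :=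
    MonoidHom.ofInjective hinj
  have e2 : ↥(Subgroup.noncommPiCoprod hcomm).range ≃* ↥Y := MulEquiv.subgroupCongr hrange
  have e3 : (∀ i : ι, ↥(E i)) ≃* (ι → K) :=
    MulEquiv.piCongrRight (fun i => (hiso i).some)
  have e4 : (ι → K) ≃* (Fin (Nat.card ι) → K) :=
    MulEquiv.arrowCongr (Finite.equivFin ι) (MulEquiv.refl K)
  exact ⟨(e2.symm.trans e1.symm).trans (e3.trans e4)⟩

variable {G : Type u} [Group G] [Finite G]

theorem sf_main (V S Y : Subgroup G) (hV : IsElementaryAbelian 2 V)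
    (hSV : S ≤ Subgroup.normalizer (V : Set G))
    (hf : S ⊓ Subgroup.centralizer (V : Set G) = ⊥)
    (hsolv : Group.IsSolvable ↥S) (hcore : pCore 2 ↥S = ⊥)
    (hYS : Y ≤ S) (hSY : S ≤ Subgroup.normalizer (Y : Set G))
    {ι : Type*} (A : ι → Subgroup G) (hA : ∀ i, IsGbo V (A i)) (hYA : Y = ⨆ i, A i) :
    Y = ⊥ ∨ ∃ n : ℕ, 1 ≤ n ∧ Nonempty (↥Y ≃* (Fin n → Equiv.Perm (Fin 3))) := by
  have : Fact (Nat.Prime 2) := ⟨Nat.prime_two⟩
  by_cases hY1 : Y = ⊥
  · exact Or.inl hY1
  right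
  have hAY : ∀ i, A i ≤ Y := fun i => by rw [hYA]; exact le_iSup A i
  have hYV : Y ≤ Subgroup.normalizer (V : Set G) := hYS.trans hSV
  have hfY : Y ⊓ Subgroup.centralizer (V : Set G) = ⊥ := by
    rw [eq_bot_iff, ← hf]
    exact inf_le_inf_right _ hYS
  have hsolvY : Group.IsSolvable ↥Y :=
    Group.isSolvable_of_isSolvable_injective (f := Subgroup.inclusion hYS)
      (Subgroup.inclusion_injective hYS)
  have hcoreY : pCore 2 ↥Y = ⊥ := pCore_eq_bot_of_le_normalizer Y S hYS hSY hcore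
  have hpsolvY : IsPSolvable 2 ↥Y :=
    Cfsg.Agent.Lib.Helper26.isPSolvable_of_isSolvable 2 _ ↥Y rfl hsolvY
  have hS1 := centralizer_pPrimeCore_le hpsolvY hcoreY
  have hS3 : Y = ⨆ B : {B : Subgroup G // B ≤ Y ∧ IsBestOffenderOn 2 V B}, (B : Subgroup G) := by
    apply le_antisymm
    · refine hYA.le.trans ?_
      apply iSup_le
      intro i
      refine (gbo_gen V S hV hSV hf hsolv hcore _ (A i) rfl ((hAY i).trans hYS) (hA i)).trans ?_
      apply iSup_le
      rintro ⟨B, hBA, hB, -⟩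
      have hBY : B ≤ Y := hBA.trans (hAY i)
      exact le_iSup (fun B : {B : Subgroup G // B ≤ Y ∧ IsBestOffenderOn 2 V B} =>
        (B : Subgroup G)) ⟨B, hBY, hB⟩
    · apply iSup_le
      rintro ⟨B, hBY, -⟩
      exact hBY
  obtain ⟨-, hE, hind, hsup, -, -⟩ := ff_structure V Y hV hYV hfY hS1 hS3 hY1
  obtain ⟨e0⟩ := Cfsg.Agent.S0250.result (F := ZMod 2) (ZMod.card 2)
  have hiso : ∀ E : {E : Subgroup G // IsMinComp 2 V Y E},
      Nonempty (↥(E : Subgroup G) ≃* Equiv.Perm (Fin 3)) := by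
    intro E
    obtain ⟨-, ⟨e⟩, -⟩ := hE E
    exact ⟨e.trans e0⟩
  have hfin : Finite {E : Subgroup G // IsMinComp 2 V Y E} := inferInstance
  refine ⟨Nat.card {E : Subgroup G // IsMinComp 2 V Y E}, ?_,
    pi_iso_of_indep (fun E : {E : Subgroup G // IsMinComp 2 V Y E} => (E : Subgroup G)) Y
      (fun E => (hE E).1) hind hsup hiso⟩
  rw [Nat.one_le_iff_ne_zero, Ne, Nat.card_eq_zero, not_or]
  refine ⟨?_, fun h => h.not_finite hfin⟩
  rw [not_isEmpty_iff]
  by_contra hne
  rw [not_nonempty_iff] at hne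
  apply hY1
  rw [← hsup]
  exact iSup_of_empty _
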