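import Cfsg.Agent.Lib.Helper96.SpElem

/-!
# S5955, piece COUNT-TI: an isometry of prime order from a divisibility of the number of
totally isotropic subspaces of a given dimension
-/

set_option autoImplicit false
set_option linter.unusedSectionVars false
set_option linter.unusedVariables false

namespace Cfsg.Agent.Lib.Helper14.SpCountTI

open Module Cfsg.Agent.Lib.Helper96.Sp Cfsg.Agent.Lib.Helper73.SpCount

variable {F : Type*} [Field F] {V : Type*} [AddCommGroup V] [Module F V]

theorem ti_map [FiniteDimensional F V] {B : LinearMap.BilinForm F V} {m : ℕ}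
    (W : Submodule F V) (h : finrank F W = m ∧ Orth B W W) (g : V ≃ₗ[F] V)
    (hg : Isom B (g : V →ₗ[F] V)) :
    finrank F (W.map (g : V →ₗ[F] V)) = m ∧
      Orth B (W.map (g : V →ₗ[F] V)) (W.map (g : V →ₗ[F] V)) := by
  obtain ⟨h1, h2⟩ := h
  refine ⟨?_, ?_⟩
  · rw [← h1]
    exact (LinearEquiv.finrank_eq (g.submoduleMap W)).symm
  · rintro _ ⟨u, hu, rfl⟩ _ ⟨v, hv, rfl⟩
    rw [hg u v]
    exact h2 u hu v hv

/-- The action of the isometries on the totally isotropic subspaces of dimension `m`. -/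
@[reducible] noncomputable def tiAct [FiniteDimensional F V] (B : LinearMap.BilinForm F V)
    (m : ℕ) : MulAction ↥(isoGrp B) {W : Submodule F V // finrank F W = m ∧ Orth B W W} where
  smul g W := ⟨(W.1).map ((g : V ≃ₗ[F] V) : V →ₗ[F] V), ti_map W.1 W.2 g.1 g.2⟩
  one_smul W := Subtype.ext (Submodule.map_id _)
  mul_smul g h W := Subtype.ext (Submodule.map_comp _ _ _)

/-- COUNT-TI. -/
theorem exists_isom_of_dvd_card_ti {F : Type*} [Field F] [Fintype F] {V : Type*}
    [AddCommGroup V] [Module F V] [FiniteDimensional F V] {B : LinearMap.BilinForm F V}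
    (hA : B.IsAlt) (hN : ND B ⊤) (m : ℕ) (W₀ : Submodule F V)
    (hW₀ : finrank F W₀ = m ∧ Orth B W₀ W₀)
    (hwitt : ∀ W W' : Submodule F V, Orth B W W → Orth B W' W' →
      finrank F W = finrank F W' →
      ∃ h : V ≃ₗ[F] V, Isom B (h : V →ₗ[F] V) ∧ W.map (h : V →ₗ[F] V) = W')
    (r : ℕ) [Fact r.Prime]
    (hΩ : r ∣ Nat.card {W : Submodule F V // finrank F W = m ∧ Orth B W W}) :
    ∃ g : Module.End F V, Isom B g ∧ g ^ r = 1 ∧ g ≠ 1 := by
  classical
  have hr : r.Prime := Fact.out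
  haveI : Finite V := Module.finite_of_finite F
  haveI : Finite (V ≃ₗ[F] V) :=
    Finite.of_injective (fun g : V ≃ₗ[F] V => (g : V → V)) DFunLike.coe_injective
  have h2 : Nat.card {W : Submodule F V // finrank F W = m ∧ Orth B W W} ∣
      Nat.card ↥(isoGrp B) := by
    letI := tiAct B m
    haveI : MulAction.IsPretransitive ↥(isoGrp B)
        {W : Submodule F V // finrank F W = m ∧ Orth B W W} :=
      ⟨by
        intro D D'
        obtain ⟨g, hg, hgD⟩ := hwitt D.1 D'.1 D.2.2 D'.2.2 (D.2.1.trans D'.2.1.symm)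
        exact ⟨⟨g, hg⟩, Subtype.ext hgD⟩⟩
    rw [← MulAction.index_stabilizer_of_transitive ↥(isoGrp B)
      (⟨W₀, hW₀⟩ : {W : Submodule F V // finrank F W = m ∧ Orth B W W})]
    exact Subgroup.index_dvd_card _
  have h3 : r ∣ Nat.card ↥(isoGrp B) := dvd_trans hΩ h2
  obtain ⟨g, hg⟩ := exists_prime_orderOf_dvd_card' (G := ↥(isoGrp B)) r h3
  have hgr : (g : V ≃ₗ[F] V) ^ r = 1 := by
    have : g ^ r = 1 := by
      rw [← hg]
      exact pow_orderOf_eq_one g
    have h := congrArg (fun x : ↥(isoGrp B) => (x : V ≃ₗ[F] V)) this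
    simpa using h
  have hpow : ∀ (k : ℕ) (x : V),
      ((((g : V ≃ₗ[F] V) : V →ₗ[F] V) : Module.End F V) ^ k) x = ((g : V ≃ₗ[F] V) ^ k) x := by
    intro k
    induction k with
    | zero => intro x; rfl
    | succ k ih =>
      intro x
      rw [pow_succ, pow_succ]
      show ((((g : V ≃ₗ[F] V) : V →ₗ[F] V) : Module.End F V) ^ k) ((g : V ≃ₗ[F] V) x) =
        ((g : V ≃ₗ[F] V) ^ k) ((g : V ≃ₗ[F] V) x)
      exact ih _
  refine ⟨((g : V ≃ₗ[F] V) : V →ₗ[F] V), g.2, ?_, ?_⟩
  · ext x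
    rw [hpow, hgr]
    rfl
  · intro h
    have hg1 : g = 1 := by
      apply Subtype.ext
      ext x
      have := LinearMap.congr_fun h x
      exact this
    rw [hg1, orderOf_one] at hg
    exact hr.one_lt.ne hg

end Cfsg.Agent.Lib.Helper14.SpCountTI
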