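import Cfsg.Agent.Lib.Helper98.T73Defs

/-! Project T73 (helper98, S5973), piece ARITHODD (helper14): `Model ↔ Cond` for odd `i`. -/

set_option autoImplicit false

namespace Cfsg.Agent.Lib.Helper98.T73

theorem arithodd_core (i D m : ℕ) (hi : 1 ≤ i) (him : i ≤ m) (hmD : m ≤ D) :
    (∀ a, 1 ≤ a → i * a ≤ D → ∃ j w, j ≤ a ∧ w + i * a ≤ D ∧ m = i * j + w) ↔
      m % i ≤ D % i := by
  have hDdm := Nat.div_add_mod D i
  have hmdm := Nat.div_add_mod m i
  have hDlt : D % i < i := Nat.mod_lt D hi
  constructor
  · intro h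
    have h1 : 1 ≤ D / i := Nat.div_pos (him.trans hmD) hi
    obtain ⟨j, w, -, hw, hm'⟩ := h (D / i) h1 (Nat.mul_div_le D i)
    have hw' : w ≤ D % i := by omega
    have h2 : m % i = w := by
      rw [hm', Nat.mul_add_mod]
      exact Nat.mod_eq_of_lt (by omega)
    omega
  · intro hmod a ha hia
    by_cases hj : m / i ≤ a
    · refine ⟨m / i, m % i, hj, ?_, hmdm.symm⟩
      have h1 : a ≤ D / i := (Nat.le_div_iff_mul_le hi).mpr (by rw [mul_comm]; exact hia)
      have h2 : i * a ≤ i * (D / i) := Nat.mul_le_mul_left i h1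
      omega
    · have h1 : i * a ≤ i * (m / i) := Nat.mul_le_mul_left i (by omega)
      refine ⟨a, m - i * a, le_rfl, ?_, ?_⟩
      · omega
      · omega

theorem arithodd_pred (i d : ℕ) (hi : 1 ≤ i) (hd : 1 ≤ d) :
    (d - 1) % i = if d % i = 0 then i - 1 else d % i - 1 := by
  have hdm := Nat.div_add_mod d i
  have hlt : d % i < i := Nat.mod_lt d hi
  by_cases h0 : d % i = 0
  · rw [if_pos h0]
    have hq : 1 ≤ d / i := by
      by_contra hq
      have hq0 : d / i = 0 := Nat.lt_one_iff.mp (not_le.mp hq)
      rw [hq0, h0] at hdm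
      omega
    obtain ⟨q', hq'⟩ := Nat.exists_eq_add_of_le' hq
    have h1 : d - 1 = i * q' + (i - 1) := by
      rw [hq', h0, Nat.mul_add, Nat.mul_one] at hdm
      omega
    rw [h1, Nat.mul_add_mod]
    exact Nat.mod_eq_of_lt (by omega)
  · rw [if_neg h0]
    have h1 : d - 1 = i * (d / i) + (d % i - 1) := by omega
    rw [h1, Nat.mul_add_mod]
    exact Nat.mod_eq_of_lt (by omega)

/-- ARITHODD -/
theorem arith_odd (ε : ℤ) (hε : ε = 1 ∨ ε = -1) (i t d m : ℕ) (hi : 1 ≤ i) (hodd : ¬ Even i)
    (hd : 2 ≤ d) (hm : 1 ≤ m) (hmd : m + 1 ≤ d) :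
    (i ≤ m ∧ Model ε i t d m) ↔ Cond ε i t d m := by
  have hoddi : Odd i := Nat.not_even_iff_odd.mp hodd
  have hsgn : ∀ A, sgn i A = 1 := fun A => by unfold sgn; rw [if_neg hodd]
  have hmlt : m % i < i := Nat.mod_lt m hi
  have hdlt : d % i < i := Nat.mod_lt d hi
  have hmm : 2 * d % (2 * i) = 2 * (d % i) := Nat.mul_mod_mul_left 2 d i
  rcases hε with rfl | rfl
  · -- ε = 1
    have key : Model 1 i t d m ↔
        (∀ a, 1 ≤ a → i * a ≤ d → ∃ j w, j ≤ a ∧ w + i * a ≤ d ∧ m = i * j + w) := by
      constructor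
      · intro hM a ha hia
        have e1 : i * (2 * a) = 2 * (i * a) := by ring
        obtain ⟨j, w, hJ, hw, hm'⟩ := hM (2 * a)
          ⟨by omega, by omega, fun _ => even_two_mul a, fun _ => hsgn _⟩
        unfold JC at hJ
        rw [if_neg hodd] at hJ
        refine ⟨j, w, by omega, ?_, hm'⟩
        unfold om at hw
        rw [hsgn] at hw
        split_ifs at hw with h1 h2
        · omega
        · omega
        · exact absurd (by norm_num) h2
      · intro hcore A hV
        obtain ⟨hA1, hA2, hA3, -⟩ := hV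
        obtain ⟨a, rfl⟩ := hA3 hoddi
        have e1 : i * (a + a) = 2 * (i * a) := by ring
        obtain ⟨j, w, hj, hw, hm'⟩ := hcore a (by omega) (by omega)
        refine ⟨j, w, ?_, ?_, hm'⟩
        · unfold JC
          rw [if_neg hodd]
          omega
        · unfold om
          rw [hsgn]
          split_ifs with h1 h2
          · omega
          · omega
          · exact absurd (by norm_num) h2
    have hC : Cond 1 i t d m ↔ (i ≤ m ∧ 2 * (m % i) ≤ 2 * (d % i)) := by
      unfold Cond
      rw [if_neg hodd, if_pos rfl, hmm]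
    rw [hC]
    constructor
    · rintro ⟨him, hM⟩
      refine ⟨him, ?_⟩
      have := (arithodd_core i d m hi him (by omega)).mp (key.mp hM)
      omega
    · rintro ⟨him, h2⟩
      exact ⟨him, key.mpr ((arithodd_core i d m hi him (by omega)).mpr (by omega))⟩
  · -- ε = -1
    have key : Model (-1) i t d m ↔
        (∀ a, 1 ≤ a → i * a ≤ d - 1 → ∃ j w, j ≤ a ∧ w + i * a ≤ d - 1 ∧ m = i * j + w) := by
      constructor
      · intro hM a ha hia
        have e1 : i * (2 * a) = 2 * (i * a) := by ring
        obtain ⟨j, w, hJ, hw, hm'⟩ := hM (2 * a)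
          ⟨by omega, by omega, fun _ => even_two_mul a, fun h => by omega⟩
        unfold JC at hJ
        rw [if_neg hodd] at hJ
        refine ⟨j, w, by omega, ?_, hm'⟩
        unfold om at hw
        rw [hsgn] at hw
        split_ifs at hw with h1 h2
        · omega
        · exact absurd h2 (by norm_num)
        · omega
      · intro hcore A hV
        obtain ⟨hA1, hA2, hA3, hA4⟩ := hV
        obtain ⟨a, rfl⟩ := hA3 hoddi
        have e1 : i * (a + a) = 2 * (i * a) := by ring
        have hne : 2 * d ≠ i * (a + a) := by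
          intro h
          have := hA4 h
          rw [hsgn] at this
          norm_num at this
        obtain ⟨j, w, hj, hw, hm'⟩ := hcore a (by omega) (by omega)
        refine ⟨j, w, ?_, ?_, hm'⟩
        · unfold JC
          rw [if_neg hodd]
          omega
        · unfold om
          rw [hsgn]
          split_ifs with h1 h2
          · exact absurd h1 hne
          · exact absurd h2 (by norm_num)
          · omega
    have hC : Cond (-1) i t d m ↔
        (i ≤ m ∧ (2 * (d % i) = 0 ∨ 2 * (m % i) < 2 * (d % i))) := by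
      unfold Cond
      rw [if_neg hodd, if_neg (by norm_num : ¬ ((-1 : ℤ) = 1)), hmm]
    have hpred := arithodd_pred i d hi (by omega)
    rw [hC]
    constructor
    · rintro ⟨him, hM⟩
      refine ⟨him, ?_⟩
      have h1 := (arithodd_core i (d - 1) m hi him (by omega)).mp (key.mp hM)
      rw [hpred] at h1
      split_ifs at h1 with h0
      · left
        omega
      · right
        omega
    · rintro ⟨him, h2⟩
      refine ⟨him, key.mpr ((arithodd_core i (d - 1) m hi him (by omega)).mpr ?_)⟩
      rw [hpred]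
      split_ifs with h0
      · omega
      · omega

end Cfsg.Agent.Lib.Helper98.T73
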