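import Mathlib
import Cfsg.Prelude.Def_GeometricClasses
import Cfsg.Agent.Lib.Helper97.Transv
import Cfsg.Agent.Lib.Helper97.TransvM
import Cfsg.Agent.Lib.Helper71.TP0
import Cfsg.Agent.Lib.Helper71.TP1

/-!
# S5637, piece B1 (auxiliary part): `x = (ξ ⊗ γ) · r` with `r` of type `InR`, with the pieces
L3 and B1b taken as hypotheses
-/

set_option autoImplicit false

namespace Cfsg.Agent.Lib.Helper14.TPB1

open Matrix Cfsg.Agent.Lib.Helper71.TP Cfsg.Agent.Lib.Helper97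
open scoped Kronecker

variable {a b : ℕ} {F : Type*} [Field F]

/-- `u ↦ u ⊗ w` is injective for `w ≠ 0` -/
theorem pt_left_injective {w : Fin b → F} (hw : w ≠ 0) {u u' : Fin a → F}
    (h : pt u w = pt u' w) : u = u' := by
  obtain ⟨j₀, hj₀⟩ := Function.ne_iff.mp hw
  funext i
  have h1 := congrFun h (i, j₀)
  rw [pt_apply, pt_apply] at h1
  exact mul_right_cancel₀ hj₀ h1

theorem kronG_one_one : kronG (1 : GL (Fin a) F) (1 : GL (Fin b) F) = 1 := by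
  apply Units.ext
  simp

theorem kronG_inv_mul (ξ : GL (Fin a) F) :
    kronG ξ⁻¹ (1 : GL (Fin b) F) * kronG ξ 1 = 1 := by
  rw [kronG_mul, inv_mul_cancel, one_mul, kronG_one_one]

theorem kronG_mul_inv (ξ : GL (Fin a) F) :
    kronG ξ (1 : GL (Fin b) F) * kronG ξ⁻¹ 1 = 1 := by
  rw [kronG_mul, mul_inv_cancel, one_mul, kronG_one_one]

theorem act_kronG_left_pt (ξ : GL (Fin a) F) (u : Fin a → F) (w : Fin b → F) :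
    act (kronG ξ (1 : GL (Fin b) F)) (pt u w) = pt (ξ.1 *ᵥ u) w := by
  rw [act_kronG_pt, Units.val_one, Matrix.one_mulVec]

theorem inv_mulVec_mulVec (ξ : GL (Fin a) F) (u : Fin a → F) :
    (ξ⁻¹).1 *ᵥ (ξ.1 *ᵥ u) = u := by
  rw [Matrix.mulVec_mulVec, ← Units.val_mul, inv_mul_cancel, Units.val_one, Matrix.one_mulVec]

theorem mulVec_inv_mulVec (ξ : GL (Fin a) F) (u : Fin a → F) :
    ξ.1 *ᵥ ((ξ⁻¹).1 *ᵥ u) = u := by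
  rw [Matrix.mulVec_mulVec, ← Units.val_mul, mul_inv_cancel, Units.val_one, Matrix.one_mulVec]

/-- STEP 1 -/
theorem ctr_of_comm (x : GL (Fin a × Fin b) F) (w : Fin b → F) (hw : w ≠ 0)
    (ξ : GL (Fin a) F) (hξ : ∀ u : Fin a → F, act x (pt u w) = pt (ξ.1 *ᵥ u) w)
    {ψ ψ' : Fin b → F} (h : x.1 * kv 1 w ψ = kv 1 w ψ' * x.1) (v : Fin a × Fin b → F) :
    ctr ψ' (act x v) = ξ.1 *ᵥ ctr ψ v := by
  have h1 : (x.1 * kv 1 w ψ) *ᵥ v = (kv 1 w ψ' * x.1) *ᵥ v := by rw [h]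
  rw [← Matrix.mulVec_mulVec, ← Matrix.mulVec_mulVec, kv_mulVec, kv_mulVec, Matrix.one_mulVec,
    Matrix.one_mulVec] at h1
  have h2 : x.1 *ᵥ pt (ctr ψ v) w = pt (ξ.1 *ᵥ ctr ψ v) w := hξ (ctr ψ v)
  rw [h2] at h1
  exact (pt_left_injective hw h1).symm

/-- B1 with the pieces L3 and B1b as hypotheses -/
theorem stab_form_aux (x : GL (Fin a × Fin b) F) (w : Fin b → F) (hw : w ≠ 0)
    (hxi : ∃ ξ : GL (Fin a) F, ∀ u : Fin a → F, act x (pt u w) = pt (ξ.1 *ᵥ u) w)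
    (haux : ∀ x' : GL (Fin a × Fin b) F, (∀ u : Fin a → F, act x' (pt u w) = pt u w) →
      (∀ ψ : Fin b → F, ψ ⬝ᵥ w = 0 →
        ∃ ψ' : Fin b → F, ψ' ⬝ᵥ w = 0 ∧ ∀ v, ctr ψ' (act x' v) = ctr ψ v) →
      (∀ ψ' : Fin b → F, ψ' ⬝ᵥ w = 0 →
        ∃ ψ : Fin b → F, ψ ⬝ᵥ w = 0 ∧ ∀ v, ctr ψ' (act x' v) = ctr ψ v) →
      ∃ γ : GL (Fin b) F, γ.1 *ᵥ w = w ∧ InR ((kronG (1 : GL (Fin a) F) γ)⁻¹ * x') w)
    (h1 : ∀ ψ : Fin b → F, ψ ⬝ᵥ w = 0 →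
      ∃ ψ' : Fin b → F, ψ' ⬝ᵥ w = 0 ∧ x.1 * kv 1 w ψ = kv 1 w ψ' * x.1)
    (h2 : ∀ ψ' : Fin b → F, ψ' ⬝ᵥ w = 0 →
      ∃ ψ : Fin b → F, ψ ⬝ᵥ w = 0 ∧ x.1 * kv 1 w ψ = kv 1 w ψ' * x.1) :
    ∃ (ξ : GL (Fin a) F) (γ : GL (Fin b) F) (r : GL (Fin a × Fin b) F),
      InR r w ∧ x = kronG ξ γ * r := by
  obtain ⟨ξ, hξ⟩ := hxi
  obtain ⟨G2, hG2⟩ : ∃ G2 : GL (Fin a × Fin b) F, G2 = kronG ξ (1 : GL (Fin b) F) := ⟨_, rfl⟩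
  obtain ⟨G3, hG3⟩ : ∃ G3 : GL (Fin a × Fin b) F, G3 = kronG ξ⁻¹ (1 : GL (Fin b) F) := ⟨_, rfl⟩
  have h32 : G3 * G2 = 1 := by rw [hG2, hG3]; exact kronG_inv_mul ξ
  have h23 : G2 * G3 = 1 := by rw [hG2, hG3]; exact kronG_mul_inv ξ
  have hG2pt : ∀ u : Fin a → F, act G2 (pt u w) = pt (ξ.1 *ᵥ u) w := by
    intro u; rw [hG2]; exact act_kronG_left_pt ξ u w
  have hG3pt : ∀ u : Fin a → F, act G3 (pt u w) = pt ((ξ⁻¹).1 *ᵥ u) w := by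
    intro u; rw [hG3]; exact act_kronG_left_pt ξ⁻¹ u w
  have hG3ctr : ∀ (ψ : Fin b → F) (v : Fin a × Fin b → F),
      ctr ψ (act G3 v) = (ξ⁻¹).1 *ᵥ ctr ψ v := by
    intro ψ v
    rw [hG3, act, kronG_val, ctr_kron_mulVec, Units.val_one, Matrix.vecMul_one]
  -- STEP 2
  have hfix : ∀ u : Fin a → F, act (x * G3) (pt u w) = pt u w := by
    intro u
    rw [act_mul, hG3pt, hξ, mulVec_inv_mulVec]
  have hstep : ∀ {ψ ψ' : Fin b → F}, x.1 * kv 1 w ψ = kv 1 w ψ' * x.1 →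
      ∀ v, ctr ψ' (act (x * G3) v) = ctr ψ v := by
    intro ψ ψ' h v
    rw [act_mul, ctr_of_comm x w hw ξ hξ h, hG3ctr, mulVec_inv_mulVec]
  have h1' : ∀ ψ : Fin b → F, ψ ⬝ᵥ w = 0 →
      ∃ ψ' : Fin b → F, ψ' ⬝ᵥ w = 0 ∧ ∀ v, ctr ψ' (act (x * G3) v) = ctr ψ v := by
    intro ψ hψ
    obtain ⟨ψ', hψ', h⟩ := h1 ψ hψ
    exact ⟨ψ', hψ', hstep h⟩
  have h2' : ∀ ψ' : Fin b → F, ψ' ⬝ᵥ w = 0 →
      ∃ ψ : Fin b → F, ψ ⬝ᵥ w = 0 ∧ ∀ v, ctr ψ' (act (x * G3) v) = ctr ψ v := by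
    intro ψ' hψ'
    obtain ⟨ψ, hψ, h⟩ := h2 ψ' hψ'
    exact ⟨ψ, hψ, hstep h⟩
  -- STEP 3
  obtain ⟨γ, -, hR0⟩ := haux (x * G3) hfix h1' h2'
  obtain ⟨G1, hG1⟩ : ∃ G1 : GL (Fin a × Fin b) F, G1 = kronG (1 : GL (Fin a) F) γ := ⟨_, rfl⟩
  rw [← hG1] at hR0
  have e1 : kronG ξ γ = G1 * G2 := by rw [hG1, hG2, kronG_mul, one_mul, mul_one]
  have hG3inv : G3 = G2⁻¹ := eq_inv_of_mul_eq_one_left h32
  refine ⟨ξ, γ, G3 * (G1⁻¹ * (x * G3)) * G2, ⟨?_, ?_⟩, ?_⟩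
  · intro v
    have hv : act (G3 * (G1⁻¹ * (x * G3)) * G2) v - v =
        act G3 (act (G1⁻¹ * (x * G3)) (act G2 v) - act G2 v) := by
      rw [act_sub, ← act_mul G3 G2, h32, act_one, act_mul, act_mul]
    obtain ⟨u0, hu0⟩ := mem_fib.mp (hR0.1 (act G2 v))
    have hv' : (G3 * (G1⁻¹ * (x * G3)) * G2).1 *ᵥ v - v =
        act G3 (act (G1⁻¹ * (x * G3)) (act G2 v) - act G2 v) := hv
    rw [hv']
    have hu0' : act (G1⁻¹ * (x * G3)) (act G2 v) - act G2 v = pt u0 w := hu0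
    rw [hu0', hG3pt]
    exact pt_mem_fib _ _
  · intro v hv
    obtain ⟨u, rfl⟩ := mem_fib.mp hv
    have h3 : act (G3 * (G1⁻¹ * (x * G3)) * G2) (pt u w) = pt u w := by
      rw [act_mul, act_mul, hG2pt]
      have h4 : act (G1⁻¹ * (x * G3)) (pt (ξ.1 *ᵥ u) w) = pt (ξ.1 *ᵥ u) w :=
        hR0.2 _ (pt_mem_fib _ _)
      rw [h4, hG3pt, inv_mulVec_mulVec]
    exact h3
  · rw [e1, hG3inv]
    group

end Cfsg.Agent.Lib.Helper14.TPB1
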