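import Mathlib
import Cfsg.Prelude.Def_GeometricClasses
import Cfsg.Agent.Lib.Helper97.Transv
import Cfsg.Agent.Lib.Helper97.TransvM
import Cfsg.Agent.Lib.Helper71.TP0
import Cfsg.Agent.Lib.Helper71.TP1
import Cfsg.Agent.Lib.Helper75.TPL3
import Cfsg.Agent.Lib.Helper17.TPB1b
import Cfsg.Agent.Lib.Helper14.TPB1Aux

/-!
# S5637, piece B1: an element stabilising a fibre and normalising its root elements is
`(ξ ⊗ γ) · r` with `r` of type `InR`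
-/

set_option autoImplicit false

namespace Cfsg.Agent.Lib.Helper14.TPB1

open Matrix Cfsg.Agent.Lib.Helper71.TP Cfsg.Agent.Lib.Helper97
open scoped Kronecker

variable {a b : ℕ} {F : Type*} [Field F]

/-- B1 -/
theorem stab_form (ha : 1 ≤ a) (x : GL (Fin a × Fin b) F) (w : Fin b → F) (hw : w ≠ 0)
    (hx : ∀ v ∈ fib (a := a) w, act x v ∈ fib (a := a) w)
    (h1 : ∀ ψ : Fin b → F, ψ ⬝ᵥ w = 0 →
      ∃ ψ' : Fin b → F, ψ' ⬝ᵥ w = 0 ∧ x.1 * kv 1 w ψ = kv 1 w ψ' * x.1)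
    (h2 : ∀ ψ' : Fin b → F, ψ' ⬝ᵥ w = 0 →
      ∃ ψ : Fin b → F, ψ ⬝ᵥ w = 0 ∧ x.1 * kv 1 w ψ = kv 1 w ψ' * x.1) :
    ∃ (ξ : GL (Fin a) F) (γ : GL (Fin b) F) (r : GL (Fin a × Fin b) F),
      InR r w ∧ x = kronG ξ γ * r :=
  stab_form_aux x w hw (Cfsg.Agent.Lib.Helper75.TPL3.exists_xi x w hw hx)
    (fun x' hfix h1' h2' => Cfsg.Agent.Lib.Helper17.TPB1b.stab_aux2 ha x' w hw hfix h1' h2')
    h1 h2

end Cfsg.Agent.Lib.Helper14.TPB1
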