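import Mathlib
import Cfsg.Agent.Lib.Helper98.U84Defs
import Cfsg.Agent.Lib.Helper47.DualPoly

/-!
# S5984 piece U84-SDCONTRA (helper14 for helper98)
-/

set_option autoImplicit false

namespace Cfsg.Agent.Lib.Helper98.U84

open Matrix Polynomial

theorem selfdual_mult_contra {F : Type*} [Field F] [Finite F] {p : ℕ} [Fact p.Prime] [CharP F p]
    (σ : F →+* F) (hσ : ∀ x, σ (σ x) = x) (f P R : F[X]) (hf : Irreducible f) (hfm : f.Monic)
    (hf0 : f.coeff 0 ≠ 0) (hfd : Cfsg.Agent.Lib.Helper47.dualP σ f = f) (hPm : P.Monic)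
    (hP0 : P.coeff 0 ≠ 0) (c : ℕ) (hR : ¬ f ∣ (X - 1) ^ c * R)
    (h : P * Cfsg.Agent.Lib.Helper47.dualP σ P = (X - 1) ^ c * (f * R)) : False := by
  have hprime : Prime f := hf.prime
  have hdd : Cfsg.Agent.Lib.Helper47.dualP σ (Cfsg.Agent.Lib.Helper47.dualP σ P) = P :=
    (Cfsg.Agent.Lib.Helper47.dualP_props p hσ P hPm hP0).2.2.2
  have hfPP : f ∣ P * Cfsg.Agent.Lib.Helper47.dualP σ P := by
    rw [h]
    exact Dvd.dvd.mul_left (dvd_mul_right f R) _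
  have hfP : f ∣ P := by
    rcases hprime.dvd_or_dvd hfPP with h1 | h1
    · exact h1
    · obtain ⟨Q, hQ⟩ := h1
      have h2 := congrArg (Cfsg.Agent.Lib.Helper47.dualP σ) hQ
      rw [hdd, Cfsg.Agent.Lib.Helper47.dualP_mul, hfd] at h2
      exact ⟨_, h2⟩
  obtain ⟨P₁, hP₁⟩ := hfP
  have h3 : Cfsg.Agent.Lib.Helper47.dualP σ P = f * Cfsg.Agent.Lib.Helper47.dualP σ P₁ := by
    rw [hP₁, Cfsg.Agent.Lib.Helper47.dualP_mul, hfd]
  rw [h3, hP₁] at h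
  have h4 : f * (P₁ * (f * Cfsg.Agent.Lib.Helper47.dualP σ P₁)) = f * ((X - 1) ^ c * R) := by
    rw [← mul_assoc, h]; ring
  have h5 := mul_left_cancel₀ hf.ne_zero h4
  apply hR
  rw [← h5]
  exact Dvd.dvd.mul_left (dvd_mul_right f _) _

end Cfsg.Agent.Lib.Helper98.U84
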