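import Mathlib
import Cfsg.Prelude.Def_PLocal
import Cfsg.Agent.S0622
import Cfsg.Agent.Lib.Helper14.Coprime

set_option autoImplicit false

namespace Cfsg.Agent.Lib.Helper14

open Cfsg

universe u

section wsub

variable {G : Type u} [Group G] {p : ℕ} [Fact p.Prime]

/-- `W(T)` as a subgroup of the ambient group. -/
def WG (p : ℕ) (T : Subgroup G) : Subgroup G := (stableNormalClosure p ↥T).map T.subtype

omit [Fact p.Prime] in
theorem WG_le (T : Subgroup G) : WG p T ≤ T := Subgroup.map_subtype_le _

/-- `W` is natural under homs injective on the subgroup. -/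
theorem WG_map [Finite G] {G' : Type u} [Group G'] (f : G →* G') (T : Subgroup G)
    (hf : Set.InjOn f T) : WG p (T.map f) = (WG p T).map f := by
  have hinj : Function.Injective (f.subgroupMap T) := by
    intro x y hxy
    apply Subtype.ext
    apply hf x.2 y.2
    exact congrArg Subtype.val hxy
  let e : ↥T ≃* ↥(T.map f) :=
    MulEquiv.ofBijective (f.subgroupMap T) ⟨hinj, f.subgroupMap_surjective T⟩
  have h1 : (stableNormalClosure p ↥T).map e.toMonoidHom = stableNormalClosure p ↥(T.map f) :=
    Cfsg.Agent.S0622.stable_map_equiv e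
  unfold WG
  rw [← h1, Subgroup.map_map, Subgroup.map_map]
  rfl

omit [Fact p.Prime] in
theorem map_conj_eq_of_mem_normalizer {T : Subgroup G} {g : G}
    (hg : g ∈ Subgroup.normalizer (T : Set G)) : T.map (MulAut.conj g).toMonoidHom = T := by
  ext x
  constructor
  · rintro ⟨t, ht, rfl⟩
    exact (Subgroup.mem_normalizer_iff.mp hg t).mp ht
  · intro hx
    refine ⟨g⁻¹ * x * g, ?_, ?_⟩
    · have := (Subgroup.mem_normalizer_iff.mp hg (g⁻¹ * x * g)).mpr
      apply this
      have e : g * (g⁻¹ * x * g) * g⁻¹ = x := by group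
      rw [e]; exact hx
    · simp only [MulEquiv.coe_toMonoidHom, MulAut.conj_apply]
      group

omit [Fact p.Prime] in
theorem mem_normalizer_of_map_conj_eq {T : Subgroup G} {g : G}
    (hg : T.map (MulAut.conj g).toMonoidHom = T) : g ∈ Subgroup.normalizer (T : Set G) := by
  rw [Subgroup.mem_normalizer_iff]
  intro n
  constructor
  · intro hn
    rw [← hg]
    exact ⟨n, hn, rfl⟩
  · intro hn
    rw [← hg] at hn
    obtain ⟨m, hm, hmn⟩ := hn
    have : m = n := by
      simp only [MulEquiv.coe_toMonoidHom, MulAut.conj_apply] at hmn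
      have h1 : m = g⁻¹ * (g * m * g⁻¹) * g := by group
      rw [h1, hmn]; group
    rw [← this]; exact hm

/-- `W(T)` is normalized by the normalizer of `T`. -/
theorem normalizer_le_normalizer_WG [Finite G] (T : Subgroup G) :
    Subgroup.normalizer (T : Set G) ≤ Subgroup.normalizer ((WG p T : Subgroup G) : Set G) := by
  intro g hg
  apply mem_normalizer_of_map_conj_eq
  rw [← WG_map _ _ (MulAut.conj g).injective.injOn, map_conj_eq_of_mem_normalizer hg]

theorem WG_ne_bot [Finite G] (T : Subgroup G) (hT : IsPGroup p T) (hT1 : T ≠ ⊥) :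
    WG p T ≠ ⊥ := by
  have hnt : Nontrivial ↥T := (Subgroup.nontrivial_iff_ne_bot T).mpr hT1
  have h1 := (Cfsg.Agent.S0622.result hT).2.2.2.1 hnt
  intro h
  apply h1
  unfold WG at h
  exact (Subgroup.map_eq_bot_iff_of_injective _ T.subtype_injective).mp h

theorem WG_subgroupOf [Finite G] (M T : Subgroup G) (hTM : T ≤ M) :
    (WG p (T.subgroupOf M)).map M.subtype = WG p T := by
  rw [← WG_map _ _ M.subtype_injective.injOn, Subgroup.map_subgroupOf_eq_of_le hTM]

end wsub

end Cfsg.Agent.Lib.Helper14
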